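import Cfsg.Agent.Class.Asch.UAsch

/-! Coordinates adapted to a form; the four-dimensional orthogonal space of plus type. -/

set_option autoImplicit false

namespace Cfsg.Agent.Class.Asch

open Cfsg.Geo
open scoped MatrixGroups Matrix Kronecker commutatorElement

variable {ι : Type} [Fintype ι] [DecidableEq ι] {F : Type*} [Field F]
  {σ : F ≃+* F} {ε : F} {f : (ι → F) → (ι → F) → F}

theorem FC.exists_tr_of_gram (hf : FC σ ε f) {κ : Type} [Fintype κ] [DecidableEq κ]
    (hc : Fintype.card κ = Fintype.card ι) (b : κ → ι → F) {G : Matrix κ κ F}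
    (hG : ∀ a c, f (b a) (b c) = G a c) (hd : G.det ≠ 0) :
    ∃ (e : ι ≃ κ) (B : GL ι F), (∀ x, trV e B x = ∑ a, x a • b a) ∧
      Asch.pull e B f = formOfGram σ G := by
  let T := Fintype.linearCombination F b
  have h1 : ∀ x y, f (T x) (T y) = formOfGram σ G x y := fun x y => by
    simp only [T, Fintype.linearCombination_apply, hf.sesq.sum_left, hf.sesq.sum_right,
      hf.sesq.smul_left, hf.sesq.smul_right, hG, formOfGram, Finset.mul_sum]
    exact Finset.sum_congr rfl fun _ _ => Finset.sum_congr rfl fun _ _ => by ring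
  have h2 : Function.Injective T := by
    rw [injective_iff_map_eq_zero]
    intro x hx
    by_contra h0
    obtain ⟨y, hy⟩ := (nondeg_frm σ hd x h0).2
    rw [← h1, hx, hf.sesq.zero_left] at hy
    exact hy rfl
  obtain ⟨e, B, h⟩ := exists_tr_of_equiv (LinearMap.linearEquivOfInjective T h2 (by simp [hc]))
  refine ⟨e, B, fun x => h x, funext₂ fun x y => ?_⟩
  rw [Asch.pull, h, h]; exact h1 x y

theorem IsBlocks.pull_eq (hf : FC σ ε f) {α τ : Type} [Fintype α] [DecidableEq α] [Fintype τ]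
    [DecidableEq τ] {D : τ → Submodule F (ι → F)} {e : ι ≃ α × τ} {B : GL ι F}
    (h : IsBlocks D e B) (ho : ∀ i j, i ≠ j → AreOrthogonalFor f (D i) (D j)) :
    ∃ G : τ → Matrix α α F, (∀ j, (G j).det ≠ 0) ∧
      (∀ j a b, G j a b = f (trV e B (Pi.single (a, j) 1)) (trV e B (Pi.single (b, j) 1))) ∧
      pull e B f = formOfGram σ (Matrix.blockDiagonal G) := by
  let G : τ → Matrix α α F := fun j => Matrix.of fun a b =>
    f (trV e B (Pi.single (a, j) 1)) (trV e B (Pi.single (b, j) 1))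
  have h1 : gramMatrix (pull e B f) = Matrix.blockDiagonal G := by
    ext ⟨a, i⟩ ⟨b, j⟩
    rw [Matrix.blockDiagonal_apply']
    split_ifs with hij
    · subst hij; rfl
    · exact ho i j hij _ ((h i _).2 ⟨_, by rw [single_eq_tens]⟩) _ ((h j _).2 ⟨_, by rw [single_eq_tens]⟩)
  have h2 := (hf.pull e B).det_ne
  rw [h1, Matrix.det_blockDiagonal, Finset.prod_ne_zero_iff] at h2
  exact ⟨G, fun j => h2 j (Finset.mem_univ j), fun _ _ _ => rfl, h1 ▸ (hf.pull e B).sesq.eq_frm⟩

theorem adj_symp_two {f : (Fin 2 → F) → (Fin 2 → F) → F} (hf : IsSymplecticForm f)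
    (a : Matrix (Fin 2) (Fin 2) F) : adj (RingEquiv.refl F) f a = a.trace • 1 - a := by
  refine (fc_of_symplectic hf).adj_unique_gram ?_
  have h0 : ∀ i, gramMatrix f i i = 0 := fun i => hf.alternating _
  have h1 : gramMatrix f 1 0 = - gramMatrix f 0 1 := hf.skew _ _
  ext i j
  fin_cases i <;> fin_cases j <;>
    simp [Matrix.mul_apply, Fin.sum_univ_two, Matrix.trace, h0, h1] <;> ring

theorem isSymplecticForm_J2 : IsSymplecticForm (formOfGram (RingEquiv.refl F) (J2 F)) :=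
  isSymplecticForm_frm (by rw [J2_det]; exact one_ne_zero) (by rw [J2_transpose, neg_one_smul])
    fun i => by fin_cases i <;> rfl

/-! ### Symplectic forms over an extension field -/

theorem two_mul_dvd_of_selfadj {f : (ι → F) → (ι → F) → F} (hf : IsSymplecticForm f)
    {K : Subalgebra F (Matrix ι ι F)} {r : ℕ} (hK : IsFieldSubalgebra r K)
    (hs : IsSelfAdjointFor f K) (ha : ∀ k ∈ K, ∀ v, f (k *ᵥ v) v = 0) :
    2 * r ∣ Fintype.card ι := by
  have hc := fc_of_symplectic hf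
  have key : ∀ n, ∀ W : Submodule F (ι → F), Module.finrank F W = n →
      (∀ k ∈ K, ∀ w ∈ W, k *ᵥ w ∈ W) → IsNondegenerateOn f W → 2 * r ∣ n := by
    intro n
    induction n using Nat.strong_induction_on with
    | _ n ih =>
    intro W hn hW hnd
    by_cases h0 : W = ⊥
    · rw [← hn, h0, finrank_bot]; exact dvd_zero _
    obtain ⟨v, hv, hv0⟩ := (Submodule.ne_bot_iff W).1 h0
    obtain ⟨w, hw, hvw⟩ := (hnd v hv hv0).2
    let L : (K × K) →ₗ[F] (ι → F) := (evalL K v).coprod (evalL K w)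
    have hL : ∀ a b : K, L (a, b) = (a : Matrix ι ι F) *ᵥ v + (b : Matrix ι ι F) *ᵥ w :=
      fun _ _ => rfl
    have h1 : ∀ a b : K, ∀ u, f ((a : Matrix ι ι F) *ᵥ u) ((b : Matrix ι ι F) *ᵥ u) = 0 :=
      fun a b u => by
        rw [← hs b b.2, Matrix.mulVec_mulVec]; exact ha _ (K.mul_mem b.2 a.2) u
    have h2 : ∀ x, (∀ y, f (L x) (L y) = 0) → x = 0 := by
      rintro ⟨a, b⟩ h
      refine Prod.ext ?_ ?_
      · by_contra h3
        obtain ⟨y, hy, h4⟩ := hK.inv a a.2 fun h => h3 (Subtype.ext h)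
        have := h (0, ⟨y, hy⟩)
        rw [hL, hL, hf.bilinear.add_left, ZeroMemClass.coe_zero, Matrix.zero_mulVec, zero_add,
          h1 b ⟨y, hy⟩, add_zero, hs a a.2, Matrix.mulVec_mulVec, h4, Matrix.one_mulVec] at this
        exact hvw this
      · by_contra h3
        obtain ⟨y, hy, h4⟩ := hK.inv b b.2 fun h => h3 (Subtype.ext h)
        have := h (⟨y, hy⟩, 0)
        rw [hL, hL, hf.bilinear.add_left, ZeroMemClass.coe_zero, Matrix.zero_mulVec, add_zero,
          h1 a ⟨y, hy⟩, zero_add, hs b b.2, Matrix.mulVec_mulVec, h4, Matrix.one_mulVec] at this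
        exact hvw (hc.perp_symm this)
    have h3 : IsNondegenerateOn f (LinearMap.range L) := hc.nd_of (by
      rintro _ ⟨x, rfl⟩ h
      rw [h2 x fun y => h _ ⟨y, rfl⟩, map_zero])
    have h4 : Module.finrank F (LinearMap.range L) = 2 * r := by
      rw [LinearMap.finrank_range_of_inj ((injective_iff_map_eq_zero L).2 fun x hx =>
        h2 x fun y => by rw [hx, hc.sesq.zero_left]), Module.finrank_prod, hK.finrank_eq, two_mul]
    have h5 : LinearMap.range L ≤ W := by
      rintro _ ⟨⟨a, b⟩, rfl⟩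
      exact W.add_mem (hW a a.2 v hv) (hW b b.2 w hw)
    have h6 := hc.isCompl_perp h3
    have h7 : LinearMap.range L ⊔ W ⊓ hc.perp (LinearMap.range L) = W := by
      rw [inf_comm, ← sup_inf_assoc_of_le _ h5, h6.sup_eq_top, top_inf_eq]
    have h8 := Submodule.finrank_sup_add_finrank_inf_eq (LinearMap.range L)
      (W ⊓ hc.perp (LinearMap.range L))
    rw [h7, (h6.disjoint.mono_right inf_le_right).eq_bot, finrank_bot, h4, hn] at h8
    have hr : 0 < r := by
      rw [← hK.finrank_eq]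
      haveI : Nontrivial K := ⟨0, 1, fun h => hv0 (by
        rw [← Matrix.one_mulVec v, ← OneMemClass.coe_one K, ← h, ZeroMemClass.coe_zero,
          Matrix.zero_mulVec])⟩
      exact Module.finrank_pos
    have h9 := ih _ (by omega) (W ⊓ hc.perp (LinearMap.range L)) rfl (fun k hk u hu =>
      ⟨hW k hk u hu.1, by
        rintro _ ⟨⟨a, b⟩, rfl⟩
        rw [hs k hk]
        refine hu.2 _ ⟨(⟨k, hk⟩ * a, ⟨k, hk⟩ * b), ?_⟩
        simp only [hL, Matrix.mulVec_add, Matrix.mulVec_mulVec, MulMemClass.coe_mul]⟩)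
      (hc.nd_of fun u hu h => by
        by_contra hu0
        obtain ⟨x, hx, hux⟩ := (hnd u hu.1 hu0).2
        rw [← h7] at hx
        obtain ⟨y, hy, z, hz, rfl⟩ := Submodule.mem_sup.1 hx
        rw [hf.bilinear.add_right, hu.2 y hy, h z hz, add_zero] at hux
        exact hux rfl)
    rw [add_zero] at h8
    rw [h8]
    exact dvd_add dvd_rfl h9
  exact key _ ⊤ (by simp) (fun _ _ _ _ => Submodule.mem_top)
    (hc.nd_of fun w _ h => hc.eq_zero_left fun x => h x Submodule.mem_top)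

/-! ### The orthogonal group of plus type in dimension four -/

theorem exists_tensForm_plus (hι : Fintype.card ι = 4) (h2 : (2 : F) ≠ 0)
    {f : (ι → F) → (ι → F) → F} (hf : IsSymmetricForm f)
    (hp : IsPlusTypeOn (fun v => f v v) ⊤) : ∃ (e : ι ≃ Fin 2 × Fin 2) (B : GL ι F),
      TensForm (RingEquiv.refl F) f e B (-1) (-1) (formOfGram (RingEquiv.refl F) (J2 F))
        (formOfGram (RingEquiv.refl F) (J2 F)) := by
  have hc := fc_of_symmetric hf
  obtain ⟨hQ, hQ'⟩ := isNondegenerateQuadraticForm_of_symm hf.bilinear hf.symm hf.nondegenerate h2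
  obtain ⟨g, hg⟩ := QF.IsPlus.exists_equiv (Q := Max.qfOf hQ) (m := 2)
    ((QF.nondeg_iff _).2 (Max.nondeg_of hQ.nondegenerate).1)
    (by obtain ⟨U, -, h1, h3⟩ := hp; exact ⟨U, h1, by simpa using h3⟩) (by simp [hι])
  have h1 : ∀ x y, 2 * f (g.symm x) (g.symm y) = QuadraticMap.polar (quadFormPlus 2 F) x y := by
    intro x y
    rw [← hQ']
    change QuadraticMap.polar (Max.qfOf hQ) _ _ = _
    simp only [QuadraticMap.polar, ← hg, map_add, LinearEquiv.apply_symm_apply]
  let b : Fin 2 × Fin 2 → (Fin 2 ⊕ Fin 2 → F) := fun p =>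
    !![Pi.single (.inl 0) 1, Pi.single (.inl 1) 1;
      Pi.single (.inr 1) (-2), Pi.single (.inr 0) 2] p.1 p.2
  obtain ⟨e, B, -, h⟩ := hc.exists_tr_of_gram (by simp [hι]) (fun p => g.symm (b p))
    (G := J2 F ⊗ₖ J2 F) (fun p q => mul_left_cancel₀ h2 (by
      rw [h1]
      obtain ⟨i, j⟩ := p
      obtain ⟨k, l⟩ := q
      fin_cases i <;> fin_cases j <;> fin_cases k <;> fin_cases l <;>
        simp [b, QuadraticMap.polar, quadFormPlus, J2, Fin.sum_univ_two]))
    (by rw [Matrix.det_kronecker, J2_det]; simp)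
  refine ⟨e, B, fc_J2, fc_J2, fun h => absurd rfl h, fun h => absurd rfl h, fun x y => ?_⟩
  rw [hc.adj_tr]
  congr 1
  refine (hc.pull e B).adj_unique_gram ?_
  have h3 := (fc_J2 (F := F)).gram_adj x
  have h4 := (fc_J2 (F := F)).gram_adj y
  rw [gram_frm] at h3 h4
  rw [h, gram_frm, kron_map, ← Matrix.mul_kronecker_mul, h3, h4, Matrix.mul_kronecker_mul,
    Matrix.kroneckerMap_transpose]

theorem sq_of_trace_zero {a : Matrix (Fin 2) (Fin 2) F} (ha : a.trace = 0) :
    a * a = (-a.det) • 1 := by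
  have h : a 1 1 = - a 0 0 := by
    rw [Matrix.trace_fin_two] at ha; linear_combination ha
  ext i j
  fin_cases i <;> fin_cases j <;> simp [Matrix.mul_apply, Fin.sum_univ_two, Matrix.det_fin_two, h] <;>
    ring

theorem neg_kron {α β : Type} (a : Matrix α α F) (b : Matrix β β F) : (-a) ⊗ₖ b = -(a ⊗ₖ b) := by
  ext; simp

theorem kron_neg {α β : Type} (a : Matrix α α F) (b : Matrix β β F) : a ⊗ₖ (-b) = -(a ⊗ₖ b) := by
  ext; simp

section plus

variable {f : (ι → F) → (ι → F) → F} {e : ι ≃ Fin 2 × Fin 2} {B : GL ι F} {ε₁ ε₂ : F}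
  {f₁ f₂ : (Fin 2 → F) → (Fin 2 → F) → F}

theorem TensForm.skew_cases (h2 : (2 : F) ≠ 0) (hf : FC (RingEquiv.refl F) ε f)
    (h : TensForm (RingEquiv.refl F) f e B ε₁ ε₂ f₁ f₂) (h₁ : IsSymplecticForm f₁)
    (h₂ : IsSymplecticForm f₂) {Y : Matrix ι ι F} (hY : adj (RingEquiv.refl F) f Y = -Y)
    {c : F} (hc : Y * Y = c • 1) : (∃ a, Y = homL e B a) ∨ ∃ a, Y = homR e B a := by
  have key : ∀ X, ∃ (a b : Matrix (Fin 2) (Fin 2) F) (S : Matrix ι ι F), a.trace = 0 ∧
      b.trace = 0 ∧ adj (RingEquiv.refl F) f S = S ∧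
      tr e B X = tr e B (a ⊗ₖ 1) + tr e B (1 ⊗ₖ b) + S := by
    intro X
    refine kron_induction (p := fun X => ∃ (a b : Matrix (Fin 2) (Fin 2) F) (S : Matrix ι ι F),
      a.trace = 0 ∧ b.trace = 0 ∧ adj (RingEquiv.refl F) f S = S ∧
      tr e B X = tr e B (a ⊗ₖ 1) + tr e B (1 ⊗ₖ b) + S) ⟨0, 0, 0, by simp, by simp, hf.adj_zero,
        by simp⟩ ?_ ?_ (fun u v => ?_) X
    · rintro X Y ⟨a, b, S, h1, h3, h4, h5⟩ ⟨a', b', S', h1', h3', h4', h5'⟩
      refine ⟨a + a', b + b', S + S', by simp [h1, h1'], by simp [h3, h3'],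
        by rw [hf.adj_add, h4, h4'], ?_⟩
      rw [map_add, h5, h5', Matrix.add_kronecker, Matrix.kronecker_add, map_add, map_add]; abel
    · rintro c X ⟨a, b, S, h1, h3, h4, h5⟩
      refine ⟨c • a, c • b, c • S, by simp [h1], by simp [h3], by rw [hf.adj_smul, h4]; rfl, ?_⟩
      rw [map_smul, h5, Matrix.smul_kronecker, Matrix.kronecker_smul, map_smul, map_smul, smul_add,
        smul_add]
    · have h3 : ∀ u : Matrix (Fin 2) (Fin 2) F, ∃ (α : F) (a : Matrix (Fin 2) (Fin 2) F),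
          a.trace = 0 ∧ u = α • 1 + a := fun u =>
        ⟨u.trace / 2, u - (u.trace / 2) • 1, by simp; field_simp; ring, by simp⟩
      obtain ⟨α, a, ha, rfl⟩ := h3 u
      obtain ⟨β, b, hb, rfl⟩ := h3 v
      refine ⟨β • a, α • b, (α * β) • 1 + tr e B (a ⊗ₖ b), by simp [ha], by simp [hb], ?_, ?_⟩
      · rw [hf.adj_add, hf.adj_smul_one, h.adj_kron, adj_symp_two h₁, adj_symp_two h₂, ha, hb]
        simp only [zero_smul, zero_sub, neg_kron, kron_neg, neg_neg, RingEquiv.refl_apply]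
      · simp only [Matrix.add_kronecker, Matrix.kronecker_add, Matrix.smul_kronecker,
          Matrix.kronecker_smul, Matrix.one_kronecker_one, map_add, map_smul, map_one, smul_smul]
        module
  obtain ⟨X, rfl⟩ := (tr e B).surjective Y
  obtain ⟨a, b, S, ha, hb, hS, hX⟩ := key X
  have h3 : S = 0 := by
    rw [hX, hf.adj_add, hf.adj_add, hS, h.adj_kron, h.adj_kron, h.fc₁.adj_one, h.fc₂.adj_one,
      adj_symp_two h₁, adj_symp_two h₂, ha, hb] at hY
    simp only [zero_smul, zero_sub, neg_kron, kron_neg, map_neg] at hY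
    have h4 : (2 : F) • S = 0 := by rw [two_smul]; linear_combination (norm := abel1) hY
    exact (smul_eq_zero.1 h4).resolve_left h2
  rw [h3, add_zero, ← map_add] at hX
  obtain rfl := (tr e B).injective hX
  have h4 : a ⊗ₖ b = ((c + a.det + b.det) / 2) • 1 := by
    rw [← map_mul, ← map_one (tr e B), ← map_smul, (tr e B).injective.eq_iff] at hc
    simp only [add_mul, mul_add, ← Matrix.mul_kronecker_mul, mul_one, one_mul, sq_of_trace_zero ha,
      sq_of_trace_zero hb, Matrix.smul_kronecker, Matrix.kronecker_smul,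
      Matrix.one_kronecker_one] at hc
    have h5 : (2 : F) • (a ⊗ₖ b) = (c + a.det + b.det) • 1 := by
      rw [add_smul, add_smul, ← hc]; module
    rw [div_eq_inv_mul, mul_smul, ← h5, smul_smul, inv_mul_cancel₀ h2, one_smul]
  by_cases hb0 : b = 0
  · exact Or.inl ⟨a, by simp [hb0, homL_apply]⟩
  refine Or.inr ⟨b, ?_⟩
  have ha0 : a = 0 := by
    by_cases h0 : (c + a.det + b.det) / 2 = 0
    · rw [h0, zero_smul] at h4
      obtain ⟨i, j, hij⟩ : ∃ i j, b i j ≠ 0 := by
        by_contra hc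
        push Not at hc
        exact hb0 (Matrix.ext hc)
      ext k l
      exact (mul_eq_zero.1 (congrFun (congrFun h4 (k, i)) (l, j))).resolve_right hij
    · obtain ⟨d, hd, rfl⟩ := scalar_of_kron_eq h0 h4
      simp [h2, hd] at ha
  simp [ha0, homR_apply]

theorem exists_forall_of_or {V : Type*} [AddCommGroup V] {p : V → Prop} {q r : V → Prop}
    (hp : ∀ x y, p x → p y → p (x + y)) (hq : ∀ x y, q (x + y) → q y → q x)
    (hr : ∀ x y, r (x + y) → r x → r y) (h : ∀ x, p x → q x ∨ r x) :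
    (∀ x, p x → q x) ∨ ∀ x, p x → r x := by
  by_contra hc
  push Not at hc
  obtain ⟨⟨x, hx, hx'⟩, y, hy, hy'⟩ := hc
  rcases h _ (hp x y hx hy) with h1 | h1
  · exact hx' (hq x y h1 ((h y hy).resolve_right hy'))
  · exact hy' (hr x y h1 ((h x hx).resolve_left hx'))

theorem TensForm.hom_cases (h2 : (2 : F) ≠ 0) (hf : FC (RingEquiv.refl F) ε f)
    (h : TensForm (RingEquiv.refl F) f e B ε₁ ε₂ f₁ f₂) (h₁ : IsSymplecticForm f₁)
    (h₂ : IsSymplecticForm f₂) {g : GL ι F} (hg : g ∈ similarityGroup f)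
    (φ : Matrix (Fin 2) (Fin 2) F →ₐ[F] Matrix ι ι F)
    (hφ : ∀ a, adj (RingEquiv.refl F) f (φ a) = φ (a.trace • 1 - a)) :
    (∀ a, ∃ b, cj g (φ a) = homL e B b) ∨ ∀ a, ∃ b, cj g (φ a) = homR e B b := by
  have h3 : ∀ ψ : Matrix (Fin 2) (Fin 2) F →ₐ[F] Matrix ι ι F,
      (∀ a, a.trace = 0 → ∃ b, cj g (φ a) = ψ b) → ∀ a, ∃ b, cj g (φ a) = ψ b := by
    intro ψ h a
    obtain ⟨b, hb⟩ := h (a - (a.trace / 2) • 1) (by simp; field_simp; ring)
    refine ⟨b + (a.trace / 2) • 1, ?_⟩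
    simp only [map_sub, map_add, map_smul, map_one] at hb ⊢
    rw [← hb, sub_add_cancel]
  refine (exists_forall_of_or (p := fun a => a.trace = 0) (q := fun a => ∃ b, cj g (φ a) = homL e B b)
    (r := fun a => ∃ b, cj g (φ a) = homR e B b) (fun x y hx hy => by simp [hx, hy]) ?_ ?_
    fun a ha => ?_).imp (h3 _) (h3 _)
  · rintro x y ⟨b, hb⟩ ⟨c, hc⟩
    exact ⟨b - c, by rw [map_sub, ← hb, ← hc, map_add, map_add, add_sub_cancel_right]⟩
  · rintro x y ⟨b, hb⟩ ⟨c, hc⟩
    exact ⟨b - c, by rw [map_sub, ← hb, ← hc, map_add, map_add, add_sub_cancel_left]⟩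
  · refine h.skew_cases h2 hf h₁ h₂ (c := -a.det) ?_ ?_
    · rw [hf.adj_cj hg, hφ, ha, zero_smul, zero_sub, map_neg, map_neg]
    · rw [← map_mul, ← map_mul, sq_of_trace_zero ha, map_smul, map_smul, map_one, map_one]

end plus

/-- the similarity group of a form of plus type in dimension four -/
theorem exists_powForm_plus (hι : Fintype.card ι = 4) (h2 : (2 : F) ≠ 0)
    {f : (ι → F) → (ι → F) → F} (hf : IsSymmetricForm f)
    (hp : IsPlusTypeOn (fun v => f v v) ⊤) : ∃ (e : ι ≃ (Fin 2 → Fin 2)) (B : GL ι F),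
      (∀ i a, adj (RingEquiv.refl F) f (tr e B (slot i a)) = tr e B (slot i (a.trace • 1 - a))) ∧
      similarityGroup f ≤ tensorWreathSubgroup 2 2 e B := by
  have := nonempty_of_two_le (ι := ι) (by omega)
  have hc := fc_of_symmetric hf
  obtain ⟨e, B, h⟩ := exists_tensForm_plus hι h2 hf hp
  obtain ⟨e', B', h0, h1, -⟩ := exists_tr_slot_two le_rfl e B 1
  simp only [cj_one] at h1
  have h3 : ∀ i a, adj (RingEquiv.refl F) f (tr e' B' (slot i a)) =
      tr e' B' (slot i (a.trace • 1 - a)) := by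
    intro i a
    fin_cases i
    · simp only [Fin.zero_eta, h0, h.adj_kron, h.fc₂.adj_one, adj_J2]
    · simp only [Fin.mk_one, h1, h.adj_kron, h.fc₁.adj_one, adj_J2]
  refine ⟨e', B', h3, fun g hg => mem_tensorWreathSubgroup_of_slots le_rfl two_pos e' B' g
    fun i => ?_⟩
  rcases h.hom_cases h2 hc isSymplecticForm_J2 isSymplecticForm_J2 hg (homS e' B' i) (h3 i) with
    h4 | h4
  · exact ⟨0, fun a => (h4 a).imp fun b hb => by rw [h0]; exact hb⟩
  · exact ⟨1, fun a => (h4 a).imp fun b hb => by rw [h1]; exact hb⟩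

end Cfsg.Agent.Class.Asch
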