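import Cfsg.Agent.Class.Asch.SpSmall
import Cfsg.Agent.Class.Asch.UCases

/-! Geometric subgroups over very small fields that are not maximal. -/

set_option autoImplicit false

namespace Cfsg.Agent.Class.Asch

open Cfsg.Geo
open scoped MatrixGroups Matrix Kronecker commutatorElement

theorem exists_between' {G : Type*} [Group G] {Ω S M : Subgroup G} (hle : S ⊓ Ω ≤ M)
    (hne : ¬ Ω ≤ M) {g : G} (hgM : g ∈ M) (hgΩ : g ∈ Ω) (hg : g ∉ S) :
    ∃ K : Subgroup G, S ⊓ Ω < K ∧ K < Ω :=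
  ⟨M ⊓ Ω, lt_of_le_of_ne (le_inf hle inf_le_right) fun h => hg (h.ge ⟨hgM, hgΩ⟩).1,
    lt_of_le_of_ne inf_le_right fun h => hne (h.ge.trans inf_le_left)⟩

variable {ι : Type} [Fintype ι] [DecidableEq ι] {F : Type*} [Field F]
  {σ : F ≃+* F} {ε : F} {f : (ι → F) → (ι → F) → F}

/-- The rank one map `x ↦ c f(x, v) v`. -/
def rk1 (σ : F ≃+* F) (f : (ι → F) → (ι → F) → F) (v : ι → F) (c : F) : Matrix ι ι F :=
  Matrix.vecMulVec (c • v) (gramMatrix f *ᵥ (σ ∘ v))

theorem FC.rk1_mulVec (hf : FC σ ε f) (v : ι → F) (c : F) (x : ι → F) :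
    rk1 σ f v c *ᵥ x = (c * f x v) • v := by
  rw [rk1, Matrix.vecMulVec_mulVec, dotProduct_comm, ← frm_eq, ← hf.sesq.eq_frm]
  simp [smul_smul, mul_comm]

theorem FC.adj_rk1 (hf : FC σ ε f) (v : ι → F) (c : F) :
    adj σ f (rk1 σ f v c) = rk1 σ f v (ε * σ c) := hf.adj_unique fun x y => by
  rw [hf.rk1_mulVec, hf.rk1_mulVec, hf.sesq.smul_left, hf.sesq.smul_right, hf.symm v y, map_mul,
    map_mul, hf.σ_eps, hf.invol]
  ring

theorem FC.rk1_mul (hf : FC σ ε f) (v : ι → F) (c d : F) :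
    rk1 σ f v c * rk1 σ f v d = rk1 σ f v (c * d * f v v) := ext_mulVec fun x => by
  rw [← Matrix.mulVec_mulVec, hf.rk1_mulVec, hf.rk1_mulVec, hf.rk1_mulVec, hf.sesq.smul_left]
  congr 1; ring

theorem FC.rk1_ne_zero (hf : FC σ ε f) {v : ι → F} (hv : v ≠ 0) {c : F} (hc : c ≠ 0) :
    rk1 σ f v c ≠ 0 := fun h => hv <| hf.eq_zero_right fun u => by
  have := hf.rk1_mulVec v c u
  rw [h, Matrix.zero_mulVec, eq_comm, smul_eq_zero, mul_eq_zero] at this
  exact (this.resolve_right hv).resolve_left hc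

theorem rk1_add (v : ι → F) (c d : F) : rk1 σ f v (c + d) = rk1 σ f v c + rk1 σ f v d := by
  rw [rk1, add_smul, Matrix.add_vecMulVec]; rfl

theorem rk1_zero (v : ι → F) : rk1 σ f v 0 = 0 := by simp [rk1]

theorem FC.exists_refl (hf : FC σ ε f) (v : ι → F) {c : F}
    (h : ε * σ c + c + ε * σ c * c * f v v = 0) : ∃ g ∈ isoG f,
      (g : Matrix ι ι F).det = 1 + c * f v v ∧
      ∀ x, (g : Matrix ι ι F) *ᵥ x = x + (c * f x v) • v := by
  have h1 : adj σ f (1 + rk1 σ f v c) * (1 + rk1 σ f v c) = 1 := by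
    rw [hf.adj_add, hf.adj_one, hf.adj_rk1, add_mul, mul_add, mul_add, hf.rk1_mul, one_mul, one_mul,
      mul_one, add_assoc, ← rk1_add, ← rk1_add, ← add_assoc, add_comm c, h, rk1_zero, add_zero]
  refine ⟨⟨_, _, mul_eq_one_comm.1 h1, h1⟩, hf.mem_isoG_of_adj h1, ?_, fun x => ?_⟩
  · change (1 + rk1 σ f v c).det = _
    rw [rk1, Matrix.vecMulVec_eq Unit, Matrix.det_one_add_replicateCol_mul_replicateRow,
      dotProduct_comm, ← frm_eq, ← hf.sesq.eq_frm, hf.sesq.smul_left]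
  · change (1 + rk1 σ f v c) *ᵥ x = _
    rw [Matrix.add_mulVec, Matrix.one_mulVec, hf.rk1_mulVec]

theorem IsBlocks.not_mem {α : Type} [Fintype α] [DecidableEq α] {t : ℕ}
    {D : Fin t → Submodule F (ι → F)} {e : ι ≃ α × Fin t} {B : GL ι F} (h : IsBlocks D e B)
    {g : GL (α × Fin t) F} {p : α × Fin t} {a b : α} {i j : Fin t} (hij : i ≠ j)
    (hi : ((g : Matrix _ _ F) *ᵥ Pi.single p 1) (a, i) ≠ 0)
    (hj : ((g : Matrix _ _ F) *ᵥ Pi.single p 1) (b, j) ≠ 0) :
    trGL e B g ∉ decompositionStabilizer D := fun hg => by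
  obtain ⟨π, gs, h1⟩ := h.exists_bmGL hg
  rw [(trGL e B).injective h1, Matrix.mulVec_single_one, coe_bmGL] at hi hj
  simp only [Matrix.col_apply, bm, Matrix.of_apply, ne_eq, ite_eq_right_iff, not_forall] at hi hj
  exact hij (hi.1.trans hj.1.symm)

theorem sl_lines_not_max (hσ : ∀ x, σ (σ x) = x) (hN : ∀ x : F, x ≠ 0 → x * σ x = 1)
    (h6 : (6 : F) = 0) {t : ℕ} (ht : 8 ≤ t) {D : Fin t → Submodule F (ι → F)}
    (hD : IsMDecomposition 1 D) : ∃ K : Subgroup (GL ι F),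
      decompositionStabilizer D ⊓ specialLinear ι F < K ∧ K < specialLinear ι F := by
  obtain ⟨e, B, h⟩ := IsMDecomposition.exists_blocks hD
  have hι := IsMDecomposition.card_eq' hD
  have hc := fc_one (ι := Fin 1 × Fin t) hσ
  let b : Fin 8 → Fin 1 × Fin t → F := fun k => Pi.single (0, ⟨k, by omega⟩) 1
  have hb : ∀ k l, formOfGram σ 1 (b k) (b l) = if k = l then 1 else 0 := fun k l => by
    simp [b, frm_single, Matrix.one_apply, Fin.ext_iff]
  obtain ⟨g, hg, hg1, hg2⟩ := hc.exists_refl (b 0 + b 1 + b 2 + b 3) (c := 1) (by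
    simp [hc.sesq.add_left, hc.sesq.add_right, hb]; linear_combination h6)
  obtain ⟨g', hg', hg1', hg2'⟩ := hc.exists_refl (b 4 + b 5 + b 6 + b 7) (c := 1) (by
    simp [hc.sesq.add_left, hc.sesq.add_right, hb]; linear_combination h6)
  have h1 : ((g * g' : GL _ F) : Matrix _ _ F) *ᵥ b 0 = b 0 + (b 0 + b 1 + b 2 + b 3) := by
    rw [Units.val_mul, ← Matrix.mulVec_mulVec, hg2', hg2]
    simp [hc.sesq.add_right, hb]
  refine exists_between' (M := similarityGroup (trForm e B (formOfGram σ 1))) (fun x hx => ?_)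
    (SL_not_le_similarity (by omega) (hc.trForm e B).sesq (hc.trForm e B).nondeg)
    (trGL_mem_similarityGroup e B (isoG_le_sim _ (mul_mem hg hg')))
    (trGL_mem_specialLinear.2 ?_) (h.not_mem (p := (0, ⟨0, by omega⟩)) (a := 0) (b := 0)
      (i := ⟨1, by omega⟩) (j := ⟨2, by omega⟩) (by simp) ?_ ?_)
  · obtain ⟨π, gs, rfl⟩ := h.exists_bmGL hx.1
    rw [← Matrix.blockDiagonal_one]
    refine IsBlocks.mem_similarity e B _ _ π gs one_ne_zero fun j => ?_
    rw [Pi.one_apply, Pi.one_apply, one_by_one_gram, hN _ (Matrix.isUnits_det_units (gs j)).ne_zero]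
  · rw [Units.val_mul, Matrix.det_mul, hg1, hg1']
    simp [hc.sesq.add_left, hc.sesq.add_right, hb]
    linear_combination 4 * h6
  all_goals
    change (_ *ᵥ b 0) _ ≠ 0
    rw [h1]; simp [b, Pi.single_apply, Fin.ext_iff]

theorem sl_planes_not_max [Fintype F] (hq : Fintype.card F = 2) (hι : 3 ≤ Fintype.card ι) {t : ℕ}
    {D : Fin t → Submodule F (ι → F)} (hD : IsMDecomposition 2 D) : ∃ K : Subgroup (GL ι F),
      decompositionStabilizer D ⊓ specialLinear ι F < K ∧ K < specialLinear ι F := by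
  obtain ⟨e, B, h⟩ := IsMDecomposition.exists_blocks hD
  have ht := hD.two_le
  have hf := isSymplecticForm_blockJ (F := F) (Fin t)
  have hc := fc_of_symplectic hf
  obtain ⟨g, hg, hg1, hg2⟩ := hc.exists_refl
    (Pi.single (0, ⟨0, by omega⟩) 1 + Pi.single (0, ⟨1, by omega⟩) 1) (c := 1) (by
      rw [hf.alternating]; simp)
  refine exists_between' (M := similarityGroup (trForm e B (formOfGram (RingEquiv.refl F)
      (Matrix.blockDiagonal fun _ : Fin t => J2 F)))) (fun x hx => ?_)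
    (SL_not_le_similarity hι (hc.trForm e B).sesq (hc.trForm e B).nondeg)
    (trGL_mem_similarityGroup e B (isoG_le_sim _ hg))
    (trGL_mem_specialLinear.2 (by rw [hg1, hf.alternating]; simp))
    (h.not_mem (p := (1, ⟨0, by omega⟩)) (a := 1) (b := 0)
      (i := ⟨0, by omega⟩) (j := ⟨1, by omega⟩) (by simp) ?_ ?_)
  · obtain ⟨π, gs, rfl⟩ := h.exists_bmGL hx.1
    refine IsBlocks.mem_similarity e B _ _ π gs one_ne_zero fun j => ?_
    rw [← eq_one_of_card_two hq (Matrix.isUnits_det_units (gs j)).ne_zero]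
    exact J2_conj _
  all_goals
    rw [hg2, hc.sesq.add_right, frm_single, frm_single]
    simp [Pi.single_apply, Matrix.blockDiagonal_apply', J2, Fin.ext_iff]

theorem scalar_of_kron_eq_add {α β : Type} [Fintype β] [DecidableEq α] [DecidableEq β]
    {a x : Matrix α α F} {b N : Matrix β β F} (h : a ⊗ₖ b = 1 + x ⊗ₖ N) (hN : N * N = 0)
    (h0 : N ≠ 0) : ∃ c : F, x = c • 1 := by
  have key : ∀ w i, (b *ᵥ w) i • a = w i • 1 + (N *ᵥ w) i • x := fun w i => by
    ext p q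
    have h1 : ∀ j, a p q * b i j = (1 : Matrix α α F) p q * (1 : Matrix β β F) i j + x p q * N i j :=
      fun j => by
        have := congrFun (congrFun h (p, i)) (q, j)
        rwa [← Matrix.one_kronecker_one] at this
    have h2 : w i = ((1 : Matrix β β F) *ᵥ w) i := by rw [Matrix.one_mulVec]
    rw [h2]
    simp only [Matrix.smul_apply, Matrix.add_apply, Matrix.mulVec, dotProduct, smul_eq_mul,
      Finset.sum_mul, ← Finset.sum_add_distrib]
    exact Finset.sum_congr rfl fun j _ => by linear_combination w j * h1 j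
  obtain ⟨w, hw⟩ : ∃ w, N *ᵥ w ≠ 0 := by
    by_contra! h1
    exact h0 (ext_mulVec fun v => by rw [h1, Matrix.zero_mulVec])
  obtain ⟨i, hi⟩ := Function.ne_iff.1 hw
  have h1 := key (N *ᵥ w) i
  rw [Matrix.mulVec_mulVec w N N, hN, Matrix.zero_mulVec, Pi.zero_apply, zero_smul, add_zero] at h1
  have h2 := key w i
  generalize (b *ᵥ N *ᵥ w) i = c at h1
  generalize (b *ᵥ w) i = d at h2
  rw [Pi.zero_apply] at hi
  generalize (N *ᵥ w) i = u at h1 h2 hi
  by_cases hc : c = 0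
  · refine ⟨0, ?_⟩
    rw [hc, zero_smul, eq_comm, smul_eq_zero, or_iff_right hi] at h1
    ext p q
    simpa using congrFun (congrFun h1 p) p
  refine ⟨u⁻¹ * (d * c⁻¹ * u - w i), ?_⟩
  have h3 : a = (c⁻¹ * u) • 1 := by rw [mul_smul, ← h1, inv_smul_smul₀ hc]
  rw [mul_smul, sub_smul, mul_assoc, mul_smul, ← h3, h2, add_sub_cancel_left, inv_smul_smul₀ hi]

/-- The element `1 + x ⊗ N` with `N² = 0`. -/
def kronUnip {α β : Type} [Fintype α] [Fintype β] [DecidableEq α] [DecidableEq β]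
    (x : Matrix α α F) {N : Matrix β β F} (hN : N * N = 0) : GL (α × β) F where
  val := 1 + x ⊗ₖ N
  inv := 1 - x ⊗ₖ N
  val_inv := by
    rw [add_mul, mul_sub, mul_sub, ← Matrix.mul_kronecker_mul, hN]; simp
  inv_val := by
    rw [sub_mul, mul_add, mul_add, ← Matrix.mul_kronecker_mul, hN]; simp

theorem kronUnip_not_mem {k l : ℕ} (e : ι ≃ Fin k × Fin l) (B : GL ι F)
    {x : Matrix (Fin k) (Fin k) F} (hx : ¬ ∃ c : F, x = c • 1) {N : Matrix (Fin l) (Fin l) F}
    (hN : N * N = 0) (h0 : N ≠ 0) : trGL e B (kronUnip x hN) ∉ tensorProductSubgroup k l e B := by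
  intro h
  obtain ⟨a, b, h⟩ := mem_tensorProductSubgroup_iff.1 h
  exact hx (scalar_of_kron_eq_add (congrArg Units.val ((trGL e B).injective h)).symm hN h0)

theorem cj_kronUnip {k l : ℕ} (e : ι ≃ Fin k × Fin l) (B : GL ι F)
    {x y : Matrix (Fin k) (Fin k) F} (h : x * y = y * x) {N : Matrix (Fin l) (Fin l) F}
    (hN : N * N = 0) : cj (trGL e B (kronUnip x hN)) (homL e B y) = homL e B y := by
  rw [homL_apply, ← tr_cj, (cj_eq_self_iff _ _).2]
  change (1 + x ⊗ₖ N) * _ = _ * (1 + x ⊗ₖ N)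
  rw [add_mul, mul_add, ← Matrix.mul_kronecker_mul, ← Matrix.mul_kronecker_mul, h, one_mul, mul_one,
    one_mul, mul_one]

theorem sl_tensor_not_max [Fintype F] (hq : Fintype.card F = 2) {l : ℕ} (hl : 2 ≤ l)
    (e : ι ≃ Fin 2 × Fin l) (B : GL ι F) : ∃ K : Subgroup (GL ι F),
      tensorProductSubgroup 2 l e B ⊓ specialLinear ι F < K ∧ K < specialLinear ι F := by
  have hι : Fintype.card ι = 2 * l := by simpa using Fintype.card_congr e
  have := nonempty_of_two_le (ι := ι) (by omega)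
  have h2 : (1 : F) + 1 = 0 := by
    have := two_eq_zero_of_not_odd (F := F) (by rw [hq]; decide)
    rwa [← one_add_one_eq_two] at this
  have hn : (-1 : F) = 1 := by linear_combination -h2
  have hw : homL e B !![0, 1; 1, 1] * homL e B !![0, 1; 1, 1] =
      (1 : F) • homL e B !![0, 1; 1, 1] - (1 : F) • 1 := by
    rw [← map_mul, one_smul, one_smul, ← map_one (homL e B), ← map_sub]
    congr 1
    ext i j; fin_cases i <;> fin_cases j <;> simp [Matrix.mul_apply, h2, hn]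
  have hN : Matrix.single (⟨0, by omega⟩ : Fin l) (⟨1, by omega⟩ : Fin l) (1 : F) *
      Matrix.single (⟨0, by omega⟩ : Fin l) (⟨1, by omega⟩ : Fin l) (1 : F) = 0 :=
    Matrix.single_mul_single_of_ne _ _ _ _ (by simp) _
  refine exists_between' (M := subalgebraNormalizer (quadAlg _ 1 1 hw))
    (quadAlg_normalizer fun g hg => ?_)
    (not_le_subalgebraNormalizer (qs_SL (by omega)).perfect (qs_SL (by omega)).spans
      (isFieldSubalgebra_quadAlg fun x => ?_) (by decide))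
    (quadAlg_normalizer (H := setStab {homL e B !![0, 1; 1, 1]}) (fun g hg => ?_)
      (mem_setStab ?_)) (mem_specialLinear.2 (eq_one_of_card_two hq
        (Matrix.isUnits_det_units _).ne_zero))
    (kronUnip_not_mem e B (x := !![0, 1; 1, 1]) (fun ⟨c, h⟩ => ?_) hN fun h => ?_)
  · obtain ⟨a, b, rfl⟩ := mem_tensorProductSubgroup_iff.1 hg.1
    obtain ⟨c, hc⟩ := cj_omega_two hq a
    refine ⟨c, 1, ?_⟩
    rw [homL_apply, cj_trGL_kron, map_one, ← homL_apply, ← homL_apply, hc, map_add, map_smul,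
      map_one, one_smul]
  · rcases eq_zero_or_one_of_card_two hq x with rfl | rfl <;> simp
  · exact ⟨0, 1, by rw [(hg _).1 rfl]; simp⟩
  · rintro _ rfl
    exact cj_kronUnip e B rfl hN
  · simpa using congrFun (congrFun h 0) 1
  · simpa using congrFun (congrFun h ⟨0, by omega⟩) ⟨1, by omega⟩

theorem FC.tensForm_of_struct (hf : FC σ ε f) {k l : ℕ} {e : ι ≃ Fin k × Fin l} {B : GL ι F}
    {ε₁ ε₂ : F} {f₁ : (Fin k → F) → (Fin k → F) → F} {f₂ : (Fin l → F) → (Fin l → F) → F}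
    (h₁ : FC σ ε₁ f₁) (h₂ : FC σ ε₂ f₂) (u₁ : σ ≠ RingEquiv.refl F → ε₁ = 1)
    (u₂ : σ ≠ RingEquiv.refl F → ε₂ = 1) (h : IsTensorFormStructure σ f f₁ f₂ e B) :
    TensForm σ f e B ε₁ ε₂ f₁ f₂ := by
  obtain ⟨c, -, h⟩ := h
  refine ⟨h₁, h₂, u₁, u₂, fun a b => ?_⟩
  have h3 : Asch.pull e B f = formOfGram σ (c • gramMatrix f₁ ⊗ₖ gramMatrix f₂) :=
    funext₂ fun x y => by rw [frm_smul]; exact h x y
  rw [hf.adj_tr]
  congr 1
  refine (hf.pull e B).adj_unique_gram ?_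
  rw [h3, gram_frm, kron_map, ← Matrix.kroneckerMap_transpose, smul_mul_assoc, mul_smul_comm,
    ← Matrix.mul_kronecker_mul, ← Matrix.mul_kronecker_mul, h₁.gram_adj, h₂.gram_adj]

theorem TensForm.not_max [Finite F] (hι : 2 ≤ Fintype.card ι) (hf : FC σ ε f) {k l : ℕ}
    {e : ι ≃ Fin k × Fin l} {B : GL ι F} {ε₁ ε₂ : F} {f₁ : (Fin k → F) → (Fin k → F) → F}
    {f₂ : (Fin l → F) → (Fin l → F) → F} (h : TensForm σ f e B ε₁ ε₂ f₁ f₂)
    {K : Subalgebra F (Matrix (Fin k) (Fin k) F)} (hK : CommAlg σ f₁ (similarityGroup f₁) K)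
    {x : Matrix (Fin k) (Fin k) F} (hx : x ∈ K) (hns : ¬ ∃ c : F, x = c • 1)
    {N : Matrix (Fin l) (Fin l) F} (hN : N * N = 0) (h0 : N ≠ 0) {Ω : Subgroup (GL ι F)}
    (hΩ : QS Ω) (hI : Ω ≤ similarityGroup f) (hg : trGL e B (kronUnip x hN) ∈ Ω) :
    ∃ M : Subgroup (GL ι F), tensorProductSubgroup k l e B ⊓ Ω < M ∧ M < Ω := by
  have := nonempty_of_two_le hι
  have h1 := h.lift (H := tensorProductSubgroup k l e B ⊓ Ω) inf_le_left
    (hK.mono (h.prj_le hf (inf_le_right.trans hI)))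
  have h2 : ∀ y ∈ K.map (homL e B), cj (trGL e B (kronUnip x hN)) y = y := by
    rintro _ ⟨y, hy, rfl⟩
    exact cj_kronUnip e B (hK.comm x hx y hy) hN
  refine exists_between' (M := setStab (K.map (homL e B))) (fun g hg => mem_setStab (h1.inv g hg))
    (fun hle => kronUnip_not_mem e B hns hN h0 ?_) (mem_setStab fun y hy => by rwa [h2 y hy]) hg
    (kronUnip_not_mem e B hns hN h0)
  obtain ⟨c, hc⟩ := hΩ.mem_scalars_of_centralizes hι _ (fun g hg y hy => (hle hg y).1 hy)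
    h1.not_scalar hg h2
  refine mem_tensorProductSubgroup_iff.2 ⟨scal c, scal 1, ?_⟩
  rw [← kronHom_apply, kronHom_scal, mul_one, ← hc]; rfl

theorem TensForm.kronUnip_mem (hf : FC σ ε f) {k l : ℕ}
    {e : ι ≃ Fin k × Fin l} {B : GL ι F} {ε₁ ε₂ : F} {f₁ : (Fin k → F) → (Fin k → F) → F}
    {f₂ : (Fin l → F) → (Fin l → F) → F} (h : TensForm σ f e B ε₁ ε₂ f₁ f₂)
    {x : Matrix (Fin k) (Fin k) F} {N : Matrix (Fin l) (Fin l) F} (hN : N * N = 0)
    (ha : adj σ f₁ x ⊗ₖ adj σ f₂ N = -(x ⊗ₖ N)) : trGL e B (kronUnip x hN) ∈ isoG f := by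
  refine hf.mem_isoG_of_adj ?_
  rw [coe_trGL]
  change adj σ f (tr e B (1 + x ⊗ₖ N)) * _ = 1
  rw [map_add, map_one, hf.adj_add, hf.adj_one, h.adj_kron, ha, ← map_one (tr e B), ← map_add,
    ← map_mul, ← sub_eq_add_neg]
  exact congrArg _ (kronUnip x hN).inv_val

theorem CommAlg.exists_selfadj [Nonempty ι] (hf : FC σ ε f) {H : Subgroup (GL ι F)}
    {K : Subalgebra F (Matrix ι ι F)} (hK : CommAlg σ f H K) {c : F} (hc : σ c ≠ c) :
    ∃ x ∈ K, (¬ ∃ c : F, x = c • 1) ∧ adj σ f x = x := by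
  obtain ⟨x, hx, hns⟩ := hK.not_scalar
  by_contra! h
  have h1 : ∀ d : F, ∃ a : F, d • x + σ d • adj σ f x = a • 1 := fun d => by
    by_contra h1
    refine h _ (K.add_mem (K.smul_mem hx d) (K.smul_mem (hK.adj_mem x hx) _)) (not_exists.1 h1) ?_
    rw [hf.adj_add, hf.adj_smul, hf.adj_smul, hf.adj_adj, hf.invol, add_comm]
  obtain ⟨a, ha⟩ := h1 1
  obtain ⟨b, hb⟩ := h1 c
  refine hns ⟨(σ c - c)⁻¹ * (σ c * a - b), ?_⟩
  rw [mul_smul, sub_smul, mul_smul, ← ha, ← hb, map_one, eq_inv_smul_iff₀ (sub_ne_zero.2 hc)]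
  module

theorem commAlg_O3_three' [Fintype F] (hq : Fintype.card F = 3)
    {f : (Fin 3 → F) → (Fin 3 → F) → F} (hf : IsSymmetricForm f) :
    ∃ K, CommAlg (RingEquiv.refl F) f (similarityGroup f) K ∧
      ∃ x ∈ K, (¬ ∃ c : F, x = c • 1) ∧ adj (RingEquiv.refl F) f x = x := by
  have h2 : (2 : F) ≠ 0 := two_ne_zero_of_odd (by rw [hq]; decide)
  have h1 := fc_one (ι := Fin 3) (σ := RingEquiv.refl F) fun _ => rfl
  have ha : ∀ X : Matrix (Fin 3) (Fin 3) F, adj (RingEquiv.refl F)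
      (formOfGram (RingEquiv.refl F) 1) X = Xᵀ := adj_frm_one fun _ => rfl
  obtain ⟨T, c, hc, hT⟩ := exists_sim_odd (by decide) h2 h1.symmetric hf
  obtain ⟨K, hK⟩ := commAlg_O3_three hq h1.symmetric
  obtain ⟨x, hx, h3, h4⟩ : ∃ x ∈ K, (¬ ∃ c : F, x = c • 1) ∧ xᵀ = x := by
    obtain ⟨y, hy, hns⟩ := hK.not_scalar
    have hy' : yᵀ ∈ K := ha y ▸ hK.adj_mem y hy
    by_cases h3 : ∃ c : F, y + yᵀ = c • 1
    swap
    · exact ⟨_, K.add_mem hy hy', h3, by rw [Matrix.transpose_add, Matrix.transpose_transpose,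
        add_comm]⟩
    refine ⟨(y - yᵀ) * (y - yᵀ), K.mul_mem (K.sub_mem hy hy') (K.sub_mem hy hy'), ?_, by
      rw [Matrix.transpose_mul, Matrix.transpose_sub, Matrix.transpose_transpose, ← neg_sub,
        neg_mul_neg]⟩
    rintro ⟨d, hd⟩
    obtain ⟨c, hc⟩ := h3
    have e := fun i j => congrFun (congrFun hd i) j
    have e0 := e 0 0
    have e1 := e 1 1
    have e2 := e 2 2
    have e3 := e 0 1
    simp only [Matrix.mul_apply, Fin.sum_univ_three, Matrix.sub_apply, Matrix.transpose_apply,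
      Matrix.smul_apply, Matrix.one_apply_eq, ne_eq, zero_ne_one, not_false_eq_true,
      Matrix.one_apply_ne, smul_zero] at e0 e1 e2 e3
    have a1 : y 0 2 - y 2 0 = 0 := pow_eq_zero_iff (n := 3) (by decide) |>.1 (by
      linear_combination (y 0 2 - y 2 0) * (e1 - e0) - (y 1 2 - y 2 1) * e3)
    have a2 : y 1 2 - y 2 1 = 0 := pow_eq_zero_iff (n := 2) (by decide) |>.1 (by
      linear_combination e0 - e1 + (y 0 2 - y 2 0) * a1)
    have a3 : y 0 1 - y 1 0 = 0 := pow_eq_zero_iff (n := 2) (by decide) |>.1 (by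
      linear_combination e2 - e1 + (y 0 2 - y 2 0) * a1)
    have h5 : yᵀ = y := by
      rw [sub_eq_zero] at a1 a2 a3
      ext i j; fin_cases i <;> fin_cases j <;> simp [a1, a2, a3]
    refine hns ⟨2⁻¹ * c, ?_⟩
    rw [mul_smul, ← hc, h5, ← two_smul F, inv_smul_smul₀ h2]
  refine ⟨_, hK.map_sim h1 (fc_of_symmetric hf) hc hT, cj T x, ⟨x, hx, rfl⟩, fun ⟨d, hd⟩ => h3
    ⟨d, (cj T).injective (by rw [hd, map_smul, map_one])⟩, ?_⟩
  rw [h1.adj_cj_of_sim (fc_of_symmetric hf) hT, ha, h4]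

theorem tensorProductSubgroup_swap {k l : ℕ} (e : ι ≃ Fin k × Fin l) (B : GL ι F) :
    tensorProductSubgroup l k (e.trans (Equiv.prodComm _ _)) B = tensorProductSubgroup k l e B :=
  le_antisymm (tensorProductSubgroup_le_swap _ B) (tensorProductSubgroup_le_swap e B)

theorem sp_tensor_not_max [Fintype F] (hq : Fintype.card F = 3) {m k : ℕ} (hm : 3 ≤ m)
    {e : Fin m ⊕ Fin m ≃ Fin k × Fin 3} {B : GL (Fin m ⊕ Fin m) F}
    {f₁ : (Fin k → F) → (Fin k → F) → F} {f₂ : (Fin 3 → F) → (Fin 3 → F) → F}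
    (h₁ : IsSymplecticForm f₁) (h₂ : IsSymmetricForm f₂)
    (h : IsTensorFormStructure id (sympForm m F) f₁ f₂ e B) :
    ∃ K, tensorProductSubgroup k 3 e B ⊓ spGL m F < K ∧ K < spGL m F := by
  have hc := fc_of_symplectic (Max.isSymplecticForm_sympForm (F := F) m)
  have hc₁ := fc_of_symplectic h₁
  have hT := (hc.tensForm_of_struct hc₁ (fc_of_symmetric h₂) (fun h => absurd rfl h)
    (fun h => absurd rfl h) h).swap
  have : Nonempty (Fin k) := ⟨(e (Sum.inl ⟨0, by omega⟩)).1⟩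
  obtain ⟨v, hv⟩ := exists_vec_ne_zero (ι := Fin k) (F := F)
  obtain ⟨K, hK, x, hx, h3, h4⟩ := commAlg_O3_three' hq h₂
  have hN : rk1 (RingEquiv.refl F) f₁ v 1 * rk1 (RingEquiv.refl F) f₁ v 1 = 0 := by
    rw [hc₁.rk1_mul, h₁.alternating, mul_zero, rk1_zero]
  rw [← tensorProductSubgroup_swap]
  refine hT.not_max (by simp; omega) hc hK hx h3 hN (hc₁.rk1_ne_zero hv one_ne_zero)
    (qs_Sp (by omega) (Or.inl hm)) (isoG_le_sim _) (hT.kronUnip_mem hc hN ?_)
  rw [h4, hc₁.adj_rk1, ← kron_neg, eq_neg_of_add_eq_zero_left (b := rk1 _ f₁ v 1)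
    (a := rk1 _ f₁ v (-1 * RingEquiv.refl F 1)) (by rw [← rk1_add]; simp [rk1_zero])]

theorem su_tensor_not_max [Fintype F] (hF : Fintype.card F = 2 ^ 2) {n l : ℕ} (hn : 4 ≤ n)
    {e : Fin n ≃ Fin 2 × Fin l} {B : GL (Fin n) F}
    {f₁ : (Fin 2 → F) → (Fin 2 → F) → F} {f₂ : (Fin l → F) → (Fin l → F) → F}
    (h₁ : IsUnitaryFormPow 2 f₁) (h₂ : IsUnitaryFormPow 2 f₂)
    (h : IsTensorFormStructure (fun x : F => x ^ 2) (hermForm n F 2) f₁ f₂ e B) :
    ∃ K, tensorProductSubgroup 2 l e B ⊓ suG n F 2 < K ∧ K < suG n F 2 := by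
  have hU := U.UF.of_card hF
  have hf := Max.isUnitaryForm_hermForm (F := F) n 2
  have hc := fc_of_unitary hf
  have h2 : (2 : F) = 0 := two_eq_zero_of_not_odd (by rw [hF]; decide)
  have u₁ : IsUnitaryForm (Max.conjEquiv F 2) f₁ :=
    ⟨hf.ne_refl, hf.involutive, h₁.add_left, h₁.smul_left, h₁.herm, h₁.nondegenerate⟩
  have u₂ : IsUnitaryForm (Max.conjEquiv F 2) f₂ :=
    ⟨hf.ne_refl, hf.involutive, h₂.add_left, h₂.smul_left, h₂.herm, h₂.nondegenerate⟩
  have hc₂ := fc_of_unitary u₂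
  have hT := hc.tensForm_of_struct (fc_of_unitary u₁) hc₂ (fun _ => rfl) (fun _ => rfl) h
  have hl : n = 2 * l := by simpa using Fintype.card_congr e
  obtain ⟨K, hK⟩ := commAlg_U2_two hF (fun _ => rfl) u₁
  obtain ⟨c, hc0⟩ : ∃ c, Max.conjEquiv F 2 c ≠ c := by
    by_contra! h; exact hf.ne_refl (RingEquiv.ext h)
  obtain ⟨x, hx, h3, h4⟩ := hK.exists_selfadj (fc_of_unitary u₁) hc0
  obtain ⟨T, hT'⟩ := exists_iso_std_unitary u₂
  let v : Fin l → F := Pi.single ⟨0, by omega⟩ 1 + Pi.single ⟨1, by omega⟩ 1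
  have hv : v ≠ 0 := fun h => by simpa [v, Pi.single_apply, Fin.ext_iff] using congrFun h ⟨0, by omega⟩
  have hv' : f₂ ((T : Matrix _ _ F) *ᵥ v) ((T : Matrix _ _ F) *ᵥ v) = 0 := by
    have := isSesq_frm (Max.conjEquiv F 2) (1 : Matrix (Fin l) (Fin l) F)
    simp only [hT', v, this.add_left, this.add_right, frm_single]
    simp [one_add_one_eq_two, h2]
  have hN : rk1 (Max.conjEquiv F 2) f₂ ((T : Matrix _ _ F) *ᵥ v) 1 *
      rk1 (Max.conjEquiv F 2) f₂ ((T : Matrix _ _ F) *ᵥ v) 1 = 0 := by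
    rw [hc₂.rk1_mul, hv', mul_zero, rk1_zero]
  have hneg : ∀ X : Matrix (Fin 2 × Fin l) (Fin 2 × Fin l) F, -X = X := fun X =>
    neg_eq_of_add_eq_zero_left (by rw [← two_smul F, h2, zero_smul])
  refine hT.not_max (by simp; omega) hc hK hx h3 hN
    (hc₂.rk1_ne_zero (mulVec_ne_zero T hv) one_ne_zero) (qs_su (by omega) (by omega))
    (inf_le_left.trans (isoG_le_sim _)) ⟨hT.kronUnip_mem hc hN ?_, trGL_mem_specialLinear.2 ?_⟩
  · rw [h4, hc₂.adj_rk1, map_one, mul_one, hneg]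
  · have h5 := congrArg Matrix.det (kronUnip x hN).val_inv
    change (_ * (1 - _) : Matrix _ _ F).det = _ at h5
    rw [sub_eq_add_neg, hneg, Matrix.det_mul, Matrix.det_one] at h5
    refine sub_eq_zero.1 (pow_eq_zero_iff two_ne_zero |>.1 ?_)
    change ((kronUnip x hN).val).det * ((kronUnip x hN).val).det = 1 at h5
    linear_combination h5 + (1 - ((kronUnip x hN).val).det) * h2

theorem FC.refl_mem_stabilizer (hf : FC σ ε f) {t m : ℕ} {D : Fin t → Submodule F (ι → F)}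
    (hD : IsNondegenerateMDecomposition f m D) {j : Fin t} {a : ι → F} (ha : a ∈ D j) {c : F}
    {g : GL ι F} (hg : ∀ x, (g : Matrix ι ι F) *ᵥ x = x + (c * f x a) • a) :
    g ∈ decompositionStabilizer D :=
  mem_decompositionStabilizer_of_le hD.decomp fun i => ⟨i, fun v hv => by
    rw [hg]
    by_cases h : i = j
    · exact (D i).add_mem hv ((D i).smul_mem _ (h ▸ ha))
    · rwa [hD.orthogonal i j h v hv a ha, mul_zero, zero_smul, add_zero]⟩

theorem sp_planes_not_max [Fintype F] (hq : Fintype.card F = 2) {m t : ℕ} (hm : 3 ≤ m)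
    {D : Fin t → Submodule F (Fin m ⊕ Fin m → F)}
    (hD : IsNondegenerateMDecomposition (sympForm m F) 2 D) :
    ∃ K, decompositionStabilizer D ⊓ spGL m F < K ∧ K < spGL m F := by
  have hf := Max.isSymplecticForm_sympForm (F := F) m
  have hc := fc_of_symplectic hf
  have h2 : (2 : F) = 0 := two_eq_zero_of_not_odd (by rw [hq]; decide)
  have ht : m + m = 2 * t := by simpa using IsMDecomposition.card_eq' hD.decomp
  obtain ⟨Q, hQ, hp, h⟩ := spC8_of_planes_two hq hf hD (H := decompositionStabilizer D ⊓ spGL m F)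
    inf_le_right inf_le_left
  have hadd : ∀ u v, Q (u + v) = Q u + Q v + sympForm m F u v := fun u v => by
    rw [← hp, QuadraticMap.polar]; ring
  have hr := fun v => hc.exists_refl v (c := 1) (by rw [hf.alternating]; simp)
  have h1 : ∀ j, ∀ a ∈ D j, a ≠ 0 → Q a = 1 := fun j a ha h0 => by
    obtain ⟨g, hg, -, hg'⟩ := hr a
    obtain ⟨x, -, hx⟩ := (hD.nondegenerate j a ha h0).1
    have := fixesQuadForm_iff.1 h g ⟨hc.refl_mem_stabilizer hD ha hg', hg⟩ x
    rw [hg', eq_one_of_card_two hq hx, one_mul, one_smul, hadd, eq_one_of_card_two hq hx] at this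
    linear_combination this - h2
  obtain ⟨a, ha, ha0⟩ := IsMDecomposition.exists_ne_zero' hD.decomp ⟨0, by omega⟩
  obtain ⟨b, hb, hb0⟩ := IsMDecomposition.exists_ne_zero' hD.decomp ⟨1, by omega⟩
  obtain ⟨c, hc', hc0⟩ := IsMDecomposition.exists_ne_zero' hD.decomp ⟨2, by omega⟩
  have hab := hD.orthogonal _ _ (by simp) a ha b hb
  have hac := hD.orthogonal _ _ (by simp) a ha c hc'
  have hbc := hD.orthogonal _ _ (by simp) b hb c hc'
  have h3 : Q (a + (b + c)) = 1 := by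
    rw [hadd, hadd, h1 _ a ha ha0, h1 _ b hb hb0, h1 _ c hc' hc0, hc.sesq.add_right, hab, hac, hbc]
    linear_combination h2
  obtain ⟨g, hg, -, hg'⟩ := hr (a + (b + c))
  obtain ⟨x, hx, hxa⟩ := (hD.nondegenerate _ a ha ha0).1
  obtain ⟨y, hy, hyb⟩ := (hD.nondegenerate _ b hb hb0).1
  refine exists_between' (le_quadSimilarityGroup_of_fixesQuad h)
    (Sp_not_le_quadSimilarity (by omega) hQ hp) (g := g) ⟨1, fun v => ?_⟩ hg
    (not_mem_decompositionStabilizer hx fun j => ?_)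
  · rw [hg', hadd, hQ.smul, h3, hc.sesq.smul_right, RingEquiv.refl_apply, Units.val_one]
    linear_combination (sympForm m F v (a + (b + c))) ^ 2 * h2
  rw [hg', hc.sesq.add_right, hc.sesq.add_right, hD.orthogonal _ _ (by simp) x hx b hb,
    hD.orthogonal _ _ (by simp) x hx c hc', eq_one_of_card_two hq hxa, add_zero, add_zero, one_mul,
    one_smul, ← add_assoc]
  refine IsMDecomposition.add_notMem' hD.decomp ((D _).add_mem hx ha) (fun h0 => hxa ?_)
    (Submodule.add_mem _ (mem_iSup_ne (by simp) hb) (mem_iSup_ne (by simp) hc')) (fun h0 => hyb ?_) j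
  · rw [eq_neg_of_add_eq_zero_left h0, hc.sesq.neg_left, hf.alternating, neg_zero]
  · rw [eq_neg_of_add_eq_zero_left h0, hc.sesq.neg_right, hD.orthogonal _ _ (by simp) y hy c hc',
      neg_zero]

theorem mem_stabilizing_of_mapsTo [Finite F] {S : Set (ι → F)} {g : GL ι F}
    (h : ∀ v ∈ S, (g : Matrix ι ι F) *ᵥ v ∈ S) : g ∈ stabilizing (glToMat ι F) S := fun x =>
  ⟨h x, fun hx => by
    have hi : Function.Injective fun v => (g : Matrix ι ι F) *ᵥ v := fun u v huv => by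
      rw [← inv_mulVec_mulVec g u, ← inv_mulVec_mulVec g v]; exact congrArg _ huv
    obtain ⟨y, hy, h1⟩ := ((Set.toFinite S).injOn_iff_bijOn_of_mapsTo h).1 hi.injOn |>.surjOn hx
    exact hi h1 ▸ hy⟩

theorem su_planes_not_max [Fintype F] (hF : Fintype.card F = 2 ^ 2) {n t : ℕ} (hn : 5 ≤ n)
    {D : Fin t → Submodule F (Fin n → F)}
    (hD : IsNondegenerateMDecomposition (hermForm n F 2) 2 D) :
    ∃ K, decompositionStabilizer D ⊓ suG n F 2 < K ∧ K < suG n F 2 := by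
  have hU := U.UF.of_card hF
  have hf := Max.isUnitaryForm_hermForm (F := F) n 2
  have hc := fc_of_unitary hf
  have h2 : (2 : F) = 0 := two_eq_zero_of_not_odd (by rw [hF]; decide)
  have ht : n = 2 * t := by simpa using IsMDecomposition.card_eq' hD.decomp
  have key : ∀ j, ∃ a ∈ D j, ∃ a' ∈ D j, hermForm n F 2 a a = 1 ∧ hermForm n F 2 a' a' = 1 ∧
      hermForm n F 2 a' a = 0 ∧ ∀ s ∈ D j, hermForm n F 2 s s = 1 →
        hermForm n F 2 s a = 0 ∨ ∃ x : F, s = x • a := fun j => by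
    obtain ⟨β, hβ⟩ := exists_orthonormal_on (hD.nondegenerate j) (hD.decomp.finrank_eq j)
    refine ⟨β 0, (β 0).2, β 1, (β 1).2, hβ 0 0, hβ 1 1, hβ 1 0, fun s hs h => ?_⟩
    have h1 := congrArg Subtype.val (β.sum_repr ⟨s, hs⟩).symm
    simp only [Fin.sum_univ_two, Submodule.coe_add, Submodule.coe_smul] at h1
    generalize β.repr ⟨s, hs⟩ 0 = x at h1
    generalize β.repr ⟨s, hs⟩ 1 = y at h1
    subst h1
    simp only [hc.sesq.add_left, hc.sesq.add_right, hc.sesq.smul_left, hc.sesq.smul_right, hβ] at h ⊢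
    by_cases hx : x = 0
    · simp [hx]
    by_cases hy : y = 0
    · exact Or.inr ⟨x, by simp [hy]⟩
    have h3 := mul_conj_of_four hF (σ := Max.conjEquiv F 2) (fun _ => rfl) x hx
    have h4 := mul_conj_of_four hF (σ := Max.conjEquiv F 2) (fun _ => rfl) y hy
    simp only [Fin.isValue, ↓reduceIte, mul_one, one_ne_zero, mul_zero, add_zero, zero_ne_one,
      zero_add] at h
    exact absurd (by linear_combination h3 + h4 - h) (one_ne_zero (α := F)).symm
  obtain ⟨a, ha, a', ha', a1, a2, a3, a4⟩ := key ⟨0, by omega⟩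
  obtain ⟨b, hb, -, -, b1, -, -, b4⟩ := key ⟨1, by omega⟩
  obtain ⟨c, hc', -, -, c1, -, -, -⟩ := key ⟨2, by omega⟩
  have ne : ∀ {v}, hermForm n F 2 v v = 1 → v ≠ 0 := fun h h0 => by
    rw [h0, hc.sesq.zero_left] at h; exact zero_ne_one h
  have hab := hD.orthogonal _ _ (by simp) a ha b hb
  have hba := hc.perp_symm hab
  have hac := hD.orthogonal _ _ (by simp) a ha c hc'
  have hbc := hD.orthogonal _ _ (by simp) b hb c hc'
  have hv : hermForm n F 2 (a + b) (a + b) = 0 := by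
    simp only [hc.sesq.add_left, hc.sesq.add_right, a1, b1, hab, hba]; linear_combination h2
  obtain ⟨g, hg, hg1, hg2⟩ := hc.exists_refl (a + b) (c := 1) (by
    rw [hv, map_one]; linear_combination h2)
  have hga : (g : Matrix _ _ F) *ᵥ a = b := by
    rw [hg2, hc.sesq.add_right, a1, hab, add_zero, one_mul, one_smul, ← add_assoc, ← two_smul F, h2,
      zero_smul, zero_add]
  have hgb : (g : Matrix _ _ F) *ᵥ b = a := by
    rw [hg2, hc.sesq.add_right, b1, hba, zero_add, one_mul, one_smul, add_comm a, ← add_assoc,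
      ← two_smul F, h2, zero_smul, zero_add]
  have hg0 : ∀ s, hermForm n F 2 s a = 0 → hermForm n F 2 s b = 0 → (g : Matrix _ _ F) *ᵥ s = s :=
    fun s h h' => by rw [hg2, hc.sesq.add_right, h, h']; simp
  have h3 : hermForm n F 2 (a + (b + c)) (a + (b + c)) = 1 := by
    simp only [hc.sesq.add_left, hc.sesq.add_right, a1, b1, c1, hab, hba, hac, hbc,
      hc.perp_symm hac, hc.perp_symm hbc]
    linear_combination h2
  refine exists_between'
    (M := stabilizing (glToMat _ F) {v | hermForm n F 2 v v = 1 ∧ ∃ j, v ∈ D j})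
    (fun x ⟨⟨π, hπ⟩, hx⟩ => mem_stabilizing_of_mapsTo fun v ⟨h4, j, hj⟩ => ⟨?_, π j, ?_⟩)
    (su_not_le_stabilizing (by omega) (ne a1) (ne h3) (a1.trans h3.symm) ⟨a1, _, ha⟩
      fun ⟨_, j, hj⟩ => ?_)
    (mem_stabilizing_of_mapsTo fun v ⟨h4, j, hj⟩ => ⟨(hg v v).trans h4, ?_⟩)
    ⟨hg, mem_specialLinear.2 (by rw [hg1, hv]; simp)⟩
    (not_mem_decompositionStabilizer ((D _).add_mem ha' ha) fun j => ?_)
  · exact (hx.1 v v).trans h4
  · rw [← hπ]; exact ⟨_, hj, Matrix.toLin'_apply _ _⟩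
  · refine IsMDecomposition.add_notMem' hD.decomp ha (ne a1)
      (Submodule.add_mem _ (mem_iSup_ne (by simp) hb) (mem_iSup_ne (by simp) hc'))
      (fun h0 => ?_) j hj
    rw [eq_neg_of_add_eq_zero_right h0, hc.sesq.neg_right, b1] at hbc
    simp at hbc
  · have h5 : hermForm n F 2 v a = 0 ∨ ∃ x : F, v = x • a := by
      by_cases h : j = ⟨0, by omega⟩
      · exact a4 v (h ▸ hj) h4
      · exact Or.inl (hD.orthogonal _ _ h v hj a ha)
    have h6 : hermForm n F 2 v b = 0 ∨ ∃ x : F, v = x • b := by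
      by_cases h : j = ⟨1, by omega⟩
      · exact b4 v (h ▸ hj) h4
      · exact Or.inl (hD.orthogonal _ _ h v hj b hb)
    rcases h5 with h5 | ⟨x, rfl⟩
    · rcases h6 with h6 | ⟨x, rfl⟩
      · exact ⟨j, by rwa [hg0 v h5 h6]⟩
      · exact ⟨_, by rw [Matrix.mulVec_smul, hgb]; exact (D _).smul_mem x ha⟩
    · exact ⟨_, by rw [Matrix.mulVec_smul, hga]; exact (D _).smul_mem x hb⟩
  · rw [Matrix.mulVec_add, hga, hg0 a' a3 (hD.orthogonal _ _ (by simp) a' ha' b hb)]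
    exact IsMDecomposition.add_notMem' hD.decomp ha' (ne a2) (mem_iSup_ne (by simp) hb) (ne b1) j

end Cfsg.Agent.Class.Asch
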