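import Cfsg.Agent.Class.Asch.OTs
import Cfsg.Agent.Class.Asch.FormBlock
import Cfsg.Agent.Class.Asch.SLSmall

/-! Aschbacher's theorem for orthogonal groups. -/

set_option autoImplicit false
set_option linter.unusedSectionVars false

namespace Cfsg.Agent.Class.Asch

open Cfsg.Geo Cfsg.Agent.Class.Orth QuadraticMap Module
open scoped MatrixGroups Matrix Kronecker commutatorElement

variable {ι : Type} [Fintype ι] [DecidableEq ι] {F : Type*} [Field F]
  {Q : QuadraticForm F (ι → F)}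

local notation "𝐚" => adj (RingEquiv.refl F) (polar Q)

theorem Q_eq_zero_of_polar (h2 : (2 : F) ≠ 0) {v : ι → F} (h : polar Q v v = 0) : Q v = 0 :=
  (mul_eq_zero.1 ((polar_self' Q v).symm.trans h)).resolve_left h2

theorem isPlus_of_nil {N N' : Matrix ι ι F} (h1 : N * N = 0) (h2 : N * N' + N' * N = 1)
    (h3 : ∀ u, Q (N *ᵥ u) = 0) : IsPlusTypeOn ⇑Q ⊤ := by
  have h4 := LinearMap.finrank_range_add_finrank_ker (Matrix.toLin' N)
  have h5 : LinearMap.ker (Matrix.toLin' N) = LinearMap.range (Matrix.toLin' N) := by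
    refine le_antisymm (fun u hu => ?_) ?_
    · refine ⟨N' *ᵥ u, ?_⟩
      have h6 : N *ᵥ u = 0 := hu
      have h7 := congrArg (· *ᵥ u) h2
      simp only [Matrix.add_mulVec, ← Matrix.mulVec_mulVec, h6, Matrix.mulVec_zero, add_zero,
        Matrix.one_mulVec] at h7
      exact h7
    · rintro _ ⟨u, rfl⟩
      change N *ᵥ (N *ᵥ u) = 0
      rw [Matrix.mulVec_mulVec, h1, Matrix.zero_mulVec]
  refine ⟨LinearMap.range (Matrix.toLin' N), le_top, ?_, ?_⟩
  · rintro _ ⟨u, rfl⟩; exact h3 u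
  · rw [finrank_top, ← h4, h5, two_mul]

theorem eq_qOf [Finite F] (hQ : ND Q) (h2 : (2 : F) = 0) (hι : 2 ≤ Fintype.card ι)
    {H : Subgroup (GL ι F)} (hI : H ≤ isometryGroup F ⇑Q) (hH : Irr H) {ω : Matrix ι ι F}
    (hω : ω + 𝐚 ω = 1)
    (h : ∀ g ∈ H, ∃ ω', ω' + 𝐚 ω' = 1 ∧ ω * ω' = ω' * ω ∧ cj g ω * ω' = ω' * cj g ω)
    (v : ι → F) : Q v = polar Q (ω *ᵥ v) v := by
  have hf := polar_symplectic (ndq hQ) h2
  have h1 := fixesQuadForm_iff.1
    (fixes_qOf h2 hf hω (hI.trans (isometryGroup_le_isoG _)) h)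
  rw [← sub_eq_zero]
  refine additive_vanish h2 hι hH (fun v => Q v - qOf (polar Q) ω v) (fun u w => ?_)
    (fun c w => ?_) (fun g hg w hw => ?_) v
  · have h3 := polar_qOf h2 hf hω u w
    simp only [polar] at h3
    linear_combination -h3
  · rw [Q_smul, (nondeg_qOf h2 hf hω).smul]; ring
  · rw [Q_mulVec (hI hg), h1 g hg, hw]

theorem TiPair.ts [Fintype F] (hQ : ND Q) (hι : 2 ≤ Fintype.card ι) {H : Subgroup (GL ι F)}
    (hI : H ≤ isometryGroup F ⇑Q) (hH : Irr H) {e : Matrix ι ι F} {m : ℕ}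
    (he : TiPair (RingEquiv.refl F) (polar Q) H e m) (i : Fin 2) :
    IsTotallySingularQuad ⇑Q (![rng e, rng (1 - e)] i) := by
  intro v hv
  by_cases h2 : (2 : F) = 0
  swap
  · exact Q_eq_zero_of_polar h2 (he.ti i v hv v hv)
  have h1 : e + 𝐚 e = 1 := by rw [he.adj_eq, add_sub_cancel]
  rw [eq_qOf hQ h2 hι hI hH h1 fun g hg => ⟨e, h1, rfl, by
    rcases he.perm g hg with h | h <;> rw [h]
    rw [sub_mul, mul_sub, one_mul, mul_one]⟩]
  fin_cases i
  · exact he.ti 0 _ (mem_rng.2 ⟨v, rfl⟩) v hv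
  · obtain ⟨w, rfl⟩ := mem_rng.1 hv
    rw [Matrix.mulVec_mulVec, mul_sub, mul_one, he.idem, sub_self, Matrix.zero_mulVec,
      polar_zero_left]

variable [Fintype F]

/-- The alternatives arising from an invariant commutative algebra. -/
def OComm (Q : QuadraticForm F (ι → F)) (H : Subgroup (GL ι F)) : Prop :=
  (∃ (t m : ℕ) (D : Fin t → Submodule F (ι → F)), NdDec (polar Q) H m D) ∨
  (∃ (m : ℕ) (D : Fin 2 → Submodule F (ι → F)), IsMDecomposition m D ∧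
    (∀ i, IsTotallySingularQuad ⇑Q (D i)) ∧ H ≤ decompositionStabilizer D) ∨
  (∃ (r : ℕ) (K : Subalgebra F (Matrix ι ι F)), AdjField (RingEquiv.refl F) (polar Q) H r K ∧
    Fintype.card ι ≠ r)

/-- The alternatives for an irreducible group. -/
def OIrr (Q : QuadraticForm F (ι → F)) (H : Subgroup (GL ι F)) : Prop :=
  OComm Q H ∨
  (Odd (Fintype.card F) ∧ ∃ (k l : ℕ) (e : ι ≃ Fin k × Fin l) (B : GL ι F)
    (f₁ : (Fin k → F) → (Fin k → F) → F) (f₂ : (Fin l → F) → (Fin l → F) → F), 3 ≤ k ∧ k ≤ l ∧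
    (k = l → Even k) ∧ ¬ (Fintype.card F = 3 ∧ k = 3) ∧ IsSymmetricForm f₁ ∧ IsSymmetricForm f₂ ∧
    TensForm (RingEquiv.refl F) (polar Q) e B 1 1 f₁ f₂ ∧ H ≤ tensorProductSubgroup k l e B) ∨
  (∃ (k l : ℕ) (e : ι ≃ Fin k × Fin l) (B : GL ι F)
    (f₁ : (Fin k → F) → (Fin k → F) → F) (f₂ : (Fin l → F) → (Fin l → F) → F), 2 ≤ k ∧ k ≤ l ∧
    ¬ (Fintype.card F = 2 ∧ k = 2) ∧ IsSymplecticForm f₁ ∧ IsSymplecticForm f₂ ∧
    TensForm (RingEquiv.refl F) (polar Q) e B (-1) (-1) f₁ f₂ ∧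
    (∀ x y, Q (trV e B (tens x y)) = 0) ∧ H ≤ tensorProductSubgroup k l e B) ∨
  (∃ (F₀ : Subfield F) (r : ℕ) (B : GL ι F), r.Prime ∧ Fintype.card F = Nat.card F₀ ^ r ∧
    RatData (RingEquiv.refl F) (polar Q) H F₀ B) ∨
  (∃ m R, ExtraData H 2 m R ∧ Nat.card (Subgroup.center R) = 2) ∨
  (Odd (Fintype.card F) ∧ ∃ (k t : ℕ) (e : ι ≃ (Fin t → Fin k)) (B : GL ι F)
    (f₁ : (Fin k → F) → (Fin k → F) → F), 3 ≤ k ∧ 2 ≤ t ∧ ¬ (Fintype.card F = 3 ∧ k = 3) ∧
    IsSymmetricForm f₁ ∧ IsTensorPowerFormStructure id (polar Q) f₁ e B ∧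
    H ≤ tensorWreathSubgroup k t e B) ∨
  (∃ k t : ℕ, 2 ≤ k ∧ 2 ≤ t ∧ Even k ∧ Fintype.card ι = k ^ t ∧ (k = 2 → IsPlusTypeOn ⇑Q ⊤)) ∨
  InOrthogonalResidualClass H

/-- The alternatives of the orthogonal theorem. -/
def OAlt (Q : QuadraticForm F (ι → F)) (H : Subgroup (GL ι F)) : Prop :=
  (∃ W : Submodule F (ι → F), W ≠ ⊥ ∧ IsTotallySingularQuad ⇑Q W ∧ Inv H W) ∨
  (∃ W : Submodule F (ι → F), W ≠ ⊥ ∧ W ≠ ⊤ ∧ IsNondegenerateOn (polar Q) W ∧ Inv H W) ∨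
  ((2 : F) = 0 ∧ ∃ v, Q v ≠ 0 ∧ Inv H (Submodule.span F {v})) ∨
  (Irr H ∧ OIrr Q H)

theorem oComm_of_comm (hQ : ND Q) (hι : 2 ≤ Fintype.card ι) {H : Subgroup (GL ι F)}
    (hI : H ≤ isometryGroup F ⇑Q) (hH : Irr H) {K : Subalgebra F (Matrix ι ι F)}
    (hK : CommAlg (RingEquiv.refl F) (polar Q) H K)
    (hr : ∀ L ≤ K, ∀ r, AdjField (RingEquiv.refl F) (polar Q) H r L → Fintype.card ι ≠ r) :
    OComm Q H := by
  have := nonempty_of_two_le hι
  rcases hK.cases (fcq hQ) hH (hI.trans (isometryGroup_le_sim _)) with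
    ⟨-, r, L, hLK, hL⟩ | h | ⟨e, -, m, he⟩
  · exact Or.inr <| Or.inr ⟨r, L, hL, hr L hLK r hL⟩
  · exact Or.inl h
  · exact Or.inr <| Or.inl ⟨m, _, he.dec, he.ts hQ hι hI hH, he.le⟩

theorem oComm_of_cen (hQ : ND Q) (hι : 3 ≤ Fintype.card ι) {H N : Subgroup (GL ι F)}
    (hI : H ≤ isometryGroup F ⇑Q) (hH : Irr H) (hN : NormIn H N)
    (hx : ∃ x ∈ cen (spanAlg F N), ¬ ∃ c : F, x = c • 1) : OComm Q H := by
  have := nonempty_of_two_le (ι := ι) (by omega)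
  have hc := fcq hQ
  refine oComm_of_comm hQ (by omega) hI hH
    (hc.commAlg_cen (hI.trans (isometryGroup_le_sim _)) hN hx) fun L hL r hr h => ?_
  subst h
  have hs := hc.selfadj_of_odd hr.field (hr.prime.odd_of_ne_two (by omega)) hr.adj_mem
  obtain ⟨x, hx, hx'⟩ := hx
  refine hx' (spanAlg_induction (p := fun y => ∃ c : F, y = c • 1) (fun g hg => ?_) ?_ ?_ hx.1)
  · have h1 : (g : Matrix ι ι F) ∈ L := IsFieldSubalgebra.mem_of_comm hr.field fun k hk =>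
      ((mem_cen.1 (hL hk)).2 _ (coe_mem_spanAlg hg)).symm
    have h2 := hs _ h1
    rw [hc.adj_iso (isometryGroup_le_isoG _ (hI (hN.1 hg)))] at h2
    by_cases h3 : (g : Matrix ι ι F) - 1 = 0
    · exact ⟨1, by rw [one_smul, ← sub_eq_zero, h3]⟩
    obtain ⟨y, hy, h4⟩ := hr.field.inv _ (L.sub_mem h1 L.one_mem) h3
    rw [hr.field.comm _ (L.sub_mem h1 L.one_mem) _ hy] at h4
    have h5 : ((g : Matrix ι ι F) - 1) * (g + 1) = 0 := by
      rw [sub_mul, mul_add, mul_one, one_mul]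
      nth_rewrite 1 [← h2]
      rw [Units.inv_mul]; abel
    refine ⟨-1, ?_⟩
    have h6 := congrArg (y * ·) h5
    simp only [← mul_assoc, h4, one_mul, mul_zero] at h6
    rw [neg_one_smul, ← add_eq_zero_iff_eq_neg, h6]
  · rintro _ _ ⟨a, rfl⟩ ⟨b, rfl⟩; exact ⟨a + b, (add_smul _ _ _).symm⟩
  · rintro c _ ⟨a, rfl⟩; exact ⟨c * a, smul_smul _ _ _⟩

theorem oComm_of_lift (hQ : ND Q) {H : Subgroup (GL ι F)} (hI : H ≤ isometryGroup F ⇑Q)
    (hH : Irr H) {k l : ℕ} (hk : 2 ≤ k) (hl : 2 ≤ l) {e : ι ≃ Fin k × Fin l} {B : GL ι F}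
    {ε₁ ε₂ : F} {f₁ : (Fin k → F) → (Fin k → F) → F} {f₂ : (Fin l → F) → (Fin l → F) → F}
    (h : TensForm (RingEquiv.refl F) (polar Q) e B ε₁ ε₂ f₁ f₂)
    (hle : H ≤ tensorProductSubgroup k l e B)
    (hK : ∃ K, CommAlg (RingEquiv.refl F) f₁ (similarityGroup f₁) K) : OComm Q H := by
  obtain ⟨K, hK⟩ := hK
  have hι : 2 ≤ Fintype.card ι := by
    rw [Fintype.card_congr e, Fintype.card_prod, Fintype.card_fin, Fintype.card_fin]; nlinarith
  have := nonempty_of_two_le hι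
  have : Nonempty (Fin l) := ⟨⟨0, by omega⟩⟩
  refine oComm_of_comm hQ hι hI hH (h.lift hle (hK.mono (h.prj_le (fcq hQ)
    (hI.trans (isometryGroup_le_sim _))))) fun L hL r hr h1 => ?_
  subst h1
  have h2 : ∀ b, homR e B b ∈ L := fun b => IsFieldSubalgebra.mem_of_comm hr.field fun x hx => by
    obtain ⟨a, -, rfl⟩ := hL hx
    change homR e B b * homL e B a = homL e B a * homR e B b
    rw [homL_apply, homR_apply, ← map_mul, ← map_mul, kron_comm]
  refine not_comm_all (F := F) (ι := Fin l) (by simpa using hl) fun a b =>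
    algHom_injective (homR e B) ?_
  rw [map_mul, map_mul, hr.field.comm _ (h2 a) _ (h2 b)]

omit [Fintype F] in
theorem commAlg_Sp2_two [Fintype F] (hq : Fintype.card F = 2) {f : (Fin 2 → F) → (Fin 2 → F) → F}
    (hf : IsSymplecticForm f) : ∃ K, CommAlg (RingEquiv.refl F) f (similarityGroup f) K := by
  obtain ⟨K, hK, h⟩ := exists_field_GL_two_two hq
  exact ⟨K, fun g _ a ha => cj_mem_of_le_normalizer (H := ⊤) h.ge trivial ha, hK.comm,
    fun x hx => by rw [adj_symp_two hf]; exact K.sub_mem (K.smul_mem K.one_mem _) hx,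
    IsFieldSubalgebra.exists_not_scalar hK (by decide)⟩

theorem oIrr_of_pow_symm (hQ : ND Q) (hq : Odd (Fintype.card F)) {H : Subgroup (GL ι F)}
    {k t : ℕ} (hk : 3 ≤ k) (ht : 2 ≤ t) (h3 : ¬ (Fintype.card F = 3 ∧ k = 3))
    {e : ι ≃ (Fin t → Fin k)} {B : GL ι F} {ε₁ : F} {f₁ : (Fin k → F) → (Fin k → F) → F}
    (h₁ : IsSymmetricForm f₁) (h : PowForm (RingEquiv.refl F) (polar Q) e B ε₁ f₁)
    (hle : H ≤ tensorWreathSubgroup k t e B) : OIrr Q H := by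
  have : Nonempty ι := ⟨e.symm fun _ => ⟨0, by omega⟩⟩
  unfold OIrr
  iterate 5 right
  exact Or.inl ⟨hq, k, t, e, B, f₁, hk, ht, h3, h₁, h.struct (fcq hQ), hle⟩

theorem oIrr_of_tensor_le (hQ : ND Q) {H : Subgroup (GL ι F)} (hI : H ≤ isometryGroup F ⇑Q)
    (hH : Irr H) {k l : ℕ} (hk : 2 ≤ k) (hkl : k ≤ l) {e : ι ≃ Fin k × Fin l} {B : GL ι F}
    {ε₁ ε₂ : F} {f₁ : (Fin k → F) → (Fin k → F) → F} {f₂ : (Fin l → F) → (Fin l → F) → F}
    (h : TensForm (RingEquiv.refl F) (polar Q) e B ε₁ ε₂ f₁ f₂)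
    (hle : H ≤ tensorProductSubgroup k l e B) : OIrr Q H := by
  have hl : 2 ≤ l := hk.trans hkl
  have hc := fcq hQ
  have hs := hI.trans (isometryGroup_le_sim _)
  have hle' := hle.trans (tensorProductSubgroup_le_swap e B)
  have hι : 2 ≤ Fintype.card ι := by
    rw [Fintype.card_congr e, Fintype.card_prod, Fintype.card_fin, Fintype.card_fin]; nlinarith
  have := nonempty_of_two_le hι
  have : Nonempty (Fin k) := ⟨⟨0, by omega⟩⟩
  have : Nonempty (Fin l) := ⟨⟨0, by omega⟩⟩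
  have a₁ := h.fc₁.symp_or_symm (by simpa using hk) (irr_prj hH hle) (h.prj_le hc hs)
  have a₂ := h.fc₂.symp_or_symm (by simpa using hl) (irr_prj hH hle') (h.swap.prj_le hc hs)
  obtain ⟨c, hc0, hct⟩ := h.exists_tens hc
  have symp : IsSymplecticForm f₁ → IsSymplecticForm f₂ → (∀ x y, Q (trV e B (tens x y)) = 0) →
      OIrr Q H := fun a₁ a₂ hp => by
    obtain rfl := h.fc₁.eps_eq (fc_of_symplectic a₁)
    obtain rfl := h.fc₂.eps_eq (fc_of_symplectic a₂)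
    by_cases h22 : Fintype.card F = 2 ∧ k = 2
    · obtain ⟨hq, rfl⟩ := h22
      exact Or.inl (oComm_of_lift hQ hI hH hk hl h hle (commAlg_Sp2_two hq a₁))
    exact Or.inr <| Or.inr <| Or.inl ⟨k, l, e, B, f₁, f₂, hk, hkl, h22, a₁, a₂, h, hp, hle⟩
  by_cases hq : Odd (Fintype.card F)
  · have h2 := two_ne_zero_of_odd hq
    have hε := h.eps hc
    rcases a₁ with a₁ | ⟨-, a₁⟩ <;> rcases a₂ with a₂ | ⟨-, a₂⟩
    · exact symp a₁ a₂ fun x y => Q_eq_zero_of_polar h2 (by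
        rw [hct, a₁.alternating, zero_mul, mul_zero])
    · rw [h.fc₁.eps_eq (fc_of_symplectic a₁), h.fc₂.eps_eq (fc_of_symmetric a₂)] at hε
      exact absurd (by linear_combination hε) h2
    · rw [h.fc₁.eps_eq (fc_of_symmetric a₁), h.fc₂.eps_eq (fc_of_symplectic a₂)] at hε
      exact absurd (by linear_combination hε) h2
    obtain rfl := h.fc₁.eps_eq (fc_of_symmetric a₁)
    obtain rfl := h.fc₂.eps_eq (fc_of_symmetric a₂)
    rcases hk.eq_or_lt with rfl | hk3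
    · exact Or.inl (oComm_of_lift hQ hI hH hk hl h hle (commAlg_O2 h2 h.fc₁))
    by_cases h3 : Fintype.card F = 3 ∧ k = 3
    · obtain ⟨h3, rfl⟩ := h3
      exact Or.inl (oComm_of_lift hQ hI hH hk hl h hle (commAlg_O3_three h3 a₁))
    by_cases h4 : k = l → Even k
    · exact Or.inr <| Or.inl ⟨hq, k, l, e, B, f₁, f₂, hk3, hkl, h4, h3, a₁, a₂, h, hle⟩
    obtain ⟨rfl, h4⟩ := Classical.not_imp.1 h4
    obtain ⟨T, d, -, hT⟩ := exists_sim_odd (by simpa using h4) h2 a₁ a₂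
    obtain ⟨e', B', h5, h6⟩ := h.exists_powForm hk hT
    exact oIrr_of_pow_symm hQ hq hk3 le_rfl h3 a₁ h5 (hle.trans h6)
  · have h2 := two_eq_zero_of_not_odd hq
    replace a₁ := a₁.resolve_right fun h => hq h.1
    replace a₂ := a₂.resolve_right fun h => hq h.1
    obtain ⟨ω₁, h₁⟩ := exists_omega a₁
    obtain ⟨ω₂, h₂⟩ := exists_omega a₂
    refine symp a₁ a₂ fun x y => ?_
    rw [eq_qOf hQ h2 hι hI hH (ω := tr e B (ω₁ ⊗ₖ 1)) ?_ fun g hg =>
      ⟨tr e B (1 ⊗ₖ ω₂), ?_, ?_, ?_⟩, tr_mulVec, kron_mulVec_tens, hct, Matrix.one_mulVec,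
      a₂.alternating, mul_zero, mul_zero]
    · rw [h.adj_kron, h.fc₂.adj_one, ← map_add, ← Matrix.add_kronecker, h₁,
        Matrix.one_kronecker_one, map_one]
    · rw [h.adj_kron, h.fc₁.adj_one, ← map_add, ← Matrix.kronecker_add, h₂,
        Matrix.one_kronecker_one, map_one]
    · simp only [← map_mul, ← Matrix.mul_kronecker_mul, mul_one, one_mul]
    · obtain ⟨a, b, rfl⟩ := mem_tensorProductSubgroup_iff.1 (hle hg)
      rw [← tr_cj, cj_kronGL]
      simp only [← map_mul, ← Matrix.mul_kronecker_mul, mul_one, one_mul, map_one]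

theorem oIrr_of_extra [Nonempty ι] (hQ : ND Q) {H R : Subgroup (GL ι F)}
    (hI : H ≤ isometryGroup F ⇑Q) {r m : ℕ} (hR : ExtraData H r m R) : OIrr Q H := by
  obtain ⟨c, hc1, hc2, -⟩ := hR.exists_root
  have h1 : orderOf c ∣ 2 := orderOf_dvd_of_pow_eq_one (Units.ext (by
    simpa [pow_two] using (fcq hQ).mul_self_of_scal (isometryGroup_le_isoG _ (hI (hR.norm.1 hc2)))))
  rw [hc1] at h1
  have hZ : r = 2 ∧ Nat.card (Subgroup.center R) = 2 := by
    rcases hR.center_card with h | ⟨-, h⟩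
    · rw [h] at h1 ⊢
      exact ⟨(Nat.prime_dvd_prime_iff_eq hR.prime Nat.prime_two).1 h1,
        (Nat.prime_dvd_prime_iff_eq hR.prime Nat.prime_two).1 h1⟩
    · rw [h] at h1; exact absurd h1 (by decide)
  obtain ⟨rfl, hZ⟩ := hZ
  unfold OIrr
  iterate 4 right
  exact Or.inl ⟨m, R, hR, hZ⟩

theorem oIrr_of_trace [Nonempty ι] (hQ : ND Q) {F₀ : Subfield F} (h0 : F₀ ≠ ⊤)
    {H P : Subgroup (GL ι F)} (hI : H ≤ isometryGroup F ⇑Q) (hP : Spans P) (hn : NormIn H P)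
    (htr : ∀ g ∈ P, (g : Matrix ι ι F).trace ∈ F₀) : OIrr Q H := by
  unfold OIrr
  iterate 3 right
  exact Or.inl ((fcq hQ).exists_ratData_of_trace h0 hP
    (hn.1.trans (hI.trans (isometryGroup_le_isoG _))) hn.2 htr)

omit [Fintype F] in
theorem PowForm.isPlus (hQ : ND Q) {t : ℕ} {e : ι ≃ (Fin t → Fin 2)} {B : GL ι F} {ε₁ : F}
    {f₁ : (Fin 2 → F) → (Fin 2 → F) → F} (h : PowForm (RingEquiv.refl F) (polar Q) e B ε₁ f₁)
    (h₁ : IsSymplecticForm f₁) (j : Fin t)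
    (hv : ∀ a, (∀ u w, polar Q (tr e B (slot j a) *ᵥ u) (tr e B (slot j a) *ᵥ w) = 0) →
      ∀ u, Q (tr e B (slot j a) *ᵥ u) = 0) : IsPlusTypeOn ⇑Q ⊤ := by
  have h1 : (Matrix.single 0 1 1 : Matrix (Fin 2) (Fin 2) F) * Matrix.single 0 1 1 = 0 := by simp
  refine isPlus_of_nil (N := tr e B (slot j (Matrix.single 0 1 1)))
    (N' := tr e B (slot j (Matrix.single 1 0 1))) ?_ ?_ (hv _ fun u w => ?_)
  · rw [← map_mul, ← map_mul, h1, map_zero, map_zero]
  · simp only [← map_mul, ← map_add]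
    rw [← map_one (tr e B), ← map_one (slot j)]
    congr 2
    ext a b
    fin_cases a <;> fin_cases b <;> simp
  · rw [(fcq hQ).adj_spec, Matrix.mulVec_mulVec, h.adj_slot, ← map_mul, ← map_mul,
      adj_symp_two h₁, sub_mul, h1]
    simp [polar_zero_right]

theorem oIrr_of_comp (hQ : ND Q) (hι : 2 ≤ Fintype.card ι) {H P : Subgroup (GL ι F)}
    (hI : H ≤ isometryGroup F ⇑Q) (hirr : Irr H) (hH : Prim H)
    (hP : CompData (scalars ι F) H P) : OIrr Q H := by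
  have := nonempty_of_two_le hι
  have hc := fcq hQ
  have hPI := hP.le.trans (hI.trans (isometryGroup_le_isoG _))
  obtain ⟨k, t, e, B, i₀, hT⟩ := hP.exists_tensData hH
  rcases (by have := i₀.pos; omega : t = 1 ∨ 2 ≤ t) with ht | ht
  swap
  · obtain ⟨ε₁, f₁, h₁⟩ := hT.exists_powForm hc (hI.trans (isometryGroup_le_sim _)) hP.le
    obtain ⟨P', hs, hp, hle⟩ := hT.exists_factor hc hPI hP.perfect h₁
    have hk : 2 ≤ Fintype.card (Fin k) := by simpa using hT.two_le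
    have := nonempty_of_two_le hk
    have : Nontrivial (Fin t) := Fin.nontrivial_iff_two_le.2 ht
    rcases h₁.fc.symp_or_symm hk hs.irr (hle.trans (isoG_le_sim _)) with a₁ | ⟨hq, a₁⟩
    · unfold OIrr
      iterate 6 right
      refine Or.inl ⟨k, t, hT.two_le, ht, by simpa using even_card_of_symplectic a₁,
        by simpa using Fintype.card_congr e, ?_⟩
      rintro rfl
      obtain ⟨j, hj⟩ := exists_ne i₀
      refine h₁.isPlus hQ a₁ j fun a ha u => ?_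
      by_cases h2 : (2 : F) = 0
      swap
      · exact Q_eq_zero_of_polar h2 (ha u u)
      obtain ⟨ω, hω⟩ := exists_omega a₁
      have h1 : ∀ i, tr e B (slot i ω) + 𝐚 (tr e B (slot i ω)) = 1 :=
        fun i => by rw [h₁.adj_slot, ← map_add, ← map_add, hω, map_one, map_one]
      rw [eq_qOf hQ h2 hι hI hirr (h1 i₀) fun g hg => ?_, Matrix.mulVec_mulVec, ← map_mul,
        ← slot_comm hj, map_mul, ← Matrix.mulVec_mulVec, ha]
      obtain ⟨j, hj⟩ := hT.perm g hg i₀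
      obtain ⟨b, hb⟩ := hj ω
      by_cases hij : j = i₀
      · obtain ⟨i, hi⟩ := exists_ne i₀
        refine ⟨_, h1 i, ?_, ?_⟩
        · rw [← map_mul, ← map_mul, slot_comm hi]
        · rw [hb, hij, ← map_mul, ← map_mul, slot_comm hi]
      · exact ⟨_, h1 i₀, rfl, by rw [hb, ← map_mul, ← map_mul, slot_comm hij]⟩
    · have key : k ≤ 3 → (∃ K, CommAlg (RingEquiv.refl F) f₁ (similarityGroup f₁) K) → False := by
        rintro h3 ⟨K, hK⟩
        exact not_comm_inv_of_perfect (by simpa using h3) hp hs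
          (fun g hg => hK.inv g (isoG_le_sim _ (hle hg))) hK.comm hK.not_scalar
      refine oIrr_of_pow_symm hQ hq ?_ ht ?_ a₁ h₁ hT.le_wreath
      · by_contra h3
        obtain rfl : k = 2 := by have := hT.two_le; omega
        exact key (by omega) (commAlg_O2 (two_ne_zero_of_odd hq) (fc_of_symmetric a₁))
      · rintro ⟨h3, rfl⟩
        exact key le_rfl (commAlg_O3_three h3 a₁)
  have hn := hT.norm ht
  have hs : Spans P := (hH P hn).resolve_left hP.not_le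
  by_cases hsub : ∃ F₀ : Subfield F, F₀ ≠ ⊤ ∧ RealisableOver F₀ (matrixSet P)
  · obtain ⟨F₀, h0, h1⟩ := hsub
    exact oIrr_of_trace hQ h0 hI hs hn (RealisableOver.trace_mem' h1)
  by_cases hU : ∃ (σ : F ≃+* F) (f : (ι → F) → (ι → F) → F), IsUnitaryForm σ f ∧
      FixesForm (matrixSet P) f
  · obtain ⟨σ, f', hf', hfix⟩ := hU
    refine oIrr_of_trace hQ (fixF_ne_top hf'.ne_refl) hI hs hn fun g hg => mem_fixF.2 ?_
    rw [← trace_inv_of_fixesForm (isSesq_of_unitary hf') hf'.nondegenerate hfix hg,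
      trace_inv_of_fixesForm hc.sesq hc.nondeg (le_isoG_iff.1 hPI) hg]
    rfl
  push Not at hsub
  unfold OIrr
  iterate 7 right
  exact ⟨P, hP.residualCore hn hs hsub, hU⟩

theorem oIrr (hQ : ND Q) (hι : 3 ≤ Fintype.card ι) {H : Subgroup (GL ι F)}
    (hI : H ≤ isometryGroup F ⇑Q) (hirr : Irr H) : OIrr Q H := by
  have hι2 : 2 ≤ Fintype.card ι := by omega
  have := nonempty_of_two_le hι2
  have hc := fcq hQ
  rcases irr_structure hirr with ⟨N, hN, hx⟩ | ⟨N, hN, k, l, e, B, hk, hl, hT⟩ | hP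
  · exact Or.inl (oComm_of_cen hQ hι hI hirr hN hx)
  · obtain ⟨ε₁, ε₂, f₁, f₂, h⟩ := hc.exists_tensForm hT fun x =>
      hc.adj_mem_spanAlg (hN.1.trans (hI.trans (isometryGroup_le_sim _)))
    have hle := hT.le hN.spanAlg_inv
    rcases le_total k l with hkl | hkl
    · exact oIrr_of_tensor_le hQ hI hirr hk hkl h hle
    · exact oIrr_of_tensor_le hQ hI hirr hl hkl h.swap
        (hle.trans (tensorProductSubgroup_le_swap e B))
  rcases hP.extra_or_comp hι2 (hirr.not_le_scalars hι2) with ⟨r, m, R, hR⟩ | ⟨P, hP'⟩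
  · exact oIrr_of_extra hQ hI hR
  · exact oIrr_of_comp hQ hι2 hI hirr hP hP'

/-- Aschbacher's theorem for subgroups of an orthogonal group. -/
theorem oAlt (hQ : ND Q) (hι : 3 ≤ Fintype.card ι) {H : Subgroup (GL ι F)}
    (hI : H ≤ isometryGroup F ⇑Q) : OAlt Q H := by
  by_cases hirr : Irr H
  · exact Or.inr <| Or.inr <| Or.inr ⟨hirr, oIrr hQ hι hI hirr⟩
  obtain ⟨W, hW⟩ := exists_minInv hirr
  rcases hW.ti_or_nd (fcq hQ) (hI.trans (isometryGroup_le_sim _)) with h | h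
  · rcases hW.ts_or_point (ndq hQ) (hI.trans (isometryGroup_le_quadSim _)) h with h | ⟨h2, v, hv, h⟩
    · exact Or.inl ⟨W, hW.ne_bot, h, hW.inv⟩
    · exact Or.inr <| Or.inr <| Or.inl ⟨h2, v, hv, h ▸ hW.inv⟩
  · exact Or.inr <| Or.inl ⟨W, hW.ne_bot, hW.ne_top, h, hW.inv⟩

end Cfsg.Agent.Class.Asch
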