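import Cfsg.Agent.Class.Asch.SpAsch
import Cfsg.Agent.Class.Asch.SLProp
import Cfsg.Agent.Class.Orth.TypeCount
import Cfsg.Agent.Class.Orth.Mat

/-! The group `Ω` of a quadratic form inside `GL`: roots, traces, and the geometric subgroups that
do not contain it. -/

set_option autoImplicit false
set_option linter.unusedSectionVars false

namespace Cfsg.Agent.Class.Asch

open Cfsg.Geo Cfsg.Agent.Class.Orth QuadraticMap Module
open scoped MatrixGroups Matrix Kronecker commutatorElement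

variable {ι : Type} [Fintype ι] [DecidableEq ι] {F : Type*} [Field F]
  {Q : QuadraticForm F (ι → F)}

theorem ndq (hQ : ND Q) : IsNondegenerateQuadraticForm ⇑Q := Max.isNondegenerateQuadraticForm_of hQ

theorem fcq (hQ : ND Q) : FC (RingEquiv.refl F) 1 (polar Q) := fc_polar (ndq hQ)

omit [DecidableEq ι] in
theorem finrank_fun : finrank F (ι → F) = Fintype.card ι := finrank_fintype_fun_eq_card F

omit [DecidableEq ι] in
theorem le_finrank_fun {k : ℕ} (h : k ≤ Fintype.card ι) : k ≤ finrank F (ι → F) :=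
  h.trans finrank_fun.ge

/-- Isometries as invertible matrices. -/
noncomputable def oGL (Q : QuadraticForm F (ι → F)) : OG Q →* GL ι F :=
  (isometryGroup F ⇑Q).subtype.comp (isoEquiv Q Q fun _ => rfl).symm.toMonoidHom

theorem oGL_mulVec (g : OG Q) (v : ι → F) : (oGL Q g : Matrix ι ι F) *ᵥ v = g.1 v :=
  isoEquiv_symm_mulVec Q Q (fun _ => rfl) g v

theorem oGL_mem (g : OG Q) : oGL Q g ∈ isometryGroup F ⇑Q := Subtype.mem _

theorem exists_oGL {g : GL ι F} (hg : g ∈ isometryGroup F ⇑Q) : ∃ k, oGL Q k = g :=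
  ⟨isoEquiv Q Q (fun _ => rfl) ⟨g, hg⟩, by simp [oGL]⟩

theorem mem_omegaGL {g : GL ι F} :
    g ∈ omegaGL ⇑Q ↔ ∃ k ∈ commutator (OG Q), oGL Q k = g := by
  constructor
  · rintro ⟨x, hx, rfl⟩
    exact ⟨_, (mem_Omega_iff Q Q (fun _ => rfl) x).1 hx, by simp [oGL]⟩
  · rintro ⟨k, hk, rfl⟩
    exact ⟨(isoEquiv Q Q fun _ => rfl).symm k,
      (mem_Omega_iff Q Q (fun _ => rfl) _).2 (by simpa using hk), rfl⟩

theorem oGL_mem_omegaGL {k : OG Q} (hk : k ∈ commutator (OG Q)) : oGL Q k ∈ omegaGL ⇑Q :=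
  mem_omegaGL.2 ⟨k, hk, rfl⟩

theorem omegaGL_le (q : (ι → F) → F) : omegaGL q ≤ isometryGroup F q := by
  rintro _ ⟨x, -, rfl⟩
  exact x.2

theorem Q_mulVec {q : (ι → F) → F} {g : GL ι F} (hg : g ∈ isometryGroup F q) (v : ι → F) :
    q ((g : Matrix ι ι F) *ᵥ v) = q v := mem_isometryGroup.1 hg v

theorem polar_gl {q : (ι → F) → F} {g : GL ι F} (hg : g ∈ isometryGroup F q) (u v : ι → F) :
    polar q ((g : Matrix ι ι F) *ᵥ u) ((g : Matrix ι ι F) *ᵥ v) = polar q u v := by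
  simp only [polar, ← Matrix.mulVec_add, Q_mulVec hg]

theorem isometryGroup_le_isoG (q : (ι → F) → F) : isometryGroup F q ≤ isoG (polar q) :=
  fun _ hg => mem_isoG.2 (polar_gl hg)

theorem isometryGroup_le_sim (q : (ι → F) → F) :
    isometryGroup F q ≤ similarityGroup (polar q) :=
  (isometryGroup_le_isoG q).trans (isoG_le_sim _)

theorem isometryGroup_le_quadSim (q : (ι → F) → F) : isometryGroup F q ≤ quadSimilarityGroup q :=
  fun _ hg => ⟨1, fun v => by rw [Q_mulVec hg, Units.val_one, one_mul]⟩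

theorem commutator_mem_omegaGL {q : (ι → F) → F} {a b : GL ι F} (ha : a ∈ isometryGroup F q)
    (hb : b ∈ isometryGroup F q) : ⁅a, b⁆ ∈ omegaGL q :=
  ⟨⁅(⟨a, ha⟩ : isometryGroup F q), ⟨b, hb⟩⁆,
    Subgroup.commutator_mem_commutator (Subgroup.mem_top _) (Subgroup.mem_top _), rfl⟩

theorem conj_mem_omegaGL {q : (ι → F) → F} {a g : GL ι F} (ha : a ∈ isometryGroup F q)
    (hg : g ∈ omegaGL q) : a * g * a⁻¹ ∈ omegaGL q := by
  obtain ⟨x, hx, rfl⟩ := hg
  have hN : (commutator (isometryGroup F q)).Normal := inferInstance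
  exact ⟨_, hN.conj_mem x hx ⟨a, ha⟩, by simp⟩

theorem det_of_mem_omegaGL {q : (ι → F) → F} {g : GL ι F} (hg : g ∈ omegaGL q) :
    (g : Matrix ι ι F).det = 1 := by
  obtain ⟨x, hx, rfl⟩ := hg
  have := Abelianization.commutator_subset_ker
    ((Matrix.GeneralLinearGroup.det : GL ι F →* Fˣ).comp (isometryGroup F q).subtype) hx
  exact congrArg Units.val (MonoidHom.mem_ker.1 this)

/-- An Eichler transformation as an invertible matrix. -/
noncomputable def eGL (Q : QuadraticForm F (ι → F)) (u v : ι → F) : GL ι F :=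
  oGL Q (eichler Q u v)

theorem eGL_mulVec {u v : ι → F} (hu : Q u = 0) (hv : polar Q u v = 0) (x : ι → F) :
    (eGL Q u v : Matrix ι ι F) *ᵥ x =
      x + (polar Q x v - Q v * polar Q x u) • u - polar Q x u • v := by
  rw [eGL, oGL_mulVec, eichler_apply hu hv]

theorem eGL_mulVec_of_perp {u v x : ι → F} (hu : Q u = 0) (hv : polar Q u v = 0)
    (hx : polar Q x u = 0) : (eGL Q u v : Matrix ι ι F) *ᵥ x = x + polar Q x v • u := by
  rw [eGL, oGL_mulVec, eichler_apply_of_perp hu hv hx]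

theorem eGL_mulVec_of_perp_perp {u v x : ι → F} (hx : polar Q x u = 0) (hx' : polar Q x v = 0) :
    (eGL Q u v : Matrix ι ι F) *ᵥ x = x := by
  rw [eGL, oGL_mulVec, eichler_apply_of_perp_perp hx hx']

/-- A reflection as an invertible matrix. -/
noncomputable def rGL (Q : QuadraticForm F (ι → F)) (v : ι → F) : GL ι F := oGL Q (Orth.refl Q v)

theorem rGL_mulVec (v x : ι → F) :
    (rGL Q v : Matrix ι ι F) *ᵥ x = x - ((Q v)⁻¹ * polar Q x v) • v := by
  rw [rGL, oGL_mulVec, refl_apply]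

theorem rGL_mem (v : ι → F) : rGL Q v ∈ isometryGroup F ⇑Q := oGL_mem _

/-- The rank one map `x ↦ f(x, w) u`. -/
def rkO (Q : QuadraticForm F (ι → F)) (u w : ι → F) : Matrix ι ι F :=
  Matrix.vecMulVec u (polarVec ⇑Q w)

theorem rkO_mulVec (u w x : ι → F) : rkO Q u w *ᵥ x = polar Q x w • u := by
  rw [rkO, Mat.vecMulVec_polarVec_mulVec, polar_comm]

theorem trace_rkO (u w : ι → F) : (rkO Q u w).trace = polar Q u w := by
  rw [rkO, Matrix.trace_vecMulVec, dotProduct_comm, Mat.polarVec_dotProduct, polar_comm]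

theorem mul_rkO (X : Matrix ι ι F) (u w : ι → F) : X * rkO Q u w = rkO Q (X *ᵥ u) w :=
  ext_mulVec fun x => by rw [← Matrix.mulVec_mulVec, rkO_mulVec, rkO_mulVec, Matrix.mulVec_smul]

theorem eGL_sub_mul {a b d : ι → F} (ha : Q a = 0) (hb : polar Q a b = 0) (hd : polar Q a d = 0) :
    ((eGL Q a b : Matrix ι ι F) - 1) * ((eGL Q a d : Matrix ι ι F) - 1) =
      (-polar Q d b) • rkO Q a a := by
  refine ext_mulVec fun x => ?_
  have haa := polar_self_of_Q_eq_zero ha
  have h1 : ((eGL Q a d : Matrix ι ι F) - 1) *ᵥ x =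
      (polar Q x d - Q d * polar Q x a) • a - polar Q x a • d := by
    rw [Matrix.sub_mulVec, Matrix.one_mulVec, eGL_mulVec ha hd]; abel
  rw [← Matrix.mulVec_mulVec, h1, Matrix.sub_mulVec, Matrix.one_mulVec, eGL_mulVec_of_perp ha hb,
    Matrix.smul_mulVec, rkO_mulVec, add_sub_cancel_left, smul_smul]
  · congr 1
    simp only [polar_sub_left, polar_smul_left', hb]
    ring
  · simp only [polar_sub_left, polar_smul_left', haa, polar_comm Q d a, hd]
    ring

variable [Finite F]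

theorem eGL_mem (hQ : ND Q) (h5 : 5 ≤ Fintype.card ι) (u v : ι → F) : eGL Q u v ∈ omegaGL ⇑Q :=
  oGL_mem_omegaGL (hQ.commutator_eq_EG_of_five_le (le_finrank_fun h5) ▸ eichler_mem_EG u v)

theorem rGL_mul_mem (hQ : ND Q) (h5 : 5 ≤ Fintype.card ι) {x y : ι → F} (hx : Q x ≠ 0)
    (hxy : Q x = Q y) : rGL Q x * rGL Q y ∈ omegaGL ⇑Q := by
  have h5' : 5 ≤ finrank F (ι → F) := le_finrank_fun h5
  obtain ⟨e, f, hef⟩ := hQ.exists_isHyp_of_three_le (by omega)
  rw [rGL, rGL, ← map_mul]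
  exact oGL_mem_omegaGL (hQ.commutator_eq_EG_of_five_le h5' ▸
    hQ.refl_mul_refl_mem_EG hef (by omega) hx hxy)

theorem om_move (hQ : ND Q) (h5 : 5 ≤ Fintype.card ι) {x y : ι → F} (hx : x ≠ 0) (hy : y ≠ 0)
    (h : Q y = Q x) : ∃ g ∈ omegaGL ⇑Q, (g : Matrix ι ι F) *ᵥ x = y := by
  have h5' : 5 ≤ finrank F (ι → F) := le_finrank_fun h5
  obtain ⟨g, hg, h1⟩ := (Max.fmQuad Q hQ).move_EG h5' hx hy h
  rw [Max.EG_fmQuad, ← hQ.commutator_eq_EG_of_five_le h5'] at hg
  obtain ⟨k, hk, rfl⟩ := hg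
  exact ⟨_, oGL_mem_omegaGL hk, (oGL_mulVec k x).trans h1⟩

theorem irr_omega (hQ : ND Q) (h5 : 5 ≤ Fintype.card ι) : Irr (omegaGL ⇑Q) := by
  have h5' : 5 ≤ finrank F (ι → F) := le_finrank_fun h5
  intro W hW
  refine (Max.fmQuad Q hQ).irr_EG h5' W fun g hg v hv => ?_
  rw [Max.EG_fmQuad, ← hQ.commutator_eq_EG_of_five_le h5'] at hg
  obtain ⟨k, hk, rfl⟩ := hg
  exact oGL_mulVec k v ▸ hW _ (oGL_mem_omegaGL hk) v hv

theorem exists_root_data (hQ : ND Q) (h3 : 3 ≤ Fintype.card ι) :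
    ∃ a a' b d : ι → F, IsHyp Q a a' ∧ b ∈ perp2 Q a a' ∧ d ∈ perp2 Q a a' ∧ polar Q d b = 1 := by
  have h3' : 3 ≤ finrank F (ι → F) := le_finrank_fun h3
  obtain ⟨a, a', h⟩ := hQ.exists_isHyp_of_three_le h3'
  have h1 := h.finrank_perp2
  obtain ⟨d, hd, hd0⟩ := Submodule.exists_mem_ne_zero_of_ne_bot (p := perp2 Q a a') (by
    intro h0; rw [h0, finrank_bot] at h1; omega)
  obtain ⟨b, hb, hb1⟩ := (hQ.ndon_perp2 h).exists_polar_eq hd hd0 1
  exact ⟨a, a', b, d, h, hb, hd, hb1⟩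

theorem spans_omega (hQ : ND Q) (h5 : 5 ≤ Fintype.card ι) : Spans (omegaGL ⇑Q) := by
  obtain ⟨a, a', b, d, h, hb, hd, hdb⟩ := exists_root_data hQ (by omega)
  let A := spanAlg F (omegaGL ⇑Q)
  have h0 : rkO Q a a ∈ A := by
    have := A.mul_mem (A.sub_mem (coe_mem_spanAlg (K := F) (eGL_mem hQ h5 a b)) A.one_mem)
      (A.sub_mem (coe_mem_spanAlg (K := F) (eGL_mem hQ h5 a d)) A.one_mem)
    rw [eGL_sub_mul h.left hb.1 hd.1, hdb, neg_one_smul] at this
    simpa using A.neg_mem this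
  have hI := irr_omega hQ h5
  have h1 : ∀ u, rkO Q u a ∈ A := by
    let W : Submodule F (ι → F) :=
      { carrier := {u | rkO Q u a ∈ A}
        add_mem' := fun {x y} hx hy => by
          simpa [rkO, Matrix.add_vecMulVec] using A.add_mem hx hy
        zero_mem' := by simp [rkO]
        smul_mem' := fun c x hx => by
          simpa [rkO, Matrix.smul_vecMulVec] using A.smul_mem hx c }
    have : W = ⊤ := (hI W fun g hg v hv => by
      have := A.mul_mem (coe_mem_spanAlg (K := F) hg) hv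
      rwa [mul_rkO] at this).resolve_left fun hW =>
        h.left_ne_zero ((Submodule.eq_bot_iff W).1 hW a h0)
    exact fun u => (this.symm ▸ Submodule.mem_top : u ∈ W)
  have h2 : ∀ w u, rkO Q u w ∈ A := by
    let W : Submodule F (ι → F) :=
      { carrier := {w | ∀ u, rkO Q u w ∈ A}
        add_mem' := fun {x y} hx hy u => by
          convert A.add_mem (hx u) (hy u) using 1
          exact ext_mulVec fun z => by
            simp only [Matrix.add_mulVec, rkO_mulVec, polar_add_right, add_smul]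
        zero_mem' := fun u => by
          convert A.zero_mem using 1
          exact ext_mulVec fun z => by simp [rkO_mulVec]
        smul_mem' := fun c x hx u => by
          convert A.smul_mem (hx u) c using 1
          exact ext_mulVec fun z => by
            simp only [Matrix.smul_mulVec, rkO_mulVec, polar_smul_right', mul_smul] }
    have : W = ⊤ := (hI W fun g hg v hv u => by
      convert A.mul_mem (hv u) (coe_mem_spanAlg (K := F) (inv_mem hg)) using 1
      refine ext_mulVec fun z => ?_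
      rw [← Matrix.mulVec_mulVec, rkO_mulVec, rkO_mulVec,
        ← polar_gl (omegaGL_le _ hg) (_ *ᵥ z) v, mulVec_inv_mulVec]).resolve_left fun hW =>
        h.left_ne_zero ((Submodule.eq_bot_iff W).1 hW a h1)
    exact fun u => (this.symm ▸ Submodule.mem_top : u ∈ W)
  rw [spans_iff, eq_top_iff]
  intro X _
  rw [matrix_eq_sum_smul_single X]
  refine Subalgebra.sum_mem _ fun i _ => Subalgebra.sum_mem _ fun j _ => Subalgebra.smul_mem _ ?_ _
  have hG := Mat.det_gram_ne_zero Q ((nd_iff Q).1 hQ)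
  convert h2 ((Mat.gram Q)⁻¹ *ᵥ Pi.single j 1) (Pi.single i 1) using 1
  refine ext_mulVec fun z => ?_
  rw [rkO_mulVec, Mat.polar_eq_gram, Matrix.mulVec_mulVec, Matrix.mul_nonsing_inv _ hG.isUnit,
    Matrix.one_mulVec, Matrix.single_mulVec]
  ext k
  simp [Function.update_apply, Pi.single_apply]

theorem qs_omega (hQ : ND Q) (h5 : 5 ≤ Fintype.card ι) : QS (omegaGL ⇑Q) := by
  have h5' : 5 ≤ finrank F (ι → F) := le_finrank_fun h5
  have := nonempty_of_two_le (ι := ι) (by omega)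
  refine qs_of_hom ((oGL Q).comp (commutator (OG Q)).subtype) ?_ (hQ.commutator_Omega_eq_top h5')
    (fun N _ => (hQ.normal_Omega h5' N).symm.imp_left fun h n hn =>
      (hQ.mem_center_Omega h5' n).2 (h n hn)) (spans_omega hQ h5)
  ext g
  rw [mem_omegaGL]
  exact ⟨fun ⟨k, hk⟩ => ⟨k.1, k.2, hk⟩, fun ⟨k, hk, h⟩ => ⟨⟨k, hk⟩, h⟩⟩

omit [Finite F] in
theorem finrank_perp2_ge (a b : ι → F) : Fintype.card ι ≤ finrank F (perp2 Q a b) + 2 := by
  have h1 := finrank_ker_ge (polarBilin Q a)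
  have h2 := Submodule.finrank_sup_add_finrank_inf_eq (LinearMap.ker (polarBilin Q a))
    (LinearMap.ker (polarBilin Q b))
  have h3 := finrank_ker_ge (polarBilin Q b)
  have h4 := Submodule.finrank_le (LinearMap.ker (polarBilin Q a) ⊔ LinearMap.ker (polarBilin Q b))
  rw [finrank_fun] at h4
  rw [perp2]
  omega

theorem hasRoot_omega (hQ : ND Q) (h5 : 5 ≤ Fintype.card ι) : HasRoot (omegaGL ⇑Q) 2 := by
  obtain ⟨a, a', b, d, h, hb, hd, hdb⟩ := exists_root_data hQ (by omega)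
  refine ⟨_, eGL_mem hQ h5 a b, fun hz => ?_, perp2 Q a b, fun w hw =>
    eGL_mulVec_of_perp_perp (mem_perp2'.1 hw).1 (mem_perp2'.1 hw).2, finrank_perp2_ge a b⟩
  obtain ⟨c, hc⟩ := (mem_scalars_iff _).1 hz
  have h1 := congrArg (fun x => polar Q d x) (eGL_mulVec h.left hb.1 a')
  simp only [hc, Matrix.smul_mulVec, Matrix.one_mulVec, polar_sub_right, polar_add_right,
    polar_smul_right', (mem_perp2'.1 hd).1, (mem_perp2'.1 hd).2, hdb, h.pol'] at h1
  simp at h1

theorem eq_top_of_trace_omega (hQ : ND Q) (h5 : 5 ≤ Fintype.card ι) {F₀ : Subfield F}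
    (h : ∀ g ∈ omegaGL ⇑Q, (g : Matrix ι ι F).trace ∈ F₀) : F₀ = ⊤ := by
  obtain ⟨a, a', b, d, ha, hb, hd, hdb⟩ := exists_root_data hQ (by omega)
  rw [eq_top_iff]
  intro c _
  by_cases hc : c = 0
  · rw [hc]; exact F₀.zero_mem
  obtain ⟨g, hg, h1⟩ := om_move hQ h5 ha.left_ne_zero (smul_ne_zero hc ha.right_ne_zero)
    (by rw [Q_smul, ha.left, ha.right, mul_zero])
  have e1 := eGL_mem hQ h5 a b
  have e2 := eGL_mem hQ h5 a d
  have h2 := F₀.sub_mem (F₀.add_mem (h _ (mul_mem hg e1)) (h _ (mul_mem hg e2)))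
    (F₀.add_mem (h _ (mul_mem hg (mul_mem e1 e2))) (h g hg))
  have h3 := congrArg (fun X => ((g : Matrix ι ι F) * X).trace) (eGL_sub_mul ha.left hb.1 hd.1)
  simp only [hdb, neg_one_smul, mul_neg, Matrix.trace_neg, mul_rkO, trace_rkO, h1,
    polar_smul_left', ha.pol', mul_one, sub_mul, mul_sub, one_mul, Matrix.trace_sub] at h3
  simp only [Units.val_mul] at h2
  convert h2 using 1
  linear_combination h3

theorem omega_not_le_subfield (hQ : ND Q) (h5 : 5 ≤ Fintype.card ι) {F₀ : Subfield F}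
    (h0 : F₀ ≠ ⊤) (B : GL ι F) : ¬ omegaGL ⇑Q ≤ subfieldSubgroup F₀ B := fun h =>
  h0 (eq_top_of_trace_omega hQ h5 fun _ hg =>
    trace_mem_of_le_subfieldSubgroup (qs_omega hQ h5).perfect h hg)

theorem omega_not_le_stabilizer (hQ : ND Q) (h5 : 5 ≤ Fintype.card ι) {W : Submodule F (ι → F)}
    (h0 : W ≠ ⊥) (h1 : W ≠ ⊤) : ¬ omegaGL ⇑Q ≤ subspaceStabilizer W :=
  (irr_omega hQ h5).not_le_stabilizer h0 h1

theorem omega_not_le_normalizer (hQ : ND Q) (h5 : 5 ≤ Fintype.card ι)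
    {K : Subalgebra F (Matrix ι ι F)} {d : ℕ} (hK : IsFieldSubalgebra d K) (hd : d ≠ 1) :
    ¬ omegaGL ⇑Q ≤ subalgebraNormalizer K :=
  have := nonempty_of_two_le (ι := ι) (by omega)
  not_le_subalgebraNormalizer (qs_omega hQ h5).perfect (spans_omega hQ h5) hK hd

theorem omega_not_le_decomposition_of (hQ : ND Q) (h5 : 5 ≤ Fintype.card ι) {t m : ℕ}
    {D : Fin t → Submodule F (ι → F)} (hD : IsMDecomposition m D) {i : Fin t} {v s : ι → F}
    (hv : v ∈ D i) (hv0 : v ≠ 0) (hs : s ∈ ⨆ (j) (_ : j ≠ i), D j) (hs0 : s ≠ 0)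
    (h : Q (v + s) = Q v) : ¬ omegaGL ⇑Q ≤ decompositionStabilizer D := fun hle => by
  have h1 := IsMDecomposition.add_notMem' hD hv hv0 hs hs0
  obtain ⟨g, hg, h2⟩ := om_move hQ h5 hv0 (y := v + s)
    (fun h0 => h1 i (h0 ▸ Submodule.zero_mem _)) h
  exact not_mem_decompositionStabilizer hv (fun j => h2 ▸ h1 j) (hle hg)

omit [Finite F] in
theorem polar_eq_zero_of_mem_iSup {t m : ℕ} {D : Fin t → Submodule F (ι → F)}
    (hD : IsNondegenerateMDecomposition (polar Q) m D) {i : Fin t} {v s : ι → F} (hv : v ∈ D i)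
    (hs : s ∈ ⨆ (j) (_ : j ≠ i), D j) : polar Q s v = 0 := by
  refine Submodule.iSup_induction (motive := fun s => polar Q s v = 0) _ hs (fun j w hw => ?_)
    (polar_zero_left Q v) (fun a b ha hb => by rw [polar_add_left, ha, hb, add_zero])
  by_cases hj : j = i
  · simp only [hj, ne_eq, not_true_eq_false, iSup_false, Submodule.mem_bot] at hw
    rw [hw, polar_zero_left]
  · simp only [ne_eq, hj, not_false_eq_true, iSup_pos] at hw
    exact hD.orthogonal j i hj w hw v hv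

omit [Finite F] in
theorem finrank_iSup_ne_ge {t m : ℕ} {D : Fin t → Submodule F (ι → F)}
    (hD : IsMDecomposition m D) (i : Fin t) :
    m * t ≤ m + finrank F (⨆ (j) (_ : j ≠ i), D j : Submodule F (ι → F)) := by
  have hsup : D i ⊔ ⨆ (j) (_ : j ≠ i), D j = ⊤ := by
    rw [← iSup_split_single, hD.iSup_eq_top]
  have h3 := Submodule.finrank_add_le_finrank_add_finrank (D i) (⨆ (j) (_ : j ≠ i), D j)
  rwa [hsup, finrank_top, finrank_fun, hD.finrank_eq, IsMDecomposition.card_eq' hD] at h3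

theorem omega_not_le_nd (hQ : ND Q) (h5 : 5 ≤ Fintype.card ι) {t m : ℕ}
    {D : Fin t → Submodule F (ι → F)} (hD : IsNondegenerateMDecomposition (polar Q) m D) :
    ¬ omegaGL ⇑Q ≤ decompositionStabilizer D := by
  have h2 := hD.decomp.two_le
  let i : Fin t := ⟨0, by omega⟩
  obtain ⟨v, hv, hv0⟩ := IsMDecomposition.exists_ne_zero' hD.decomp i
  have h3 := finrank_iSup_ne_ge hD.decomp i
  have h4 := IsMDecomposition.card_eq' hD.decomp
  have h6 : m * 2 ≤ m * t := Nat.mul_le_mul_left m h2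
  obtain ⟨s, hs, hs0, hss⟩ := exists_singular_mem Q (⨆ (j) (_ : j ≠ i), D j) (by omega)
  exact omega_not_le_decomposition_of hQ h5 hD.decomp hv hv0 hs hs0 (by
    rw [Q_add, hss, polar_comm, polar_eq_zero_of_mem_iSup hD hv hs, add_zero, add_zero])

omit [Finite F] in
theorem exists_mem_polar_eq_zero {W : Submodule F (ι → F)} (hW : 2 ≤ finrank F W) (v : ι → F) :
    ∃ s ∈ W, s ≠ 0 ∧ polar Q v s = 0 := by
  have h1 := finrank_ker_ge (polarBilin Q v)
  have h2 := Submodule.finrank_sup_add_finrank_inf_eq W (LinearMap.ker (polarBilin Q v))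
  have h4 := Submodule.finrank_le (W ⊔ LinearMap.ker (polarBilin Q v))
  rw [finrank_fun] at h4
  obtain ⟨s, hs, hs0⟩ := Submodule.exists_mem_ne_zero_of_ne_bot
    (p := W ⊓ LinearMap.ker (polarBilin Q v)) (by intro h; rw [h, finrank_bot] at h2; omega)
  exact ⟨s, hs.1, hs0, hs.2⟩

theorem omega_not_le_ts (hQ : ND Q) (h5 : 5 ≤ Fintype.card ι) {m : ℕ}
    {D : Fin 2 → Submodule F (ι → F)} (hD : IsMDecomposition m D)
    (hts : ∀ i, IsTotallySingularQuad ⇑Q (D i)) : ¬ omegaGL ⇑Q ≤ decompositionStabilizer D := by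
  obtain ⟨v, hv, hv0⟩ := IsMDecomposition.exists_ne_zero' hD 0
  have h4 := IsMDecomposition.card_eq' hD
  obtain ⟨s, hs, hs0, h⟩ := exists_mem_polar_eq_zero (Q := Q) (W := D 1)
    (by rw [hD.finrank_eq]; omega) v
  exact omega_not_le_decomposition_of hQ h5 hD hv hv0 (mem_iSup_ne (j := 1) (by decide) hs) hs0
    (by rw [Q_add, h, hts 1 s hs, add_zero, add_zero])

omit [Finite F] in
theorem ts_ne_top (hQ : ND Q) (h1 : 1 ≤ Fintype.card ι) {W : Submodule F (ι → F)}
    (h : IsTotallySingularQuad ⇑Q W) : W ≠ ⊤ := by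
  rintro rfl
  have := TS.two_mul_le hQ (U := ⊤) h
  rw [finrank_top, finrank_fun] at this
  omega

/-- `Ω` preserves the two classes of maximal totally singular subspaces. -/
theorem even_codim_of_mem_omegaGL (hQ : ND Q) (h5 : 5 ≤ Fintype.card ι) {m : ℕ}
    (hm : Fintype.card ι = 2 * m) {U : Submodule F (ι → F)} (hU : IsTotallySingularQuad ⇑Q U)
    (dU : finrank F U = m) {g : GL ι F} (hg : g ∈ omegaGL ⇑Q) :
    Even (m - finrank F ↥(U ⊓ U.map (Matrix.toLin' (g : Matrix ι ι F)))) := by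
  obtain ⟨k, hk, rfl⟩ := mem_omegaGL.1 hg
  have hR : ReflGen Q := hQ.reflGen (Or.inr (by rw [finrank_fun]; omega))
  have h1 := (dickson_eq_one_iff_codim hQ hR (finrank_fun.trans hm) hU dU k).1
    (Abelianization.commutator_subset_ker _ hk)
  have h2 : Matrix.toLin' (oGL Q k : Matrix ι ι F) = (k.1 : (ι → F) →ₗ[F] (ι → F)) :=
    LinearMap.ext fun v => oGL_mulVec k v
  rwa [h2]

end Cfsg.Agent.Class.Asch
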