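import Cfsg.Agent.Class.Asch.OSub
import Cfsg.Agent.Class.Orth.SymmForm

/-! Orthogonal decompositions: refinements and frames. -/

set_option autoImplicit false
set_option linter.unusedSectionVars false

namespace Cfsg.Agent.Class.Asch

open Cfsg.Geo Cfsg.Agent.Class.Orth QuadraticMap Module
open scoped MatrixGroups Matrix Kronecker commutatorElement

section fam

variable {F : Type*} [Field F] {V E E' : Type*} [AddCommGroup V] [Module F V] [AddCommGroup E]
  [Module F E] [AddCommGroup E'] [Module F E'] {κ κ' : Type} [Fintype κ] [Fintype κ']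

/-- `V` is the orthogonal sum of the images of the isometric embeddings `φ p` of `(E, q)`. -/
structure OFam (Q : QuadraticForm F V) (q : QuadraticForm F E) (φ : κ → E →ₗ[F] V) : Prop where
  nd : ND q
  map_Q : ∀ p x, Q (φ p x) = q x
  orth : ∀ p p', p ≠ p' → ∀ x y, polar Q (φ p x) (φ p' y) = 0
  card : Fintype.card κ * finrank F E = finrank F V

variable {Q : QuadraticForm F V} {q : QuadraticForm F E} {q' : QuadraticForm F E'}
  {φ : κ → E →ₗ[F] V}

theorem OFam.polar_eq (h : OFam Q q φ) (p : κ) (x y : E) :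
    polar Q (φ p x) (φ p y) = polar q x y := by
  simp only [polar, ← map_add, h.map_Q]

theorem OFam.eq_zero (h : OFam Q q φ) {p : κ} {x : E} (hx : φ p x = 0) : x = 0 :=
  h.nd x fun y => by rw [← h.polar_eq p, hx, polar_zero_left]

theorem OFam.inj (h : OFam Q q φ) (p : κ) : Function.Injective (φ p) :=
  (injective_iff_map_eq_zero _).2 fun _ => h.eq_zero

theorem OFam.comp (h : OFam Q q φ) {χ : κ' → E' →ₗ[F] E} (h' : OFam q q' χ) :
    OFam Q q' fun p : κ' × κ => φ p.2 ∘ₗ χ p.1 where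
  nd := h'.nd
  map_Q p x := by simp [h.map_Q, h'.map_Q]
  orth p p' hp x y := by
    by_cases h2 : p.2 = p'.2
    · simp only [LinearMap.comp_apply, h2, h.polar_eq]
      exact h'.orth _ _ (fun h1 => hp (Prod.ext h1 h2)) x y
    · exact h.orth _ _ h2 _ _
  card := by rw [Fintype.card_prod, ← h.card, ← h'.card]; ring

theorem OFam.polar_sum (h : OFam Q q φ) (x : κ → E) (p : κ) (y : E) :
    polar Q (∑ j, φ j (x j)) (φ p y) = polar q (x p) y := by
  classical
  rw [← polarBilin_apply_apply, map_sum, LinearMap.sum_apply, Finset.sum_eq_single p]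
  · exact h.polar_eq p _ _
  · exact fun j _ hj => h.orth j p hj _ _
  · simp

theorem OFam.Q_sum (h : OFam Q q φ) (x : κ → E) : Q (∑ j, φ j (x j)) = ∑ j, q (x j) := by
  classical
  have key : ∀ s : Finset κ, Q (∑ j ∈ s, φ j (x j)) = ∑ j ∈ s, q (x j) := fun s => by
    induction s using Finset.induction_on with
    | empty => simp
    | insert a s ha ih =>
      rw [Finset.sum_insert ha, Finset.sum_insert ha, Q_add, ih, h.map_Q, add_eq_left,
        ← polarBilin_apply_apply, map_sum]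
      exact Finset.sum_eq_zero fun j hj => h.orth a j (fun e => ha (e ▸ hj)) _ _
  exact key _

theorem OFam.exists_sum [FiniteDimensional F V] [FiniteDimensional F E] (h : OFam Q q φ) (v : V) :
    ∃ x : κ → E, v = ∑ j, φ j (x j) := by
  classical
  let Φ : (κ → E) →ₗ[F] V := ∑ j, φ j ∘ₗ LinearMap.proj j
  have h1 : ∀ x, Φ x = ∑ j, φ j (x j) := fun x => by simp [Φ]
  have h2 : Function.Injective Φ := (injective_iff_map_eq_zero _).2 fun x hx =>
    funext fun p => h.nd _ fun y => by rw [← h.polar_sum, ← h1, hx, polar_zero_left]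
  obtain ⟨x, hx⟩ := (LinearMap.injective_iff_surjective_of_finrank_eq_finrank
    (by rw [← h.card, finrank_pi_fintype, Finset.sum_const, smul_eq_mul, Finset.card_univ])).1 h2 v
  exact ⟨x, by rw [← hx, h1]⟩

/-- The form `c x²` on the field. -/
noncomputable def sqF (c : F) : QuadraticForm F F := c • QuadraticMap.sq

theorem sqF_apply (c x : F) : sqF c x = c * x ^ 2 := by simp [sqF, pow_two]

theorem nd_sqF {c : F} (hc : 2 * c ≠ 0) : ND (sqF c) := fun x hx => by
  have := hx 1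
  simp only [polar, sqF_apply] at this
  exact (mul_eq_zero.1 (by linear_combination this : 2 * c * x = 0)).resolve_left hc

/-- An orthogonal basis of vectors of the same norm. -/
structure IsFrame (Q : QuadraticForm F V) (c : F) (b : κ → V) : Prop where
  ne : 2 * c ≠ 0
  norm : ∀ p, Q (b p) = c
  orth : ∀ p p', p ≠ p' → polar Q (b p) (b p') = 0
  card : Fintype.card κ = finrank F V

theorem IsFrame.oFam {c : F} {b : κ → V} (h : IsFrame Q c b) :
    OFam Q (sqF c) fun p => LinearMap.toSpanSingleton F V (b p) where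
  nd := nd_sqF h.ne
  map_Q p x := by simp [Q_smul, h.norm, sqF_apply, mul_comm]
  orth p p' hp x y := by simp [h.orth p p' hp]
  card := by simp [h.card]

theorem OFam.frame (h : OFam Q q φ) {c : F} {b : κ' → E} (hb : IsFrame q c b) :
    IsFrame Q c fun p : κ' × κ => φ p.2 (b p.1) where
  ne := hb.ne
  norm p := by rw [h.map_Q, hb.norm]
  orth p p' hp := by simpa using (h.comp hb.oFam).orth p p' hp 1 1
  card := by simpa using (h.comp hb.oFam).card

theorem IsFrame.ne_zero {c : F} {b : κ → V} (h : IsFrame Q c b) (p : κ) : b p ≠ 0 := fun h0 =>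
  h.ne (by rw [← h.norm p, h0, map_zero, mul_zero])

theorem IsFrame.exists_sum [FiniteDimensional F V] {c : F} {b : κ → V} (h : IsFrame Q c b)
    (v : V) : ∃ x : κ → F, v = ∑ j, x j • b j ∧ Q v = c * ∑ j, x j ^ 2 := by
  obtain ⟨x, rfl⟩ := h.oFam.exists_sum v
  exact ⟨x, rfl, by rw [h.oFam.Q_sum, Finset.mul_sum]; simp only [sqF_apply]⟩

/-- A frame containing, up to scalars, every vector of its norm. -/
def Rigid (Q : QuadraticForm F V) (k : ℕ) : Prop :=
  ∃ (c : F) (b : Fin k → V), IsFrame Q c b ∧ ∀ v, Q v = c → ∃ (a : Fin k) (s : F), v = s • b a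

theorem IsFrame.rigid [FiniteDimensional F V] {c : F} {k : ℕ} {b : Fin k → V} (h : IsFrame Q c b)
    (hk : ∀ x : Fin k → F, ∑ j, x j ^ 2 = 1 → ∃ a, ∀ j, j ≠ a → x j = 0) : Rigid Q k := by
  refine ⟨c, b, h, fun v hv => ?_⟩
  obtain ⟨x, rfl, hx⟩ := h.exists_sum v
  obtain ⟨a, ha⟩ := hk x (mul_left_cancel₀ (right_ne_zero_of_mul h.ne) (by rw [← hx, hv, mul_one]))
  exact ⟨a, x a, Finset.sum_eq_single a (fun j _ hj => by rw [ha j hj, zero_smul]) (by simp)⟩

end fam

variable {ι : Type} [Fintype ι] [DecidableEq ι] {F : Type*} [Field F]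
  {Q : QuadraticForm F (ι → F)}

theorem ndon_of_nd {W : Submodule F (ι → F)} (h : IsNondegenerateOn (polar Q) W) : NDon Q W :=
  fun x hx h0 => by
    by_contra h1
    obtain ⟨y, hy, h2⟩ := (h x hx h1).2
    exact h2 (h0 y hy)

theorem nd_of_ndon {W : Submodule F (ι → F)} (h : NDon Q W) : IsNondegenerateOn (polar Q) W :=
  fun x hx h0 => by
    obtain ⟨y, hy, h1⟩ := h.exists_polar_eq hx h0 1
    exact ⟨⟨y, hy, by rw [polar_comm, h1]; exact one_ne_zero⟩, y, hy, by rw [h1]; exact one_ne_zero⟩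

theorem isPlusTypeOn_iff (W : Submodule F (ι → F)) :
    IsPlusTypeOn ⇑Q W ↔ QF.IsPlus (Q.comp W.subtype) := by
  constructor
  · rintro ⟨U, hU, h1, h2⟩
    exact ⟨U.comap W.subtype, fun u hu => h1 _ hu, by
      rw [(Submodule.comapSubtypeEquivOfLe hU).finrank_eq, h2]⟩
  · rintro ⟨U, h1, h2⟩
    refine ⟨U.map W.subtype, Submodule.map_subtype_le _ _, ?_, by
      rw [Submodule.finrank_map_subtype_eq, h2]⟩
    rintro _ ⟨u, hu, rfl⟩
    exact h1 u hu

section dec

variable {E : Type*} [AddCommGroup E] [Module F E] [FiniteDimensional F E] {κ : Type} [Fintype κ]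
  {q : QuadraticForm F E} {φ : κ → E →ₗ[F] (ι → F)}

theorem OFam.ndon (h : OFam Q q φ) (p : κ) : NDon Q (LinearMap.range (φ p)) := by
  rintro _ ⟨x, rfl⟩ hx
  rw [h.nd x fun y => by rw [← h.polar_eq p]; exact hx _ ⟨y, rfl⟩, map_zero]

theorem OFam.isPlus_iff (h : OFam Q q φ) (p : κ) :
    IsPlusTypeOn ⇑Q (LinearMap.range (φ p)) ↔ QF.IsPlus q := by
  rw [isPlusTypeOn_iff]
  let e := LinearEquiv.ofInjective _ (h.inj p)
  have h1 : ∀ x, (Q.comp (LinearMap.range (φ p)).subtype) (e x) = 1 * q x := fun x => by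
    rw [one_mul]; exact h.map_Q p x
  exact ⟨QF.IsPlus.of_equiv e.symm (c := 1) fun v => by
    rw [one_mul, ← one_mul (q _), ← h1, e.apply_symm_apply], QF.IsPlus.of_equiv e h1⟩

theorem OFam.dec (h : OFam Q q φ) {s : ℕ} (e : Fin s ≃ κ) (hs : 2 ≤ s) (hE : 0 < finrank F E) :
    IsOrthogonalMDecomposition ⇑Q (finrank F E) fun j => LinearMap.range (φ (e j)) := by
  have ho : ∀ i j, i ≠ j → AreOrthogonalFor (polar Q) (LinearMap.range (φ (e i)))
      (LinearMap.range (φ (e j))) := by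
    rintro i j hij _ ⟨x, rfl⟩ _ ⟨y, rfl⟩
    exact h.orth _ _ (e.injective.ne hij) x y
  refine ⟨⟨⟨hs, hE, fun j => LinearMap.finrank_range_of_inj (h.inj _), fun i => ?_, ?_⟩,
    fun j => nd_of_ndon (h.ndon _), ho⟩, fun i j => ?_⟩
  · refine Submodule.disjoint_def.2 fun v hv hv' => h.ndon _ v hv fun y hy => ?_
    have : (⨆ (j) (_ : j ≠ i), LinearMap.range (φ (e j))) ≤
        LinearMap.ker (polarBilin Q y) := iSup₂_le fun j hj w hw => ho i j hj.symm y hy w hw
    rw [polar_comm]; exact this hv'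
  · refine eq_top_iff.2 fun v _ => ?_
    obtain ⟨x, rfl⟩ := h.exists_sum v
    exact Submodule.sum_mem _ fun p _ => Submodule.mem_iSup_of_mem (e.symm p) (by simp)
  · refine ⟨(LinearEquiv.ofInjective _ (h.inj _)).symm.trans (LinearEquiv.ofInjective _ (h.inj _)),
      ?_⟩
    rintro ⟨_, x, rfl⟩
    have : (LinearEquiv.ofInjective _ (h.inj (e i))).symm ⟨_, x, rfl⟩ = x :=
      (LinearEquiv.symm_apply_eq _).2 rfl
    simp [this, h.map_Q]

theorem OFam.mem_stab (h : OFam Q q φ) {s : ℕ} (e : Fin s ≃ κ) (hs : 2 ≤ s) (hE : 0 < finrank F E)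
    {g : GL ι F} (hg : ∀ p, ∃ p', ∀ x, ∃ y, (g : Matrix ι ι F) *ᵥ φ p x = φ p' y) :
    g ∈ decompositionStabilizer fun j => LinearMap.range (φ (e j)) := by
  refine mem_decompositionStabilizer_of_le (h.dec e hs hE).decomp.decomp fun i => ?_
  obtain ⟨p', hp⟩ := hg (e i)
  refine ⟨e.symm p', ?_⟩
  rintro _ ⟨x, rfl⟩
  obtain ⟨y, hy⟩ := hp x
  exact ⟨y, by rw [hy, e.apply_symm_apply]⟩

end dec

theorem NdDec.orth {H : Subgroup (GL ι F)} (hI : H ≤ isometryGroup F ⇑Q) {t m : ℕ}
    {D : Fin t → Submodule F (ι → F)} (h : NdDec (polar Q) H m D) :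
    IsOrthogonalMDecomposition ⇑Q m D := by
  refine ⟨h.dec, fun i j => ?_⟩
  obtain ⟨g, hg, h1⟩ := h.trans i j
  exact ⟨(glEquiv ι F g).ofSubmodules _ _ h1, fun w => Q_mulVec (hI hg) w⟩

theorem IsOrthogonalMDecomposition.exists_oFam {t m : ℕ} {D : Fin t → Submodule F (ι → F)}
    (h : IsOrthogonalMDecomposition ⇑Q m D) (i : Fin t) : ∃ φ : Fin t → D i →ₗ[F] (ι → F),
      OFam Q (Q.comp (D i).subtype) φ ∧ ∀ j, LinearMap.range (φ j) = D j := by
  choose e he using h.isometric i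
  refine ⟨fun j => (D j).subtype ∘ₗ (e j).toLinearMap,
    ⟨(ndon_of_nd (h.decomp.nondegenerate i)).nd_comp, he, fun j j' hj x y =>
      h.decomp.orthogonal j j' hj _ (e j x).2 _ (e j' y).2, ?_⟩, fun j => ?_⟩
  · rw [finrank_fun, IsMDecomposition.card_eq' h.decomp.decomp, h.decomp.decomp.finrank_eq,
      Fintype.card_fin, mul_comm]
  · rw [LinearMap.range_comp, LinearEquiv.range, Submodule.map_top, Submodule.range_subtype]

theorem exists_map_of_mem_stab {t : ℕ} {D : Fin t → Submodule F (ι → F)} {g : GL ι F}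
    (hg : g ∈ decompositionStabilizer D) (i : Fin t) :
    ∃ j, ∀ v ∈ D i, (g : Matrix ι ι F) *ᵥ v ∈ D j := by
  obtain ⟨σ, hσ⟩ := hg
  exact ⟨σ i, fun v hv => hσ i ▸ ⟨v, hv, rfl⟩⟩

theorem not_mem_stab_of {t m : ℕ} {D : Fin t → Submodule F (ι → F)} (hD : IsMDecomposition m D)
    {g : GL ι F} {i : Fin t} {u v : ι → F} (hv : v ∈ D i) (hv0 : v ≠ 0)
    (h1 : (g : Matrix ι ι F) *ᵥ v = v) (hu : u ∈ D i) (h2 : (g : Matrix ι ι F) *ᵥ u ∉ D i) :
    g ∉ decompositionStabilizer D := fun hg => by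
  obtain ⟨j, hj⟩ := exists_map_of_mem_stab hg i
  by_cases hij : i = j
  · exact h2 (hij ▸ hj u hu)
  · exact hv0 (Submodule.disjoint_def.1 (hD.indep.pairwiseDisjoint hij) v hv (h1 ▸ hj v hv))

theorem eGL_not_mem_of {W : Submodule F (ι → F)} (hW : NDon Q W) {a b x : ι → F} (ha0 : a ≠ 0)
    (ha : Q a = 0) (hab : polar Q a b = 0) (haW : ∀ w ∈ W, polar Q w a = 0) (hx : x ∈ W)
    (hxb : polar Q x b ≠ 0) : (eGL Q a b : Matrix ι ι F) *ᵥ x ∉ W := fun h => by
  rw [eGL_mulVec_of_perp ha hab (haW x hx), W.add_mem_iff_right hx, W.smul_mem_iff hxb] at h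
  exact ha0 (hW a h fun y hy => by rw [polar_comm, haW y hy])

theorem eGL_not_mem_stab {t m : ℕ} {D : Fin t → Submodule F (ι → F)}
    (hD : IsNondegenerateMDecomposition (polar Q) m D) (hm : 2 ≤ m) {i : Fin t} {a b x : ι → F}
    (ha0 : a ≠ 0) (ha : Q a = 0) (hab : polar Q a b = 0) (haW : ∀ w ∈ D i, polar Q w a = 0)
    (hx : x ∈ D i) (hxb : polar Q x b ≠ 0) : eGL Q a b ∉ decompositionStabilizer D := by
  obtain ⟨s, hs, hs0, h1⟩ := exists_mem_polar_eq_zero (Q := Q) (W := D i)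
    (by rw [hD.decomp.finrank_eq]; exact hm) b
  exact not_mem_stab_of hD.decomp hs hs0
    (eGL_mulVec_of_perp_perp (haW s hs) (by rw [polar_comm, h1])) hx
    (eGL_not_mem_of (ndon_of_nd (hD.nondegenerate i)) ha0 ha hab haW hx hxb)

/-! ### Frames -/

section frame

variable {κ : Type} [Fintype κ] {c : F} {b : κ → ι → F}

/-- `g` permutes the lines spanned by the vectors of a family. -/
def Permutes (g : GL ι F) (b : κ → ι → F) : Prop :=
  ∀ p, ∃ (p' : κ) (s : F), (g : Matrix ι ι F) *ᵥ b p = s • b p'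

theorem IsFrame.exists_dec (h : IsFrame Q c b) {n : ℕ} (hn : Fintype.card ι = n) (h2 : 2 ≤ n) :
    ∃ D : Fin n → Submodule F (ι → F), IsOrthogonalMDecomposition ⇑Q 1 D ∧
      ∀ g, Permutes g b → g ∈ decompositionStabilizer D := by
  have e : Fin n ≃ κ := (Fintype.equivFinOfCardEq (by rw [h.card, finrank_fun, hn])).symm
  refine ⟨_, by simpa using h.oFam.dec e h2 (by simp), fun g hg =>
    h.oFam.mem_stab e h2 (by simp) fun p => ?_⟩
  obtain ⟨p', s, hs⟩ := hg p
  exact ⟨p', fun x => ⟨x * s, by simp [Matrix.mulVec_smul, hs, smul_smul]⟩⟩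

theorem IsFrame.gram [DecidableEq κ] (h : IsFrame Q c b) :
    (Matrix.of fun i j => polar Q (b i) (b j)) = (2 * c) • (1 : Matrix κ κ F) := by
  ext i j
  by_cases hij : i = j
  · simp [hij, h.norm]
  · simp [hij, h.orth i j hij]

theorem IsFrame.oSub [Nonempty ι] (hQ : ND Q) (h : IsFrame Q c b) {H : Subgroup (GL ι F)}
    (hI : H ≤ isometryGroup F ⇑Q) (hH : ∀ g ∈ H, Permutes g b) (F₀ : Subfield F) :
    ∃ B, OSub Q H F₀ B := by
  classical
  obtain ⟨B, h1, h2⟩ := exists_sub_of_family hQ (by rw [h.card, finrank_fun]) b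
    (by rw [h.gram, Matrix.det_smul, Matrix.det_one, mul_one]; exact pow_ne_zero _ h.ne)
    (F₀ := F₀) (ζ := (2 * c)⁻¹) fun i j => by
      have := congrFun (congrFun h.gram i) j
      rw [Matrix.of_apply] at this
      rw [this, Matrix.smul_apply, smul_eq_mul, inv_mul_cancel_left₀ h.ne, Matrix.one_apply]
      split_ifs
      · exact one_mem _
      · exact zero_mem _
  refine ⟨B, _, inv_ne_zero h.ne, h1, fun g hg => h2 g fun j => ?_⟩
  obtain ⟨p, s, hs⟩ := hH g hg j
  have h3 := Q_mulVec (hI hg) (b j)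
  rw [hs, Q_smul, h.norm, h.norm, mul_left_eq_self₀, pow_two, mul_self_eq_one_iff] at h3
  have h4 : b p ∈ Submodule.span F₀ (Set.range b) := Submodule.subset_span ⟨p, rfl⟩
  rcases h3.resolve_right (right_ne_zero_of_mul h.ne) with rfl | rfl <;> rw [hs]
  · rwa [one_smul]
  · rw [neg_one_smul]; exact neg_mem h4

theorem IsFrame.rGL_left (h : IsFrame Q c b) {p p' : κ} (hp : p ≠ p') :
    (rGL Q (b p - b p') : Matrix ι ι F) *ᵥ b p = b p' := by
  rw [rGL, oGL_mulVec, refl_sub_apply (by rw [h.norm, h.norm])]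
  rw [Q_sub, h.norm, h.norm, h.orth p p' hp, sub_zero, ← two_mul]
  exact h.ne

theorem IsFrame.rGL_other (h : IsFrame Q c b) {p p' j : κ} (hp : j ≠ p) (hp' : j ≠ p') :
    (rGL Q (b p - b p') : Matrix ι ι F) *ᵥ b j = b j := by
  rw [rGL_mulVec, polar_sub_right, h.orth j p hp, h.orth j p' hp']; simp

theorem IsFrame.rGL_permutes (h : IsFrame Q c b) {p p' : κ} (hp : p ≠ p') :
    Permutes (rGL Q (b p - b p')) b := fun j => by
  by_cases h1 : j = p
  · exact ⟨p', 1, by rw [h1, h.rGL_left hp, one_smul]⟩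
  by_cases h2 : j = p'
  · exact ⟨p, 1, by rw [h2, ← neg_sub, rGL, refl_neg, ← rGL, h.rGL_left hp.symm, one_smul]⟩
  · exact ⟨j, 1, by rw [h.rGL_other h1 h2, one_smul]⟩

theorem IsOrthogonalMDecomposition.exists_frame {t m k : ℕ} {D : Fin t → Submodule F (ι → F)}
    (h : IsOrthogonalMDecomposition ⇑Q m D) {i : Fin t} (hi : Rigid (Q.comp (D i).subtype) k) :
    ∃ (c : F) (b : Fin k × Fin t → ι → F), IsFrame Q c b ∧ (∀ p, b p ∈ D p.2) ∧
      ∀ g ∈ decompositionStabilizer D ⊓ isometryGroup F ⇑Q, Permutes g b := by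
  obtain ⟨φ, h1, h2⟩ := IsOrthogonalMDecomposition.exists_oFam h i
  obtain ⟨c, b, hb, hb'⟩ := hi
  refine ⟨c, _, h1.frame hb, fun p => h2 p.2 ▸ ⟨_, rfl⟩, fun g hg p => ?_⟩
  obtain ⟨j, hj⟩ := exists_map_of_mem_stab hg.1 p.2
  obtain ⟨y, hy⟩ := (h2 j).ge (hj _ ((h2 p.2).le ⟨b p.1, rfl⟩))
  obtain ⟨a, s, rfl⟩ := hb' y (by rw [← h1.map_Q j, hy, Q_mulVec hg.2, h1.map_Q, hb.norm])
  exact ⟨(a, j), s, by rw [← hy, map_smul]⟩

theorem not_max_of_rigid [Finite F] (hQ : ND Q) {t m k : ℕ} {D : Fin t → Submodule F (ι → F)}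
    (h : IsOrthogonalMDecomposition ⇑Q m D) {i : Fin t} (hi : Rigid (Q.comp (D i).subtype) k)
    (hk : 2 ≤ k) (ht : 3 ≤ t) :
    ∃ K : Subgroup (GL ι F), decompositionStabilizer D ⊓ omegaGL ⇑Q < K ∧ K < omegaGL ⇑Q := by
  obtain ⟨c, b, hb, h1, h2⟩ := IsOrthogonalMDecomposition.exists_frame h hi
  have h5 : 5 ≤ Fintype.card ι := by
    rw [← finrank_fun (F := F), ← hb.card, Fintype.card_prod, Fintype.card_fin, Fintype.card_fin]
    nlinarith
  obtain ⟨D', h3, h4⟩ := hb.exists_dec rfl (by omega)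
  obtain ⟨k, rfl⟩ : ∃ n, k = n + 2 := ⟨k - 2, by omega⟩
  obtain ⟨u, hu⟩ : ∃ u : Fin 3 → Fin t, Function.Injective u := ⟨_, Fin.castLE_injective ht⟩
  have e1 : ((0, u 1) : Fin (k + 2) × Fin t) ≠ (0, u 2) := by simp [hu.eq_iff]
  have e2 : ((0, u 0) : Fin (k + 2) × Fin t) ≠ (0, u 1) := by simp [hu.eq_iff]
  have h6 : ∀ p p', p ≠ p' → Q (b p - b p') = 2 * c := fun p p' hp => by
    rw [Q_sub, hb.norm, hb.norm, hb.orth p p' hp, sub_zero, two_mul]
  refine exists_between (fun g hg => h4 g (h2 g ⟨hg.1, omegaGL_le _ hg.2⟩))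
    (omega_not_le_nd hQ h5 h3.decomp)
    (mul_mem (h4 _ (hb.rGL_permutes e1)) (h4 _ (hb.rGL_permutes e2)))
    (rGL_mul_mem hQ h5 (by rw [h6 _ _ e1]; exact hb.ne) (by rw [h6 _ _ e1, h6 _ _ e2]))
    (not_mem_stab_of h.decomp.decomp (h1 (1, u 0)) (hb.ne_zero _) ?_ (h1 (0, u 0)) fun h7 => ?_)
  · rw [Units.val_mul, ← Matrix.mulVec_mulVec, hb.rGL_other (by simp) (by simp),
      hb.rGL_other (by simp) (by simp)]
  · rw [Units.val_mul, ← Matrix.mulVec_mulVec, hb.rGL_left e2, hb.rGL_left e1] at h7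
    exact hb.ne_zero _ (Submodule.disjoint_def.1 (h.decomp.decomp.indep.pairwiseDisjoint
      (hu.ne (show (0 : Fin 3) ≠ 2 by decide))) _ h7 (h1 (0, u 2)))

end frame

/-! ### Small forms -/

section small

variable [Fintype F] {E : Type*} [AddCommGroup E] [Module F E] [FiniteDimensional F E]
  {q : QuadraticForm F E}

theorem natCast_card_eq_zero {n : ℕ} (h : Fintype.card F = n) : (n : F) = 0 :=
  h ▸ FiniteField.cast_card_eq_zero F

theorem sq_cases_three (hq : Fintype.card F = 3) (x : F) : x = 0 ∨ x ^ 2 = 1 :=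
  or_iff_not_imp_left.2 fun h => by rw [pow_two, sq_eq_one_of_card_three hq h]

theorem two_ne_zero_three (hq : Fintype.card F = 3) : (2 : F) ≠ 0 :=
  QF.two_ne_zero_of_odd_card (by rw [hq]; decide)

theorem not_isSquare_neg_one_three (hq : Fintype.card F = 3) : ¬ IsSquare (-1 : F) := by
  rw [FiniteField.isSquare_neg_one_iff, hq]; decide

theorem rigid_one (hq : ND q) (h1 : finrank F E = 1) : Rigid q 1 := by
  obtain ⟨v, hv, h2⟩ := finrank_eq_one_iff'.1 h1
  refine ⟨q v, fun _ => v, ⟨fun h => hv (hq v fun y => ?_), fun _ => rfl,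
    fun p p' hp => absurd (Subsingleton.elim _ _) hp, by simp [h1]⟩, fun w _ => ?_⟩
  · obtain ⟨c, rfl⟩ := h2 y
    rw [polar_smul_right', polar_self', h, mul_zero]
  · obtain ⟨c, rfl⟩ := h2 w
    exact ⟨0, c, rfl⟩

theorem rigid_three_three (hF : Fintype.card F = 3) (hq : ND q) (h3 : finrank F E = 3) :
    Rigid q 3 := by
  have h2 := two_ne_zero_three hF
  have h0 : (3 : F) = 0 := by exact_mod_cast natCast_card_eq_zero hF
  obtain ⟨c, b, hb⟩ : ∃ (c : F) (b : Fin 3 → E), IsFrame q c b := by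
    obtain ⟨b, -, h4, h5, h6⟩ := hq.ndon_top.exists_orth_family h2 (not_isSquare_neg_one_three hF)
      2 ⊤ (by rw [finrank_top, h3])
    have a0 := h5 0 (by decide)
    have a1 := h5 1 (by decide)
    rcases h6 with h6 | h6
    · exact ⟨1, b, by simpa using h2, fun p => by fin_cases p <;> assumption, h4, by simp [h3]⟩
    refine ⟨-1, ![b 0 + b 1, b 0 - b 1, b 2], by simpa using h2, fun p => ?_, fun p p' hp => ?_,
      by simp [h3]⟩
    · fin_cases p
      · simp only [Fin.zero_eta, Matrix.cons_val_zero, Q_add, a0, a1, h4 0 1 (by decide)]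
        linear_combination h0
      · simp only [Fin.mk_one, Matrix.cons_val_one, Matrix.cons_val_zero, Q_sub, a0, a1,
          h4 0 1 (by decide)]
        linear_combination h0
      · exact h6
    · fin_cases p <;> fin_cases p' <;>
        simp [polar_add_left, polar_add_right, polar_sub_left, polar_sub_right, a0, a1, h4] at hp ⊢
  refine hb.rigid fun x hx => ?_
  rw [Fin.sum_univ_three] at hx
  have h1 : (1 : F) ≠ 0 := one_ne_zero
  rcases sq_cases_three hF (x 0) with a | a <;> rcases sq_cases_three hF (x 1) with b | b <;>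
    rcases sq_cases_three hF (x 2) with c | c <;> rw [a, b, c] at hx
  · exact absurd (by linear_combination -hx) h1
  · exact ⟨2, fun j hj => by fin_cases j <;> simp_all⟩
  · exact ⟨1, fun j hj => by fin_cases j <;> simp_all⟩
  · exact absurd (by linear_combination hx) h1
  · exact ⟨0, fun j hj => by fin_cases j <;> simp_all⟩
  · exact absurd (by linear_combination hx) h1
  · exact absurd (by linear_combination hx) h1
  · exact absurd (by linear_combination h0 - hx) h1

theorem rigid_three_two (hF : Fintype.card F = 3) (hq : ND q) (h3 : finrank F E = 2)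
    (hp : ¬ QF.IsPlus q) : Rigid q 2 := by
  have h2 := two_ne_zero_three hF
  obtain ⟨b, -, h4, h5, h6⟩ := hq.ndon_top.exists_orth_family h2 (not_isSquare_neg_one_three hF)
    1 ⊤ (by rw [finrank_top, h3])
  have a0 := h5 0 (by decide)
  rcases h6 with h6 | h6
  · refine IsFrame.rigid (c := 1) (b := b) ⟨by simpa using h2, fun p => by fin_cases p <;> assumption,
      h4, by simp [h3]⟩ fun x hx => ?_
    rw [Fin.sum_univ_two] at hx
    rcases sq_cases_three hF (x 0) with a | a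
    · exact ⟨1, fun j hj => by fin_cases j <;> simp_all⟩
    · exact ⟨0, fun j hj => by fin_cases j <;> simp_all⟩
  · have a1 : q (b 1) = -1 := h6
    have h7 : b 0 + b 1 ≠ 0 := fun h => h2 (by
      have := congrArg (polar q (b 0)) h
      rwa [polar_add_right, polar_self', a0, h4 0 1 (by decide), polar_zero_right, add_zero,
        mul_one] at this)
    refine absurd ⟨Submodule.span F {b 0 + b 1}, fun u hu => ?_, by
      rw [finrank_span_singleton h7, h3]⟩ hp
    obtain ⟨c, rfl⟩ := Submodule.mem_span_singleton.1 hu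
    rw [Q_smul, Q_add, a0, a1, h4 0 1 (by decide)]; ring

omit [Fintype F] in
theorem exists_hyp_plane (hq : ND q) (h2 : finrank F E = 2) (hp : QF.IsPlus q) :
    ∃ e f, IsHyp q e f ∧ ∀ v, ∃ x y : F, v = x • e + y • f ∧ q v = x * y := by
  obtain ⟨U, h3, h4⟩ := hp
  obtain ⟨e, he, he0⟩ := (Submodule.ne_bot_iff U).1 (by rintro rfl; simp [h2] at h4)
  obtain ⟨f, hf⟩ := hq.exists_isHyp he0 (h3 e he)
  have h5 : perp2 q e f = ⊥ := Submodule.finrank_eq_zero.1 (by have := hf.finrank_perp2; omega)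
  refine ⟨e, f, hf, fun v => ?_⟩
  have h6 := hf.hproj_mem v
  rw [h5, Submodule.mem_bot, hproj, sub_sub, sub_eq_zero] at h6
  refine ⟨_, _, h6, ?_⟩
  conv_lhs => rw [h6]
  rw [QF.map_add_smul, hf.left, hf.right, hf.pol]; ring

theorem rigid_five_two (hF : Fintype.card F = 5) (hq : ND q) (h3 : finrank F E = 2)
    (hp : QF.IsPlus q) : Rigid q 2 := by
  have h2 : (2 : F) ≠ 0 := QF.two_ne_zero_of_odd_card (by rw [hF]; decide)
  have h0 : (5 : F) = 0 := by exact_mod_cast natCast_card_eq_zero hF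
  obtain ⟨e, f, hf, -⟩ := exists_hyp_plane hq h3 hp
  refine IsFrame.rigid (c := 1) (b := ![e + f, (2 : F) • e + (3 : F) • f])
    ⟨by simpa using h2, fun p => ?_, fun p p' hp => ?_, by simp [h3]⟩ fun x hx => ?_
  · fin_cases p
    · simp [Q_add, hf.left, hf.right, hf.pol]
    · simp only [Fin.mk_one, Matrix.cons_val_one, Matrix.cons_val_zero, QF.map_add_smul, hf.left,
        hf.right, hf.pol]
      linear_combination h0
  · fin_cases p <;> fin_cases p' <;>
      simp [polar_add_left, polar_add_right, hf.left, hf.right, hf.pol, hf.pol'] at hp ⊢ <;>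
      linear_combination h0
  · rw [Fin.sum_univ_two] at hx
    by_cases a : x 0 = 0
    · exact ⟨1, fun j hj => by fin_cases j <;> simp_all⟩
    refine ⟨0, fun j hj => ?_⟩
    obtain rfl : j = 1 := by fin_cases j <;> simp_all
    by_contra b
    have a' := FiniteField.pow_card_sub_one_eq_one _ a
    have b' := FiniteField.pow_card_sub_one_eq_one _ b
    rw [hF] at a' b'
    have h4 : x 1 ^ 2 = 1 - x 0 ^ 2 := by linear_combination hx
    have h5 : 2 * x 0 ^ 2 = 1 := by
      have : (x 1 ^ 2) ^ 2 = 1 := by rw [← pow_mul]; exact b'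
      rw [h4] at this
      linear_combination a' - this
    have h6 : (3 : F) = 0 := by
      have : (2 * x 0 ^ 2) ^ 2 = 1 := by rw [h5]; ring
      linear_combination this - 4 * a'
    exact h2 (by linear_combination h0 - h6)

theorem eq_of_mul_eq_one_le_three (hF : Fintype.card F ≤ 3) {x y : F} (h : x * y = 1) : y = x := by
  have h0 := left_ne_zero_of_mul_eq_one h
  have h1 := FiniteField.pow_card_sub_one_eq_one x h0
  have h2 : 1 < Fintype.card F := Fintype.one_lt_card
  have h3 : x * x = 1 := by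
    obtain h | h : Fintype.card F - 1 = 1 ∨ Fintype.card F - 1 = 2 := by omega
    · rw [h, pow_one] at h1; rw [h1, one_mul]
    · rwa [h, pow_two] at h1
  exact mul_left_cancel₀ h0 (h.trans h3.symm)

theorem six_eq_zero (hF : Fintype.card F ≤ 3) : (6 : F) = 0 := by
  have h2 : 1 < Fintype.card F := Fintype.one_lt_card
  obtain h | h : Fintype.card F = 2 ∨ Fintype.card F = 3 := by omega
  · have : (2 : F) = 0 := by exact_mod_cast natCast_card_eq_zero h
    linear_combination 3 * this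
  · have : (3 : F) = 0 := by exact_mod_cast natCast_card_eq_zero h
    linear_combination 2 * this

theorem exists_hyp_plane_le_three (hF : Fintype.card F ≤ 3) (hq : ND q) (h2 : finrank F E = 2)
    (hp : QF.IsPlus q) : ∃ e f, IsHyp q e f ∧ ∀ v, q v = 1 → ∃ s : F, v = s • (e + f) := by
  obtain ⟨e, f, h, h1⟩ := exists_hyp_plane hq h2 hp
  refine ⟨e, f, h, fun v hv => ?_⟩
  obtain ⟨x, y, rfl, h3⟩ := h1 v
  exact ⟨x, by rw [eq_of_mul_eq_one_le_three hF (h3.symm.trans hv), smul_add]⟩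

end small

end Cfsg.Agent.Class.Asch
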