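import Cfsg.Agent.Class.Asch.OAsch
import Cfsg.Agent.Class.Orth.TypeCount

/-! Field subalgebras normalised by a group of isometries of a quadratic form. -/

set_option autoImplicit false
set_option linter.unusedSectionVars false

namespace Cfsg.Agent.Class.Asch

open Cfsg.Geo Cfsg.Agent.Class.Orth QuadraticMap Module
open scoped MatrixGroups Matrix Kronecker commutatorElement

variable {ι : Type} [Fintype ι] [DecidableEq ι] {F : Type*} [Field F]
  {Q : QuadraticForm F (ι → F)}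

local notation "𝐚" => adj (RingEquiv.refl F) (polar Q)

theorem two_dim_of_field [Nonempty ι] {K : Subalgebra F (Matrix ι ι F)} {r : ℕ}
    (hK : IsFieldSubalgebra r K) (hι : Fintype.card ι = 2 * r) :
    (∀ a b : ι → F, a ≠ 0 → (∀ k ∈ K, k *ᵥ a ≠ b) → ∀ v, ∃ k ∈ K, ∃ l ∈ K,
      v = k *ᵥ a + l *ᵥ b) ∧
    ∃ x y : Matrix ι ι F, (∀ k ∈ K, x * k = k * x) ∧ (∀ k ∈ K, y * k = k * y) ∧ x * y ≠ y * x := by
  letI := (IsFieldSubalgebra.isField' hK).toField
  letI : Module K (ι → F) :=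
    { smul := fun k v => (k : Matrix ι ι F) *ᵥ v
      one_smul := fun v => Matrix.one_mulVec v
      mul_smul := fun a b v => (Matrix.mulVec_mulVec v _ _).symm
      smul_zero := fun a => Matrix.mulVec_zero _
      smul_add := fun a v w => Matrix.mulVec_add _ _ _
      add_smul := fun a b v => Matrix.add_mulVec _ _ _
      zero_smul := fun v => Matrix.zero_mulVec v }
  haveI : IsScalarTower F K (ι → F) := ⟨fun c k v => Matrix.smul_mulVec c (k : Matrix ι ι F) v⟩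
  have h1 := Module.finrank_mul_finrank F K (ι → F)
  rw [hK.finrank_eq, finrank_fun, hι, mul_comm 2] at h1
  have h2 : finrank K (ι → F) = 2 := Nat.eq_of_mul_eq_mul_left
    (Nat.pos_of_ne_zero fun h => Fintype.card_ne_zero (α := ι) (by rw [hι, h])) h1
  haveI : Module.Finite K (ι → F) := Module.finite_of_finrank_pos (by omega)
  refine ⟨fun a b ha hb v => ?_, ?_⟩
  · have h3 : LinearIndependent K ![a, b] :=
      (LinearIndependent.pair_iff' ha).2 fun k => hb k k.2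
    let c := basisOfLinearIndependentOfCardEqFinrank h3 (by simp [h2])
    have h4 := c.sum_repr v
    rw [Fin.sum_univ_two] at h4
    simp only [c, coe_basisOfLinearIndependentOfCardEqFinrank, Matrix.cons_val_zero,
      Matrix.cons_val_one] at h4
    exact ⟨_, (c.repr v 0).2, _, (c.repr v 1).2, h4.symm⟩
  · let c := Module.finBasisOfFinrankEq K (ι → F) h2
    let m : ((ι → F) →ₗ[K] (ι → F)) → Matrix ι ι F := fun φ =>
      LinearMap.toMatrix' (φ.restrictScalars F)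
    have hm : ∀ φ v, m φ *ᵥ v = φ v := fun φ v => LinearMap.toMatrix'_mulVec _ _
    have hc : ∀ φ, ∀ k ∈ K, m φ * k = k * m φ := fun φ k hk => ext_mulVec fun v => by
      rw [← Matrix.mulVec_mulVec, ← Matrix.mulVec_mulVec, hm, hm]
      exact φ.map_smul (⟨k, hk⟩ : K) v
    refine ⟨m (c.constr K ![c 1, 0]), m (c.constr K ![0, c 0]), hc _, hc _, fun h => ?_⟩
    have h3 := congrArg (· *ᵥ c 0) h
    simp only [← Matrix.mulVec_mulVec, hm, Basis.constr_basis, Matrix.cons_val_zero, map_zero,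
      Matrix.cons_val_one] at h3
    exact c.ne_zero 0 h3.symm

theorem Q_eq_of_adj (hQ : ND Q) (h2 : (2 : F) ≠ 0) {k : Matrix ι ι F} {c : F}
    (h : 𝐚 k * k = c • 1) (v : ι → F) : Q (k *ᵥ v) = c * Q v := by
  have h1 := (fcq hQ).sim_of_adj h v v
  rw [polar_self', polar_self', RingEquiv.refl_apply] at h1
  exact mul_left_cancel₀ h2 (by rw [h1]; ring)

theorem mem_isometryGroup_of_isoG (h2 : (2 : F) ≠ 0) {g : GL ι F} (h : g ∈ isoG (polar Q)) :
    g ∈ isometryGroup F ⇑Q := mem_isometryGroup.2 fun v => mul_left_cancel₀ h2 (by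
  rw [← polar_self', ← polar_self', mem_isoG.1 h])

variable [Fintype F]

/-- (H1) -/
theorem AdjField.sim_of_not_selfadj (hQ : ND Q) {H : Subgroup (GL ι F)}
    (hI : H ≤ isometryGroup F ⇑Q) (hH : Irr H) {K : Subalgebra F (Matrix ι ι F)}
    (h : AdjField (RingEquiv.refl F) (polar Q) H 2 K) (hs : ¬ IsSelfAdjointFor (polar Q) K) :
    ∀ k ∈ K, ∃ c : F, ∀ v, Q (k *ᵥ v) = c * Q v := by
  intro k hk
  have hc := fcq hQ
  cases isEmpty_or_nonempty ι
  · exact ⟨1, fun v => by rw [one_mul, Subsingleton.elim (k *ᵥ v) v]⟩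
  rw [hc.isSelfAdjointFor_iff] at hs
  obtain ⟨c, h1⟩ : ∃ c : F, 𝐚 k * k = c • 1 := by
    by_contra h1
    refine hs fun x hx => ?_
    obtain ⟨a, b, rfl⟩ := IsFieldSubalgebra.exists_eq_of_two h.field
      (K.mul_mem (h.adj_mem k hk) hk) h1 hx
    rw [hc.adj_add, hc.adj_smul, hc.adj_smul, hc.adj_one, hc.adj_mul, hc.adj_adj]
    rfl
  refine ⟨c, fun v => ?_⟩
  by_cases h2 : (2 : F) = 0
  swap
  · exact Q_eq_of_adj hQ h2 h1 v
  obtain ⟨ω, hω, h3⟩ := exists_omega_mem h2 hc h.field h.adj_mem hs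
  have h4 := eq_qOf hQ h2 (Nat.le_of_dvd Fintype.card_pos (IsFieldSubalgebra.dvd_card h.field))
    hI hH h3 fun g hg => ⟨ω, h3, rfl, h.field.comm _ ((h.le hg ω).1 hω) _ hω⟩
  rw [h4, h4, Matrix.mulVec_mulVec, h.field.comm _ hω _ hk, ← Matrix.mulVec_mulVec,
    hc.sim_of_adj h1, RingEquiv.refl_apply]

/-- (H2) -/
theorem two_mul_dvd_of_selfadj_two (hQ : ND Q) (h2 : (2 : F) = 0)
    {K : Subalgebra F (Matrix ι ι F)} {r : ℕ} (hK : IsFieldSubalgebra r K)
    (hs : IsSelfAdjointFor (polar Q) K) : 2 * r ∣ Fintype.card ι := by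
  cases isEmpty_or_nonempty ι
  · rw [Fintype.card_eq_zero]; exact dvd_zero _
  have hf := polar_symplectic (ndq hQ) h2
  exact two_mul_dvd_of_selfadj hf hK hs
    (alt_of_selfadj hf hK ((fcq hQ).isSelfAdjointFor_iff.1 hs))

theorem card_singular_dvd [Nonempty ι] {K : Subalgebra F (Matrix ι ι F)} {r : ℕ}
    (hK : IsFieldSubalgebra r K) (hs : ∀ k ∈ K, ∀ v, Q v = 0 → Q (k *ᵥ v) = 0) :
    Nat.card F ^ r - 1 ∣ Nat.card {x // Q x = 0} - 1 := by
  letI := (IsFieldSubalgebra.isField' hK).toField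
  have h0 : ∀ (k : Kˣ) (v : ι → F), ((k⁻¹ : Kˣ) : Matrix ι ι F) *ᵥ ((k : K) : Matrix ι ι F) *ᵥ v
      = v := fun k v => by
    rw [Matrix.mulVec_mulVec, ← MulMemClass.coe_mul, k.inv_mul, OneMemClass.coe_one,
      Matrix.one_mulVec]
  letI : MulAction Kˣ {x // x ≠ 0 ∧ Q x = 0} :=
    { smul := fun k v => ⟨((k : K) : Matrix ι ι F) *ᵥ v.1, fun h => v.2.1 (by
        rw [← h0 k v.1, h, Matrix.mulVec_zero]), hs _ (k : K).2 _ v.2.2⟩
      one_smul := fun v => Subtype.ext (Matrix.one_mulVec _)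
      mul_smul := fun a b v => Subtype.ext (Matrix.mulVec_mulVec _ _ _).symm }
  have h1 := Nat.card_congr (MulAction.selfEquivOrbitsQuotientProd (G := Kˣ)
    (X := {x // x ≠ 0 ∧ Q x = 0}) fun v => eq_bot_iff.2 fun k hk => by
      by_contra h
      have h2 : (k : K) - 1 ≠ 0 := fun h2 => h (Units.ext (sub_eq_zero.1 h2))
      have h3 := h0 (Units.mk0 _ h2) v.1
      have h4 : ((k : K) : Matrix ι ι F) *ᵥ v.1 = v.1 := congrArg Subtype.val hk
      rw [Units.val_mk0, AddSubgroupClass.coe_sub, Matrix.sub_mulVec, h4, OneMemClass.coe_one,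
        Matrix.one_mulVec, sub_self, Matrix.mulVec_zero] at h3
      exact v.2.1 h3.symm)
  rw [← card_singular_ne_zero, h1, Nat.card_prod, Nat.card_units,
    Module.natCard_eq_pow_finrank (K := F) (V := K), hK.finrank_eq]
  exact dvd_mul_left _ _

/-- (H3) -/
theorem isPlus_iff_even_of_field (hQ : ND Q) {K : Subalgebra F (Matrix ι ι F)}
    (hK : IsFieldSubalgebra 2 K) (hs : ∀ k ∈ K, ∃ c : F, ∀ v, Q (k *ᵥ v) = c * Q v) {m : ℕ}
    (hm : Fintype.card ι = 2 * m) : IsPlusTypeOn ⇑Q ⊤ ↔ Even m := by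
  rw [isPlusTypeOn_top_iff]
  cases isEmpty_or_nonempty ι
  · rw [Fintype.card_eq_zero] at hm
    exact iff_of_true (isPlus_of_finrank_zero (by rw [finrank_fun, Fintype.card_eq_zero]))
      ⟨0, by omega⟩
  obtain ⟨t, ht⟩ := card_singular_dvd (Q := Q) hK fun k hk v hv => by
    obtain ⟨c, hc⟩ := hs k hk
    rw [hc, hv, mul_zero]
  have hq : 2 ≤ Nat.card F := Finite.one_lt_card
  have h0 : 1 ≤ Nat.card {x // Q x = 0} := by
    haveI : Nonempty {x // Q x = 0} := ⟨⟨0, map_zero Q⟩⟩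
    exact Nat.card_pos
  zify [h0, Nat.one_le_pow 2 _ (by omega : 0 < Nat.card F)] at ht hq
  set q : ℤ := Nat.cast (Nat.card F)
  have key : ¬ q ^ 2 - 1 ∣ 2 * (q - 1) := fun h => by
    have := Int.le_of_dvd (by omega) h
    nlinarith
  have h1 : ∀ j, q ^ 2 - 1 ∣ q ^ (2 * j) - 1 := fun j => by
    simpa [pow_mul] using sub_dvd_pow_sub_pow (q ^ 2) 1 j
  rw [← finrank_fun (F := F)] at hm
  obtain ⟨a, ha⟩ := h1 m
  obtain ⟨j, rfl | rfl⟩ := Nat.even_or_odd' m <;> obtain ⟨b, hb⟩ := h1 j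
  · refine iff_of_true (by_contra fun h => key ⟨a - b * (q - 1) - q * t, ?_⟩) (even_two_mul j)
    linear_combination hQ.card_singular_of_not_isPlus h hm + ha - (q - 1) * hb - q * ht
  · refine iff_of_false (fun h => key ⟨a + b * q * (q - 1) - q * t + 1, ?_⟩) (by simp)
    have h2 := hQ.card_singular_of_isPlus h hm
    rw [pow_succ q (2 * j)] at h2
    linear_combination h2 + ha + q * (q - 1) * hb - q * ht

theorem isPlus_of_sq_eq_neg_one (hQ : ND Q) (h2 : (2 : F) ≠ 0) {j : Matrix ι ι F}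
    (h1 : j * j = -1) (hj : ∀ v, Q (j *ᵥ v) = Q v) (h4 : 4 ∣ Fintype.card ι) :
    IsPlusTypeOn ⇑Q ⊤ := by
  have h3 : ∀ v, polar Q v (j *ᵥ v) = 0 := fun v => by
    have h5 := hj (v + j *ᵥ v)
    rw [Matrix.mulVec_add, Matrix.mulVec_mulVec, h1, Matrix.neg_mulVec, Matrix.one_mulVec,
      ← sub_eq_add_neg, Q_sub, Q_add, polar_comm _ (j *ᵥ v)] at h5
    exact mul_left_cancel₀ h2 (by linear_combination -h5)
  have h5 : ∀ (a b : F) v, Q ((a • 1 + b • j) *ᵥ v) = (a ^ 2 + b ^ 2) * Q v := fun a b v => by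
    rw [Matrix.add_mulVec, Matrix.smul_mulVec, Matrix.smul_mulVec, Matrix.one_mulVec, Q_add,
      Q_smul, Q_smul, hj, polar_smul_left', polar_smul_right', h3]
    ring
  obtain ⟨m, hm⟩ := h4
  by_cases h : ∃ i : F, i * i = -1
  · obtain ⟨i, hi⟩ := h
    let N := Matrix.toLin' (i • 1 + (1 : F) • j)
    have h6 := LinearMap.finrank_range_add_finrank_ker N
    have h7 := QF.two_mul_finrank_le ((nd_iff Q).1 hQ) (LinearMap.range N) (by
      rintro _ ⟨u, rfl⟩
      exact (h5 i 1 u).trans (by rw [pow_two, hi]; ring))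
    have h8 : ∀ u ∈ LinearMap.ker N, Q u = 0 := fun u hu => by
      have h9 : (i • 1 + (1 : F) • j) *ᵥ u = 0 := hu
      rw [Matrix.add_mulVec, Matrix.smul_mulVec, one_smul, Matrix.one_mulVec,
        add_eq_zero_iff_neg_eq] at h9
      have h10 := hj u
      rw [← h9, QuadraticMap.map_neg, Q_smul, pow_two, hi] at h10
      exact mul_left_cancel₀ h2 (by linear_combination -h10)
    have h9 := QF.two_mul_finrank_le ((nd_iff Q).1 hQ) _ h8
    exact ⟨_, le_top, h8, by rw [finrank_top]; omega⟩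
  · cases isEmpty_or_nonempty ι
    · exact isPlusTypeOn_top_iff.2
        (isPlus_of_finrank_zero (by rw [finrank_fun, Fintype.card_eq_zero]))
    have h6 : j * j = (0 : F) • j - (1 : F) • 1 := by simp [h1]
    refine (isPlus_iff_even_of_field hQ (isFieldSubalgebra_quadAlg (hw := h6) fun x hx =>
      h ⟨x, by linear_combination hx⟩) ?_ (m := 2 * m) (by omega)).2 (even_two_mul m)
    rintro _ ⟨a, b, rfl⟩
    exact ⟨_, h5 a b⟩

/-- (H5) -/
theorem ExtraData.isPlus (hQ : ND Q) {H R : Subgroup (GL ι F)} (hI : H ≤ isometryGroup F ⇑Q)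
    {m : ℕ} (hR : ExtraData H 2 m R) (hZ : Nat.card (Subgroup.center R) = 2)
    (h4 : 4 ∣ Fintype.card ι) : IsPlusTypeOn ⇑Q ⊤ := by
  have h0 : 2 ≤ Fintype.card ι := by
    rw [hR.card_eq]; exact Nat.le_self_pow (by have := hR.m_pos; omega) 2
  have := nonempty_of_two_le h0
  obtain ⟨c, hc, -, h1⟩ := hR.exists_root
  rw [hZ] at hc
  have h2 : ∀ x ∈ R, x ∈ scalars ι F → x * x = 1 := fun x hx hx' => by
    obtain ⟨k, rfl⟩ := h1 x hx hx'
    rw [← pow_two, scal_pow, ← pow_mul, mul_comm, pow_mul, ← hc, pow_orderOf_eq_one, one_pow, scal_one]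
  obtain ⟨j, hj, h3⟩ : ∃ j ∈ R, j * j ≠ 1 := by
    by_contra h
    push Not at h
    refine hR.spans.not_comm h0 fun x hx y hy => ?_
    rw [← inv_eq_of_mul_eq_one_left (h _ (R.mul_mem hx hy)), mul_inv_rev,
      inv_eq_of_mul_eq_one_left (h _ hx), inv_eq_of_mul_eq_one_left (h _ hy)]
  have h5 : j * j ∈ scalars ι F := hR.spans.mem_scalars fun g hg => by
    have h6 := Subgroup.commutator_mem_commutator hj hg
    have h7 := hR.comm_le h6
    have h8 := h2 _ (Subgroup.commutator_le.2 (fun x hx y hy => R.mul_mem (R.mul_mem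
      (R.mul_mem hx hy) (R.inv_mem hx)) (R.inv_mem hy)) h6) h7
    calc j * j * g = j * (⁅j, g⁆ * (g * j)) := by group
      _ = ⁅j, g⁆ * (j * g) * j := by rw [← mul_assoc, ← scalars_comm' h7]; group
      _ = ⁅j, g⁆ * ⁅j, g⁆ * (g * (j * j)) := by group
      _ = g * (j * j) := by rw [h8, one_mul]
  obtain ⟨d, hd⟩ := h5
  have h6 := h2 _ (R.mul_mem hj hj) ⟨d, hd⟩
  change scal d = _ at hd
  rw [← hd, ← pow_two, scal_pow, ← scal_one] at h6
  obtain rfl | rfl : d = 1 ∨ d = -1 := by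
    have h7 : (d : F) ^ 2 = 1 := by rw [← Units.val_pow_eq_pow_val, scal_injective h6]; rfl
    exact (sq_eq_one_iff.1 h7).imp Units.ext Units.ext
  · exact absurd (by rw [← hd, scal_one]) h3
  refine isPlus_of_sq_eq_neg_one hQ hR.ne_char (j := j) ?_ (Q_mulVec (hI (hR.norm.1 hj))) h4
  rw [← Units.val_mul, ← hd, coe_scal]
  simp

section two_dim

variable {K : Subalgebra F (Matrix ι ι F)} {r : ℕ}

omit [Fintype F] in
theorem polar_skew {z : Matrix ι ι F} (hz : ∀ v, polar Q (z *ᵥ v) v = 0) (u v : ι → F) :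
    polar Q (z *ᵥ u) v = -polar Q (z *ᵥ v) u := by
  have := hz (u + v)
  rw [Matrix.mulVec_add, polar_add_left, polar_add_right, polar_add_right, hz, hz] at this
  linear_combination this

theorem polar_mul_alt [Nonempty ι] (hK : IsFieldSubalgebra r K) (hr : r ≠ 0)
    (hs : IsSelfAdjointFor (polar Q) K) {z : Matrix ι ι F} (hc : ∀ k ∈ K, z * k = k * z)
    (hz : ∀ v, polar Q (z *ᵥ v) v = 0) {k : Matrix ι ι F} (hk : k ∈ K) (v : ι → F) :
    polar Q (k *ᵥ z *ᵥ v) v = 0 := by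
  by_cases h2 : (2 : F) = 0
  · obtain ⟨s, h3⟩ : Even (Fintype.card F ^ r) := Nat.even_pow.2
      ⟨Nat.not_odd_iff_even.1 fun h => two_ne_zero_of_odd h h2, hr⟩
    have h4 := IsFieldSubalgebra.pow_card' hK hk
    rw [← h4, h3, pow_add, ← Matrix.mulVec_mulVec, hs _ (K.pow_mem hk s), Matrix.mulVec_mulVec,
      ← hc _ (K.pow_mem hk s), ← Matrix.mulVec_mulVec, hz]
  · have h3 := hs k hk (z *ᵥ v) v
    rw [polar_skew hz, Matrix.mulVec_mulVec v z, hc k hk, ← Matrix.mulVec_mulVec] at h3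
    exact mul_left_cancel₀ h2 (by linear_combination h3)

theorem eq_zero_of_alt [Nonempty ι] (hQ : ND Q) (hK : IsFieldSubalgebra r K)
    (hι : Fintype.card ι = 2 * r) (hs : IsSelfAdjointFor (polar Q) K) {z : Matrix ι ι F}
    (hc : ∀ k ∈ K, z * k = k * z) (hz : ∀ v, polar Q (z *ᵥ v) v = 0) {v : ι → F} (hv : v ≠ 0)
    (h : z *ᵥ v = 0) : z = 0 := ext_mulVec fun u => by
  have h1 : ∀ k ∈ K, z *ᵥ k *ᵥ v = 0 := fun k hk => by
    rw [Matrix.mulVec_mulVec, hc k hk, ← Matrix.mulVec_mulVec, h, Matrix.mulVec_zero]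
  rw [Matrix.zero_mulVec]
  by_cases h2 : ∃ k ∈ K, k *ᵥ v = u
  · obtain ⟨k, hk, rfl⟩ := h2
    exact h1 k hk
  push Not at h2
  refine hQ _ fun w => ?_
  obtain ⟨k, hk, l, hl, rfl⟩ := (two_dim_of_field hK hι).1 v u hv h2 w
  rw [polar_add_right, polar_skew hz, h1 k hk, polar_zero_left, ← hs l hl,
    polar_mul_alt hK (fun h => Fintype.card_ne_zero (α := ι) (by rw [hι, h])) hs hc hz hl,
    neg_zero, add_zero]

theorem exists_eq_mul_of_alt [Nonempty ι] (hQ : ND Q) (hK : IsFieldSubalgebra r K)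
    (hι : Fintype.card ι = 2 * r) (hs : IsSelfAdjointFor (polar Q) K) {x y : Matrix ι ι F}
    (h0 : x ≠ 0) (hx : ∀ k ∈ K, x * k = k * x) (hx' : ∀ v, polar Q (x *ᵥ v) v = 0)
    (hy : ∀ k ∈ K, y * k = k * y) (hy' : ∀ v, polar Q (y *ᵥ v) v = 0) : ∃ k ∈ K, y = k * x := by
  have hr : r ≠ 0 := fun h => Fintype.card_ne_zero (α := ι) (by rw [hι, h])
  obtain ⟨v, hv⟩ := exists_vec_ne_zero (ι := ι) (F := F)
  by_cases h : ∃ k ∈ K, k *ᵥ x *ᵥ v = y *ᵥ v
  · obtain ⟨k, hk, h⟩ := h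
    refine ⟨k, hk, sub_eq_zero.1 (eq_zero_of_alt hQ hK hι hs (fun l hl => ?_) (fun w => ?_) hv ?_)⟩
    · rw [sub_mul, mul_sub, hy l hl, mul_assoc, hx l hl, ← mul_assoc, hK.comm k hk l hl, mul_assoc]
    · rw [Matrix.sub_mulVec, polar_sub_left, hy', ← Matrix.mulVec_mulVec,
        polar_mul_alt hK hr hs hx hx' hk, sub_zero]
    · rw [Matrix.sub_mulVec, ← Matrix.mulVec_mulVec, h, sub_self]
  push Not at h
  refine absurd (hQ v fun w => ?_) hv
  obtain ⟨k, hk, l, hl, rfl⟩ := (two_dim_of_field hK hι).1 _ _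
    (fun h1 => h0 (eq_zero_of_alt hQ hK hι hs hx hx' hv h1)) h w
  rw [polar_comm, polar_add_left, polar_mul_alt hK hr hs hx hx' hk,
    polar_mul_alt hK hr hs hy hy' hl, add_zero]

omit [Fintype F] in
theorem add_adj_eq_one (hQ : ND Q) {ω : Matrix ι ι F} (h : ∀ v, polar Q (ω *ᵥ v) v = Q v) :
    ω + 𝐚 ω = 1 := ext_mulVec fun u => sub_eq_zero.1 <| hQ _ fun v => by
  have h1 := h (u + v)
  rw [Matrix.mulVec_add, polar_add_left, polar_add_right, polar_add_right, h, h, Q_add,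
    (fcq hQ).adj_spec ω v u, polar_comm _ v] at h1
  rw [polar_sub_left, Matrix.add_mulVec, polar_add_left, Matrix.one_mulVec]
  linear_combination h1

omit [Fintype F] in
theorem exists_omega_Q (hQ : ND Q) : ∃ ω : Matrix ι ι F, ∀ v, polar Q (ω *ᵥ v) v = Q v := by
  obtain ⟨B, hB⟩ := LinearMap.BilinMap.toQuadraticMap_surjective Q
  refine ⟨LinearMap.toMatrix'
    ((LinearMap.BilinForm.toDual (polarBilin Q) ((nd_iff Q).1 hQ)).symm.toLinearMap ∘ₗ B),
    fun v => ?_⟩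
  rw [LinearMap.toMatrix'_mulVec, ← polarBilin_apply_apply, LinearMap.comp_apply,
    LinearEquiv.coe_coe, LinearMap.BilinForm.apply_toDual_symm_apply, ← hB]
  rfl

theorem exists_omega_comm [Nonempty ι] (hQ : ND Q) (h2 : (2 : F) = 0) (hK : IsFieldSubalgebra r K)
    (hs : IsSelfAdjointFor (polar Q) K) :
    ∃ ω : Matrix ι ι F, (∀ k ∈ K, ω * k = k * ω) ∧ ∀ v, polar Q (ω *ᵥ v) v = Q v := by
  classical
  letI := (IsFieldSubalgebra.isField' hK).toField
  haveI := Fintype.ofFinite Kˣ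
  obtain ⟨ω, hω⟩ := exists_omega_Q hQ
  let c : Kˣ →* Matrix ι ι F := K.val.toMonoidHom.comp (Units.coeHom K)
  have hc : ∀ k, c k ∈ K := fun k => (k : K).2
  refine ⟨∑ k, c k * ω * c k⁻¹, fun l hl => ?_, fun v => ?_⟩
  · by_cases h0 : l = 0
    · rw [h0, mul_zero, zero_mul]
    obtain ⟨u, rfl⟩ : ∃ u, c u = l :=
      ⟨Units.mk0 (⟨l, hl⟩ : K) fun h => h0 (congrArg Subtype.val h), rfl⟩
    rw [Finset.sum_mul, Finset.mul_sum]
    refine (Fintype.sum_equiv (Equiv.mulLeft u) _ _ fun k => ?_).symm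
    rw [Equiv.coe_mulLeft, mul_assoc _ (c _⁻¹), ← map_mul, mul_inv_rev, inv_mul_cancel_right,
      map_mul, mul_assoc, mul_assoc, mul_assoc]
  · have h1 : ∀ k, polar Q ((c k * ω * c k⁻¹) *ᵥ v) v = polar Q (ω *ᵥ c k⁻¹ *ᵥ v) (c k *ᵥ v) :=
      fun k => by rw [← hs _ (hc k), Matrix.mulVec_mulVec, Matrix.mulVec_mulVec]
    rw [Matrix.sum_mulVec, ← polarBilin_apply_apply, map_sum, LinearMap.sum_apply,
      ← Finset.add_sum_erase _ _ (Finset.mem_univ 1), polarBilin_apply_apply, inv_one, map_one,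
      one_mul, mul_one, hω, add_eq_left]
    refine Finset.sum_involution (fun k _ => k⁻¹) (fun k _ => ?_) (fun k hk _ h => ?_)
      (fun k hk => by simpa using hk) fun k _ => inv_inv k
    · rw [polarBilin_apply_apply, polarBilin_apply_apply, h1, h1, inv_inv,
        (fcq hQ).adj_spec ω (c k *ᵥ v), polar_comm _ (c k *ᵥ v), ← polar_add_left,
        ← Matrix.add_mulVec, add_adj_eq_one hQ hω, Matrix.one_mulVec, ← hs _ (hc k),
        Matrix.mulVec_mulVec, ← map_mul, mul_inv_cancel, map_one, Matrix.one_mulVec, polar_self',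
        h2, zero_mul]
    · refine Finset.ne_of_mem_erase hk (Units.ext ?_)
      have h3 : (k : K) * k = 1 := by rw [← Units.val_mul]; nth_rw 2 [← h]; rw [mul_inv_cancel]; rfl
      refine (mul_self_eq_one_iff.1 h3).elim id fun h4 => h4.trans ?_
      rw [neg_eq_iff_add_eq_zero, Units.val_one, ← two_smul F, h2, zero_smul]

/-- (H4) -/
theorem AdjField.cases_two_mul (hQ : ND Q) {H : Subgroup (GL ι F)} (hI : H ≤ isometryGroup F ⇑Q)
    (hH : Irr H) (h : AdjField (RingEquiv.refl F) (polar Q) H r K) (hr : Odd r)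
    (hι : Fintype.card ι = 2 * r) :
    (∃ (t m : ℕ) (D : Fin t → Submodule F (ι → F)), NdDec (polar Q) H m D) ∨
    (∃ (m : ℕ) (D : Fin 2 → Submodule F (ι → F)), IsMDecomposition m D ∧
      (∀ i, IsTotallySingularQuad ⇑Q (D i)) ∧ H ≤ decompositionStabilizer D) ∨
    ∃ K', AdjField (RingEquiv.refl F) (polar Q) H 2 K' := by
  have h0 : 2 ≤ Fintype.card ι := by have := hr.pos; omega
  have := nonempty_of_two_le h0
  have hc := fcq hQ
  have hK := h.field
  have ha := hc.selfadj_of_odd hK hr h.adj_mem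
  have hs := hc.isSelfAdjointFor_iff.2 ha
  have hI' := hI.trans (isometryGroup_le_sim _)
  let S : Set (Matrix ι ι F) := {ω | (∀ k ∈ K, ω * k = k * ω) ∧ ∀ v, polar Q (ω *ᵥ v) v = Q v}
  have hadj : ∀ x : Matrix ι ι F, (∀ k ∈ K, x * k = k * x) → ∀ k ∈ K, 𝐚 x * k = k * 𝐚 x :=
    fun x hx k hk => by rw [← ha k hk, ← hc.adj_mul, ← hc.adj_mul, hx k hk]
  have h1 : ∀ x ∈ S, ∀ y ∈ S, x * y = y * x := fun x hx y hy => by
    by_cases h2 : (2 : F) = 0
    · obtain ⟨k, hk, h3⟩ := exists_eq_mul_of_alt hQ hK hι hs (x := 1) (y := y - x) one_ne_zero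
        (by simp) (fun v => by rw [Matrix.one_mulVec, polar_self', h2, zero_mul])
        (fun k hk => by rw [sub_mul, mul_sub, hx.1 k hk, hy.1 k hk])
        fun v => by rw [Matrix.sub_mulVec, polar_sub_left, hx.2, hy.2, sub_self]
      rw [mul_one, sub_eq_iff_eq_add] at h3
      rw [h3, mul_add, add_mul, hx.1 k hk]
    have h3 : ∀ x ∈ S, (∀ k ∈ K, (x - (2 : F)⁻¹ • 1) * k = k * (x - (2 : F)⁻¹ • 1)) ∧
        ∀ v, polar Q ((x - (2 : F)⁻¹ • 1) *ᵥ v) v = 0 := fun x hx =>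
      ⟨fun k hk => by simp [sub_mul, mul_sub, hx.1 k hk], fun v => by
        rw [Matrix.sub_mulVec, polar_sub_left, hx.2, Matrix.smul_mulVec, Matrix.one_mulVec,
          polar_smul_left', polar_self', inv_mul_cancel_left₀ h2, sub_self]⟩
    by_cases h4 : x - (2 : F)⁻¹ • 1 = 0
    · rw [sub_eq_zero.1 h4]; simp
    obtain ⟨k, hk, h5⟩ := exists_eq_mul_of_alt hQ hK hι hs h4 (h3 x hx).1 (h3 x hx).2
      (h3 y hy).1 (h3 y hy).2
    rw [sub_eq_iff_eq_add.1 h5]
    simp [mul_add, add_mul, mul_sub, sub_mul, ← mul_assoc, hx.1 k hk]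
  obtain ⟨x, hx, hx'⟩ : ∃ x ∈ S, 𝐚 x ≠ x := by
    by_cases h2 : (2 : F) = 0
    · obtain ⟨ω, hω⟩ := exists_omega_comm hQ h2 hK hs
      refine ⟨ω, hω, fun h3 => ?_⟩
      have h4 := add_adj_eq_one hQ hω.2
      rw [h3, ← two_smul F, h2, zero_smul] at h4
      exact zero_ne_one h4
    obtain ⟨y, hy, h3⟩ : ∃ y : Matrix ι ι F, (∀ k ∈ K, y * k = k * y) ∧ 𝐚 y ≠ y := by
      by_contra h3
      push Not at h3
      obtain ⟨x, y, hx, hy, h4⟩ := (two_dim_of_field hK hι).2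
      refine h4 ?_
      rw [← h3 (x * y) fun k hk => by rw [mul_assoc, hy k hk, ← mul_assoc, hx k hk, mul_assoc],
        hc.adj_mul, h3 x hx, h3 y hy]
    refine ⟨(2 : F)⁻¹ • 1 + (y - 𝐚 y), ⟨fun k hk => ?_, fun v => ?_⟩, fun h4 => h3 ?_⟩
    · simp [add_mul, mul_add, sub_mul, mul_sub, hy k hk, hadj y hy k hk]
    · rw [Matrix.add_mulVec, Matrix.sub_mulVec, polar_add_left, polar_sub_left, hc.adj_spec y,
        polar_comm _ v, sub_self, add_zero, Matrix.smul_mulVec, Matrix.one_mulVec,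
        polar_smul_left', polar_self', inv_mul_cancel_left₀ h2]
    · rw [hc.adj_add, hc.adj_smul_one, hc.adj_sub, hc.adj_adj, RingEquiv.refl_apply,
        add_right_inj] at h4
      refine smul_right_injective _ h2 ?_
      simp only [two_smul]
      rw [← sub_eq_zero] at h4 ⊢
      rw [← h4]; abel
  have h2 : ∀ g ∈ H, ∀ a ∈ Algebra.adjoin F S, cj g a ∈ Algebra.adjoin F S := fun g hg =>
    Algebra.adjoin_le (S := (Algebra.adjoin F S).comap (cj g).toAlgHom) fun a ha => by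
      refine Algebra.subset_adjoin (s := S) (a := cj g a) ⟨fun k hk => ?_, fun v => ?_⟩
      · rw [← cj_cj_inv g k, ← map_mul, ← map_mul,
          ha.1 _ ((mem_subalgebraNormalizer.1 (h.le (H.inv_mem hg)) k).1 hk)]
      · rw [← mulVec_inv_mulVec g v, cj_mulVec, polar_gl (hI hg), ha.2, Q_mulVec (hI hg)]
  have h3 : ∀ x ∈ Algebra.adjoin F S, ∀ y ∈ Algebra.adjoin F S, x * y = y * x := fun x hx y hy =>
    Algebra.commute_of_mem_adjoin_of_forall_mem_commute hy fun b hb =>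
      (Algebra.commute_of_mem_adjoin_of_forall_mem_commute hx fun a ha => h1 b hb a ha).symm
  have h4 : ∀ x ∈ Algebra.adjoin F S, 𝐚 x ∈ Algebra.adjoin F S := fun x hx => by
    induction hx using Algebra.adjoin_induction with
    | mem x hx => exact Algebra.subset_adjoin ⟨hadj x hx.1, fun v => by
        rw [← hc.adj_spec', polar_comm, hx.2]⟩
    | algebraMap c =>
      rw [Algebra.algebraMap_eq_smul_one, hc.adj_smul_one]
      exact Subalgebra.smul_mem _ (Subalgebra.one_mem _) _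
    | add a b _ _ ha hb => rw [hc.adj_add]; exact Subalgebra.add_mem _ ha hb
    | mul a b _ _ ha hb => rw [hc.adj_mul]; exact Subalgebra.mul_mem _ hb ha
  rcases field_or_idemSystem hH _ h2 h3 with h5 | ⟨t, e, he⟩
  · have h6 : IsFieldSubalgebra _ (Algebra.adjoin F S) := ⟨h3, h5, rfl⟩
    obtain ⟨L, hL, h7⟩ := exists_subfield_subalgebra h6 (r := 2) (by
      by_contra h7
      exact hx' (hc.selfadj_of_odd h6 (Nat.odd_iff.2 (by omega)) h4 x (Algebra.subset_adjoin hx)))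
    refine Or.inr <| Or.inr ⟨L, Nat.prime_two, hL, le_subalgebraNormalizer fun g hg a ha => ?_,
      fun a ha => ?_⟩ <;> rw [h7] at ha ⊢
    · exact ⟨h2 g hg a ha.1, by rw [← map_pow, ha.2]⟩
    · exact ⟨h4 a ha.1, by rw [← hc.adj_pow, ha.2]⟩
  · rcases he.form_cases hc hI' h4 with h5 | ⟨e, -, m, he⟩
    · exact Or.inl h5
    · exact Or.inr <| Or.inl ⟨m, _, he.dec, he.ts hQ h0 hI hH, he.le⟩

end two_dim

end Cfsg.Agent.Class.Asch
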