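import Cfsg.Agent.Class.Asch.OField
import Cfsg.Agent.Class.Asch.NotMax

/-! Tensor decompositions of orthogonal spaces. -/

set_option autoImplicit false
set_option linter.unusedSectionVars false

namespace Cfsg.Agent.Class.Asch

open Cfsg.Geo Cfsg.Agent.Class.Orth QuadraticMap Module
open scoped MatrixGroups Matrix Kronecker commutatorElement

variable {ι : Type} [Fintype ι] [DecidableEq ι] {F : Type*} [Field F]
  {Q : QuadraticForm F (ι → F)}

local notation "𝐚" => adj (RingEquiv.refl F) (polar Q)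

theorem FC.det_adj {ε : F} {f : (ι → F) → (ι → F) → F} (hf : FC (RingEquiv.refl F) ε f)
    (X : Matrix ι ι F) : (adj (RingEquiv.refl F) f X).det = X.det := by
  have := congrArg Matrix.det (hf.gram_adj X)
  rw [Matrix.det_mul, Matrix.det_mul, Matrix.det_transpose, mul_comm X.det] at this
  exact mul_left_cancel₀ hf.det_ne this

theorem FC.symplectic {f : (ι → F) → (ι → F) → F} (hf : FC (RingEquiv.refl F) (-1) f)
    (h2 : (2 : F) ≠ 0) : IsSymplecticForm f :=
  isSymplecticForm_of_alt hf.sesq.bilinear hf.nondeg fun v => by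
    have h : f v v = -1 * f v v := hf.symm v v
    exact mul_left_cancel₀ h2 (by linear_combination h)

section two

variable {k l : ℕ} {e : ι ≃ Fin k × Fin l} {B : GL ι F} {ε₁ ε₂ : F}
  {f₁ : (Fin k → F) → (Fin k → F) → F} {f₂ : (Fin l → F) → (Fin l → F) → F}

/-- the type of `odd ⊗ even` is the type of the even factor -/
theorem TensForm.isPlus_iff [Finite F] (hQ : ND Q) (h2 : (2 : F) ≠ 0)
    (h : TensForm (RingEquiv.refl F) (polar Q) e B ε₁ ε₂ f₁ f₂) (h₂ : IsSymmetricForm f₂)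
    (hk : Odd k) (hl : Even l) :
    IsPlusTypeOn ⇑Q ⊤ ↔ IsPlusTypeOn (fun v => f₂ v v) ⊤ := by
  obtain ⟨j, rfl⟩ := hk
  obtain ⟨m, hm⟩ := hl
  rw [← two_mul] at hm
  subst hm
  obtain ⟨h3, h4⟩ := isNondegenerateQuadraticForm_of_symm h₂.bilinear h₂.symm h₂.nondegenerate h2
  have hι : Fintype.card ι = (2 * j + 1) * (2 * m) := by simpa using Fintype.card_congr e
  obtain ⟨c, hc, h5⟩ : IsTensorFormStructure (RingEquiv.refl F) (polar Q) f₁ f₂ e B := by
    cases isEmpty_or_nonempty ι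
    · have := e.symm.isEmpty
      exact ⟨1, one_ne_zero, fun x y => by
        rw [Subsingleton.elim (_ *ᵥ _) 0, polar_zero_left]; simp [formOfGram]⟩
    · exact h.struct (fcq hQ)
  rw [isPlusTypeOn_top_iff, QF.isPlus_iff_disc h2 ((nd_iff Q).1 hQ) (m := (2 * j + 1) * m)
    (by rw [finrank_fun, hι]; ring) ((Pi.basisFun F _).map (trL e B))]
  refine Iff.trans ?_ ((isPlusTypeOn_top_iff (Q := Max.qfOf h3)).trans (QF.isPlus_iff_disc h2
    ((nd_iff _).1 (Max.nd_qfOf h3)) (m := m) (by simp) (Pi.basisFun F _))).symm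
  have h6 : QF.gramDet Q ((Pi.basisFun F _).map (trL e B)) =
      (c • gramMatrix f₁ ⊗ₖ gramMatrix f₂).det := by
    unfold QF.gramDet
    congr 1
    ext p q
    simp only [Matrix.of_apply, Basis.map_apply, Pi.basisFun_apply, trL_apply, trV, h5, frm_single,
      Matrix.smul_apply, smul_eq_mul]
  have h7 : QF.gramDet (Max.qfOf h3) (Pi.basisFun F _) = ((2 : F) • gramMatrix f₂).det := by
    unfold QF.gramDet
    congr 1
    ext p q
    exact (h4 _ _).trans (by simp [gramMatrix])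
  rw [h6, h7, Matrix.det_smul, Matrix.det_smul, Matrix.det_kronecker]
  simp only [Fintype.card_prod, Fintype.card_fin]
  have h8 : ((-1) ^ (j * m) * c ^ ((2 * j + 1) * m) * (gramMatrix f₁).det ^ m *
      (gramMatrix f₂).det ^ j : F) ≠ 0 := by
    simp [hc, h.fc₁.det_ne, h.fc₂.det_ne]
  rw [← QF.isSquare_sq_mul (pow_ne_zero m h2), ← QF.isSquare_sq_mul h8 (x := (-1) ^ m * _)]
  exact iff_of_eq (congrArg _ (by ring))

theorem TensForm.pure_singular (hQ : ND Q) (h2 : (2 : F) ≠ 0)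
    (h : TensForm (RingEquiv.refl F) (polar Q) e B ε₁ ε₂ f₁ f₂) (h₁ : IsSymplecticForm f₁)
    (x : Fin k → F) (y : Fin l → F) : Q (trV e B (tens x y)) = 0 := by
  cases isEmpty_or_nonempty ι
  · rw [Subsingleton.elim (trV _ _ _) 0, map_zero]
  obtain ⟨c, -, h3⟩ := h.exists_tens (fcq hQ)
  exact Q_eq_zero_of_polar h2 (by rw [h3, h₁.alternating, zero_mul, mul_zero])

/-- `2 ⊗ l` with singular pure tensors is of plus type -/
theorem isPlus_of_pure_singular {e : ι ≃ Fin 2 × Fin l}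
    (h : ∀ x y, Q (trV e B (tens x y)) = 0) : IsPlusTypeOn ⇑Q ⊤ := by
  refine isPlus_of_nil (N := homL e B (Matrix.single 0 1 1)) (N' := homL e B (Matrix.single 1 0 1))
    ?_ ?_ fun u => ?_
  · rw [← map_mul, Matrix.single_mul_single_of_ne _ _ _ _ (by decide), map_zero]
  · rw [← map_mul, ← map_mul, ← map_add, ← map_one (homL e B)]
    congr 1
    ext i j; fin_cases i <;> fin_cases j <;> simp
  · obtain ⟨x, rfl⟩ := trV_surjective e B u
    rw [homL_apply, tr_mulVec, ← h (Pi.single 0 1) fun j => x (1, j)]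
    congr 2
    ext ⟨i, j⟩
    fin_cases i <;>
      simp [tens, Matrix.mulVec, dotProduct, Fintype.sum_prod_type, Matrix.one_apply]

end two

theorem adj_mul_two (a : Matrix (Fin 2) (Fin 2) F) : (a.trace • 1 - a) * a = a.det • 1 := by
  ext i j
  fin_cases i <;> fin_cases j <;>
    simp [Matrix.mul_apply, Fin.sum_univ_two, Matrix.det_fin_two, Matrix.trace_fin_two] <;> ring

/-- the exchange of the two factors of `2 ⊗ 2` -/
def swGL (F : Type*) [Field F] : GL (Fin 2 × Fin 2) F where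
  val := Equiv.Perm.permMatrix F (Equiv.prodComm (Fin 2) (Fin 2))
  inv := Equiv.Perm.permMatrix F (Equiv.prodComm (Fin 2) (Fin 2))
  val_inv := by rw [← Matrix.permMatrix_mul]; exact Matrix.permMatrix_one
  inv_val := by rw [← Matrix.permMatrix_mul]; exact Matrix.permMatrix_one

theorem det_swGL : (swGL F).val.det = -1 := by
  change (Equiv.Perm.permMatrix F _).det = _
  rw [Matrix.det_permutation, show Equiv.Perm.sign (Equiv.prodComm (Fin 2) (Fin 2)) = -1 by decide]
  simp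

theorem coe_swGL : (swGL F).val =
    Matrix.single (0 : Fin 2) (0 : Fin 2) (1 : F) ⊗ₖ Matrix.single (0 : Fin 2) (0 : Fin 2) (1 : F) +
    Matrix.single 1 1 (1 : F) ⊗ₖ Matrix.single 1 1 (1 : F) +
    Matrix.single 0 1 (1 : F) ⊗ₖ Matrix.single 1 0 (1 : F) +
    Matrix.single 1 0 (1 : F) ⊗ₖ Matrix.single 0 1 (1 : F) := by
  ext ⟨i, j⟩ ⟨k, l⟩
  fin_cases i <;> fin_cases j <;> fin_cases k <;> fin_cases l <;>
    simp [swGL, Equiv.Perm.permMatrix, PEquiv.toMatrix_apply]

theorem cj_swGL (a : Matrix (Fin 2) (Fin 2) F) :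
    cj (swGL F) ((1 : Matrix (Fin 2) (Fin 2) F) ⊗ₖ a) = a ⊗ₖ (1 : Matrix (Fin 2) (Fin 2) F) := by
  simp only [cj_apply, Units.inv_eq_val_inv, swGL, Units.inv_mk]
  rw [Equiv.Perm.permMatrix, PEquiv.toMatrix_toPEquiv_mul, PEquiv.mul_toMatrix_toPEquiv]
  ext ⟨i, j⟩ ⟨k, l⟩
  simp [mul_comm]

theorem TensForm.det_of_swap {ε : F} {f : (ι → F) → (ι → F) → F} (hf : FC (RingEquiv.refl F) ε f)
    {e : ι ≃ Fin 2 × Fin 2} {B : GL ι F} (h : TensForm (RingEquiv.refl F) f e B (-1) (-1)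
      (formOfGram (RingEquiv.refl F) (J2 F)) (formOfGram (RingEquiv.refl F) (J2 F)))
    {b : GL ι F} {μ : F} (hb : adj (RingEquiv.refl F) f b * b = μ • 1)
    (hs : ∀ a, ∃ a', cj b (homL e B a) = homR e B a') : (b : Matrix ι ι F).det = -μ ^ 2 := by
  have : Nonempty ι := e.nonempty
  obtain ⟨c, d, h1⟩ := mem_tensorProductSubgroup_iff.1 (mem_tensorProductSubgroup_of_normalizes e B
    (trGL e B (swGL F) * b) fun a => (hs a).imp fun a' ha => by
      rw [cj_mul, ← homL_apply, ha, homR_apply, ← tr_cj, cj_swGL])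
  have h2 : adj (RingEquiv.refl F) f (tr e B (swGL F)) = tr e B (swGL F) := by
    rw [coe_swGL]
    simp only [map_add, hf.adj_add, h.adj_kron, adj_J2]
    simp only [← map_add]
    congr 1
    ext ⟨i, j⟩ ⟨k, l⟩
    fin_cases i <;> fin_cases j <;> fin_cases k <;> fin_cases l <;> simp [Matrix.trace_fin_two]
  have h3 := congrArg Units.val h1
  rw [Units.val_mul, coe_trGL, coe_trGL, coe_kronGL] at h3
  have h4 := congrArg (fun X => adj (RingEquiv.refl F) f X * X) h3
  have h5 := congrArg Matrix.det h3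
  rw [hf.adj_mul, h2, mul_assoc, ← mul_assoc (tr e B _), ← map_mul,
    show (swGL F).val * (swGL F).val = 1 from (swGL F).val_inv, map_one, one_mul, hb,
    h.adj_kron, ← map_mul, ← Matrix.mul_kronecker_mul, adj_J2, adj_J2, adj_mul_two, adj_mul_two,
    Matrix.smul_kronecker, Matrix.kronecker_smul, Matrix.one_kronecker_one, smul_smul, map_smul,
    map_one] at h4
  rw [Matrix.det_mul, det_tr, det_tr, det_swGL, Matrix.det_kronecker] at h5
  rw [smul_one_injective h4]
  simp only [Fintype.card_fin] at h5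
  linear_combination -h5

/-- (H6) `O_k ⊗ O₄⁺ ∩ Ω ≤ Sp₂ ⊗ Sp_{2k}` for odd `k` -/
theorem TensForm.exists_symp_of_plus (hQ : ND Q) (h2 : (2 : F) ≠ 0) {k : ℕ} (hk : Odd k)
    {e : ι ≃ Fin k × Fin 4} {B : GL ι F} {f₁ : (Fin k → F) → (Fin k → F) → F}
    {f₂ : (Fin 4 → F) → (Fin 4 → F) → F} (h₂ : IsSymmetricForm f₂)
    (hp : IsPlusTypeOn (fun v => f₂ v v) ⊤)
    (h : TensForm (RingEquiv.refl F) (polar Q) e B 1 1 f₁ f₂) {H : Subgroup (GL ι F)}
    (hI : H ≤ omegaGL ⇑Q) (hle : H ≤ tensorProductSubgroup k 4 e B) :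
    ∃ (e' : ι ≃ Fin 2 × Fin (2 * k)) (B' : GL ι F) (f₁' : (Fin 2 → F) → (Fin 2 → F) → F)
      (f₂' : (Fin (2 * k) → F) → (Fin (2 * k) → F) → F), IsSymplecticForm f₁' ∧
      IsSymplecticForm f₂' ∧ TensForm (RingEquiv.refl F) (polar Q) e' B' (-1) (-1) f₁' f₂' ∧
      (∀ x y, Q (trV e' B' (tens x y)) = 0) ∧ H ≤ tensorProductSubgroup 2 (2 * k) e' B' := by
  have hc := fcq hQ
  have : Nonempty (Fin k) := ⟨⟨0, hk.pos⟩⟩
  have : Nonempty ι := e.nonempty
  have hI' := (hI.trans (omegaGL_le _)).trans (isometryGroup_le_isoG _)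
  have hI'' := hI'.trans (isoG_le_sim _)
  obtain ⟨e₂, B₂, h3⟩ := exists_tensForm_plus (by simp) h2 h₂ hp
  obtain ⟨l, e', B', h4⟩ := exists_tr_kronecker two_pos ((homR e B).comp (homL e₂ B₂))
  obtain rfl : l = 2 * k := by
    have h5 := (Fintype.card_congr e).symm.trans (Fintype.card_congr e')
    simp only [Fintype.card_prod, Fintype.card_fin] at h5
    omega
  have h5 : ∀ a, 𝐚 (tr e' B' (a ⊗ₖ 1)) = tr e' B' ((a.trace • 1 - a) ⊗ₖ 1) := fun a => by
    rw [← h4, ← h4, AlgHom.comp_apply, AlgHom.comp_apply, homR_apply, homR_apply, h.adj_kron,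
      h.fc₁.adj_one, homL_apply, homL_apply, h3.adj_kron, h3.fc₂.adj_one, adj_J2]
  obtain ⟨ε₁, ε₂, f₁', f₂', h6⟩ := hc.exists_tensForm (A := (homL e' B').range) (e := e') (B := B')
    (fun X => exists_congr fun a => eq_comm) (by rintro _ ⟨a, rfl⟩; exact ⟨_, (h5 a).symm⟩)
  have h7 : TensForm (RingEquiv.refl F) (polar Q) e' B' (-1) ε₂
      (formOfGram (RingEquiv.refl F) (J2 F)) f₂' :=
    ⟨fc_J2, h6.fc₂, fun h => absurd rfl h, fun h => absurd rfl h, fun a b => by
      have h7 := h6.adj_kron a 1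
      rw [h5, h6.fc₂.adj_one] at h7
      rw [h6.adj_kron, adj_J2, algHom_injective (homL e' B') h7]⟩
  obtain rfl : ε₂ = -1 := by linear_combination h7.eps hc
  refine ⟨e', B', _, f₂', isSymplecticForm_J2, h6.fc₂.symplectic h2, h7,
    h7.pure_singular hQ h2 isSymplecticForm_J2,
    fun g hg => mem_tensorProductSubgroup_of_normalizes e' B' g fun x => ?_⟩
  obtain ⟨a, ha, b, hb, rfl⟩ := exists_eq_kron_prj hle hg
  simp only [← h4, AlgHom.comp_apply, homR_apply, cj_trGL_kron, map_one]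
  have h8 := h.swap.prj_le hc hI'' hb
  rcases h3.hom_cases h2 h.fc₂ isSymplecticForm_J2 isSymplecticForm_J2 h8 (homL e₂ B₂)
    (fun a => by rw [homL_apply, homL_apply, h3.adj_kron, h3.fc₂.adj_one, adj_J2]) with h9 | h9
  · exact (h9 x).imp fun y hy => by rw [hy]
  exfalso
  obtain ⟨c, -, h10⟩ := h.fc₁.adj_mul_self_of_sim (h.prj_le hc hI'' ha)
  obtain ⟨d, -, h11⟩ := h.fc₂.adj_mul_self_of_sim h8
  have h12 := congrArg (· * (trGL e B (kronGL a b) : Matrix ι ι F)) (hc.adj_iso (hI' hg))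
  simp only [Units.inv_mul] at h12
  rw [coe_trGL, coe_kronGL, h.adj_kron, ← map_mul, ← Matrix.mul_kronecker_mul, h10, h11,
    Matrix.smul_kronecker, Matrix.kronecker_smul, Matrix.one_kronecker_one, smul_smul, map_smul,
    map_one, ← one_smul F (1 : Matrix ι ι F), smul_smul, mul_one] at h12
  have h13 := det_of_mem_omegaGL (hI hg)
  have h14 := congrArg Matrix.det h10
  rw [Matrix.det_mul, h.fc₁.det_adj, Matrix.det_smul, Matrix.det_one, mul_one] at h14
  rw [coe_trGL, det_tr, coe_kronGL, Matrix.det_kronecker, h3.det_of_swap h.fc₂ h11 h9] at h13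
  simp only [Fintype.card_fin] at h13 h14
  rw [hk.neg_pow, show (4 : ℕ) = 2 * 2 from rfl, pow_mul, pow_two (Matrix.det _), h14,
    ← pow_mul, ← pow_mul, mul_comm 2, mul_neg, ← mul_pow, smul_one_injective h12, one_pow] at h13
  exact h2 (by linear_combination -h13)

end Cfsg.Agent.Class.Asch
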