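import Cfsg.Agent.Class.Asch.ORed
import Cfsg.Agent.Class.Asch.OField
import Cfsg.Agent.Class.Asch.OTens

/-! Maximal subgroups of orthogonal groups in dimensions eight, ten and twelve. -/

set_option autoImplicit false
set_option linter.unusedSectionVars false

namespace Cfsg.Agent.Class.Asch

open Cfsg.Geo Cfsg.Agent.Class.Orth QuadraticMap Module
open scoped MatrixGroups Matrix Kronecker commutatorElement

variable {ι : Type} [Fintype ι] [DecidableEq ι] {F : Type*} [Field F] [Fintype F]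
  {Q : QuadraticForm F (ι → F)} {H : Subgroup (GL ι F)}

theorem oEven_H6 (hQ : ND Q) (hq : Odd (Fintype.card F)) (hI : H ≤ omegaGL ⇑Q)
    {e : ι ≃ Fin 3 × Fin 4}
    {B : GL ι F} {f₁ : (Fin 3 → F) → (Fin 3 → F) → F} {f₂ : (Fin 4 → F) → (Fin 4 → F) → F}
    (h₂ : IsSymmetricForm f₂)
    (h : TensForm (RingEquiv.refl F) (polar Q) e B 1 1 f₁ f₂)
    (hle : H ≤ tensorProductSubgroup 3 4 e B) (hp : IsPlusTypeOn ⇑Q ⊤) :
    ∃ (e : ι ≃ Fin 2 × Fin 6) (B : GL ι F)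
      (f₁ : (Fin 2 → F) → (Fin 2 → F) → F) (f₂ : (Fin 6 → F) → (Fin 6 → F) → F),
      IsSymplecticForm f₁ ∧ IsSymplecticForm f₂ ∧
      TensForm (RingEquiv.refl F) (polar Q) e B (-1) (-1) f₁ f₂ ∧
      (∀ x y, Q (trV e B (tens x y)) = 0) ∧ H ≤ tensorProductSubgroup 2 6 e B :=
  have h2 := QF.two_ne_zero_of_odd_card hq
  h.exists_symp_of_plus hQ h2 (k := 3) (by decide) h₂
    ((h.isPlus_iff hQ h2 h₂ (by decide) (by decide)).1 hp) hI hle

theorem oEven_H7 (hQ : ND Q) (hq : Odd (Fintype.card F)) {e : ι ≃ Fin 3 × Fin 4}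
    {B : GL ι F} {f₁ : (Fin 3 → F) → (Fin 3 → F) → F} {f₂ : (Fin 4 → F) → (Fin 4 → F) → F}
    (h₂ : IsSymmetricForm f₂)
    (h : TensForm (RingEquiv.refl F) (polar Q) e B 1 1 f₁ f₂)
    (hp : IsPlusTypeOn (fun v => f₂ v v) ⊤) : IsPlusTypeOn ⇑Q ⊤ :=
  (h.isPlus_iff hQ (QF.two_ne_zero_of_odd_card hq) h₂ (by decide) (by decide)).2 hp

/-- The alternatives for a maximal subgroup of `Ω` in dimension eight, ten or twelve. -/
def OEven (Q : QuadraticForm F (ι → F)) (n : ℕ) (H : Subgroup (GL ι F)) : Prop :=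
  (∃ W : Submodule F (ι → F), W ≠ ⊥ ∧ IsTotallySingularQuad ⇑Q W ∧
    (IsPlusTypeOn ⇑Q ⊤ → 2 * (finrank F W + 1) ≠ n) ∧ H = subspaceStabilizer W ⊓ omegaGL ⇑Q) ∨
  (∃ W : Submodule F (ι → F), W ≠ ⊥ ∧ W ≠ ⊤ ∧ 2 * finrank F W ≤ n ∧
    IsNondegenerateOn (polar Q) W ∧ (Odd (finrank F W) → Odd (Fintype.card F)) ∧
    (finrank F W = 2 → IsPlusTypeOn ⇑Q W → 4 ≤ Fintype.card F) ∧
    H = subspaceStabilizer W ⊓ omegaGL ⇑Q ∧ ∀ k, finrank F W = k → 2 * k = n →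
      ∃ D : Fin 2 → Submodule F (ι → F), IsNondegenerateMDecomposition (polar Q) k D ∧
        H = decompositionStabilizer D ⊓ omegaGL ⇑Q) ∨
  (¬ Odd (Fintype.card F) ∧ ∃ v, Q v ≠ 0 ∧
    H = subspaceStabilizer (Submodule.span F {v}) ⊓ omegaGL ⇑Q) ∨
  (∃ (t k : ℕ) (D : Fin t → Submodule F (ι → F)), n = k * t ∧ 2 ≤ t ∧
    (Odd k → Odd (Fintype.card F)) ∧ GoodDec Q k D ∧ H = decompositionStabilizer D ⊓ omegaGL ⇑Q) ∨
  (∃ (m : ℕ) (D : Fin 2 → Submodule F (ι → F)), n = 2 * m ∧ Even m ∧ IsMDecomposition m D ∧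
    (∀ i, IsTotallySingularQuad ⇑Q (D i)) ∧ H = decompositionStabilizer D ⊓ omegaGL ⇑Q) ∨
  (∃ K : Subalgebra F (Matrix ι ι F), IsFieldSubalgebra 2 K ∧ IsSelfAdjointFor (polar Q) K ∧
    (n = 10 → Odd (Fintype.card F)) ∧ H = subalgebraNormalizer K ⊓ omegaGL ⇑Q) ∨
  (∃ K : Subalgebra F (Matrix ι ι F), IsFieldSubalgebra 2 K ∧ IsAdjointClosedFor (polar Q) K ∧
    ¬ IsSelfAdjointFor (polar Q) K ∧ (∀ k ∈ K, ∃ c : F, ∀ v, Q (k *ᵥ v) = c * Q v) ∧
    (n = 10 → ¬ IsPlusTypeOn ⇑Q ⊤) ∧ H = subalgebraNormalizer K ⊓ omegaGL ⇑Q) ∨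
  (n = 12 ∧ ∃ K : Subalgebra F (Matrix ι ι F), IsFieldSubalgebra 3 K ∧
    H = subalgebraNormalizer K ⊓ omegaGL ⇑Q) ∨
  (n = 12 ∧ ¬ IsPlusTypeOn ⇑Q ⊤ ∧ Odd (Fintype.card F) ∧ 5 ≤ Fintype.card F ∧
    ∃ (e : ι ≃ Fin 3 × Fin 4) (B : GL ι F) (f₁ : (Fin 3 → F) → (Fin 3 → F) → F)
      (f₂ : (Fin 4 → F) → (Fin 4 → F) → F), IsSymmetricForm f₁ ∧ IsSymmetricForm f₂ ∧
      ¬ IsPlusTypeOn (fun v => f₂ v v) ⊤ ∧ IsTensorFormStructure id (polar Q) f₁ f₂ e B ∧
      H = tensorProductSubgroup 3 4 e B ⊓ omegaGL ⇑Q) ∨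
  (n = 12 ∧ IsPlusTypeOn ⇑Q ⊤ ∧ 3 ≤ Fintype.card F ∧
    ∃ (e : ι ≃ Fin 2 × Fin 6) (B : GL ι F) (f₁ : (Fin 2 → F) → (Fin 2 → F) → F)
      (f₂ : (Fin 6 → F) → (Fin 6 → F) → F), IsSymplecticForm f₁ ∧ IsSymplecticForm f₂ ∧
      IsTensorFormStructure id (polar Q) f₁ f₂ e B ∧ (∀ x y, Q (trV e B (tens x y)) = 0) ∧
      H = tensorProductSubgroup 2 6 e B ⊓ omegaGL ⇑Q) ∨
  (∃ (F₀ : Subfield F) (r : ℕ) (B : GL ι F) (ζ : F), r.Prime ∧ (¬ IsPlusTypeOn ⇑Q ⊤ → Odd r) ∧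
    Fintype.card F = Nat.card F₀ ^ r ∧ ζ ≠ 0 ∧
    IsQuadFormRationalStructure (fun v => ζ * Q v) F₀ B ∧ H = subfieldSubgroup F₀ B ⊓ omegaGL ⇑Q) ∨
  (n = 8 ∧ IsPlusTypeOn ⇑Q ⊤) ∨
  InOrthogonalResidualClass H

section

variable (hQ : ND Q) {n : ℕ} (hn : Fintype.card ι = n) (h : n = 8 ∨ n = 10 ∨ n = 12)
  (hH : IsMaximalIn (omegaGL ⇑Q) H)
include hQ hn h hH

theorem oEven_of_redu (h1 : ORedu Q H) : OEven Q n H := by
  have h5 : 5 ≤ Fintype.card ι := by omega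
  have hc := fcq hQ
  rcases h1 with ⟨W, h0, h1, h2⟩ | ⟨W, h0, h1, h2, h3, h4⟩ | ⟨h0, v, h1, h2⟩
  · by_cases h3 : IsPlusTypeOn ⇑Q ⊤ → 2 * (finrank F W + 1) ≠ n
    · exact Or.inl ⟨W, h0, h1, h3, eq_inf_of_maximal hH h2.le_stabilizer
        (omega_not_le_stabilizer hQ h5 h0 (ts_ne_top hQ (by omega) h1))⟩
    push Not at h3
    obtain ⟨U, h4, h6, h7⟩ := exists_maxTS_ge hQ h3.1 h1
    have h8 : U ≠ ⊥ := fun h8 => h0 (le_bot_iff.1 (h8 ▸ h4))
    exact Or.inl ⟨U, h8, h6, fun _ => by omega, eq_inf_of_maximal hH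
      ((le_inf h2.le_stabilizer hH.1.le).trans (stab_le_stab_maxTS hQ h5 h4 h6 h7 (by omega)))
      (omega_not_le_stabilizer hQ h5 h8 (ts_ne_top hQ (by omega) h6))⟩
  · have h6 : W ≠ ⊤ := ne_top_of_finrank_lt (by omega)
    refine Or.inr <| Or.inl ⟨W, h0, h6, hn ▸ h1, h2, fun h7 => by_contra fun h8 =>
      Nat.not_even_iff_odd.2 h7 (even_finrank_of_nd h8 h2), h3,
      eq_inf_of_maximal hH h4.le_stabilizer (omega_not_le_stabilizer hQ h5 h0 h6), ?_⟩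
    rintro k rfl h7
    have h8 := hc.nd_pair h2 h0 (h7.trans hn.symm)
    refine ⟨_, h8, eq_inf_of_maximal hH (le_decompositionStabilizer_of_inv fun i => ?_)
      (omega_not_le_nd hQ h5 h8)⟩
    fin_cases i
    · exact h4
    · exact hc.inv_perp (hH.1.le.trans ((omegaGL_le _).trans (isometryGroup_le_sim _))) h4
  · have h3 : v ≠ 0 := by rintro rfl; simp at h1
    exact Or.inr <| Or.inr <| Or.inl ⟨h0, v, h1, eq_inf_of_maximal hH h2.le_stabilizer
      (omega_not_le_stabilizer hQ h5 (by simpa using h3) (span_singleton_ne_top (by omega) h3))⟩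

theorem oEven_of_dec (hi : Irr H) (h1 : DecOrSub Q H) : OEven Q n H := by
  have h5 : 5 ≤ Fintype.card ι := by omega
  unfold OEven
  rcases h1 with ⟨t, k, D, h1, h2⟩ | ⟨F₀, r, B, h1, h2, h3⟩
  · have h3 := h1.dec.decomp.decomp.two_le
    iterate 3 right
    exact Or.inl ⟨t, k, D, hn ▸ IsMDecomposition.card_eq' h1.dec.decomp.decomp, h3,
      fun h7 => by_contra fun h8 => Nat.not_even_iff_odd.2 h7 (h1.dec.decomp.decomp.finrank_eq
        ⟨0, by omega⟩ ▸ even_finrank_of_nd h8 (h1.dec.decomp.nondegenerate _)), h1,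
      eq_inf_of_maximal hH h2 (omega_not_le_nd hQ h5 h1.dec.decomp)⟩
  · obtain ⟨ζ, h4, h6, h7⟩ := h3.quad hQ (by omega) (hH.1.le.trans (omegaGL_le _)) hi
    iterate 10 right
    refine Or.inl ⟨F₀, r, B, ζ, h1, fun hp => h1.eq_two_or_odd'.resolve_left ?_, h2, h4, h6,
      eq_inf_of_maximal hH h7 (omega_not_le_subfield hQ h5 (ne_top_of_card h1 h2) B)⟩
    rintro rfl
    exact hp (isPlus_of_index_two hQ (Nat.even_iff.2 (by omega)) h2 h4 h6)

theorem oEven_of_ts (hi : Irr H) {m : ℕ} {D : Fin 2 → Submodule F (ι → F)}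
    (h1 : IsMDecomposition m D) (h2 : ∀ i, IsTotallySingularQuad ⇑Q (D i))
    (h3 : H ≤ decompositionStabilizer D) : OEven Q n H := by
  have h5 : 5 ≤ Fintype.card ι := by omega
  have h4 := IsMDecomposition.card_eq' h1
  unfold OEven
  iterate 4 right
  refine Or.inl ⟨m, D, by omega, Nat.not_odd_iff_even.1 fun h6 => hi.not_le_stabilizer
    (fun h0 => ?_) (ts_ne_top hQ (by omega) (h2 0))
    ((le_inf h3 hH.1.le).trans (stab_pair_le hQ h5 h6 h1 h2)), h1, h2,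
    eq_inf_of_maximal hH h3 (omega_not_le_ts hQ h5 h1 h2)⟩
  have := h1.finrank_eq 0
  rw [h0, finrank_bot] at this
  omega

theorem oEven_of_two (hi : Irr H) {K : Subalgebra F (Matrix ι ι F)}
    (h1 : AdjField (RingEquiv.refl F) (polar Q) H 2 K) : OEven Q n H := by
  have h5 : 5 ≤ Fintype.card ι := by omega
  have hI := hH.1.le.trans (omegaGL_le _)
  have h2 := eq_inf_of_maximal hH h1.le (omega_not_le_normalizer hQ h5 h1.field (by omega))
  unfold OEven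
  iterate 5 right
  by_cases hs : IsSelfAdjointFor (polar Q) K
  · refine Or.inl ⟨K, h1.field, hs, fun h3 => by_contra fun h4 => ?_, h2⟩
    have := two_mul_dvd_of_selfadj_two hQ (two_eq_zero_of_not_odd h4) h1.field hs
    omega
  · have h3 := h1.sim_of_not_selfadj hQ hI hi hs
    exact Or.inr <| Or.inl ⟨K, h1.field, (fcq hQ).isAdjointClosedFor_iff.2 h1.adj_mem, hs, h3,
      fun h4 h6 => absurd ((isPlus_iff_even_of_field hQ h1.field h3 (m := 5) (by omega)).1 h6)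
        (by decide), h2⟩

theorem oEven_of_symp {e : ι ≃ Fin 2 × Fin 6} {B : GL ι F} {f₁ : (Fin 2 → F) → (Fin 2 → F) → F}
    {f₂ : (Fin 6 → F) → (Fin 6 → F) → F} (hq : 3 ≤ Fintype.card F) (h₁ : IsSymplecticForm f₁)
    (h₂ : IsSymplecticForm f₂) (h1 : TensForm (RingEquiv.refl F) (polar Q) e B (-1) (-1) f₁ f₂)
    (h2 : ∀ x y, Q (trV e B (tens x y)) = 0) (h3 : H ≤ tensorProductSubgroup 2 6 e B) :
    OEven Q n H := by
  have h5 : 5 ≤ Fintype.card ι := by omega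
  have := nonempty_of_two_le (ι := ι) (by omega)
  unfold OEven
  iterate 9 right
  exact Or.inl ⟨by simpa [hn] using Fintype.card_congr e, isPlus_of_pure_singular h2, hq, e, B, f₁, f₂, h₁, h₂,
    h1.struct (fcq hQ), h2, eq_inf_of_maximal hH h3 ((qs_omega hQ h5).not_le_tensor
      (hasRoot_omega hQ h5) le_rfl (by omega) (Or.inr (by omega)) e B)⟩

theorem oEven : OEven Q n H := by
  have h5 : 5 ≤ Fintype.card ι := by omega
  have h12 : n ≤ 12 := by omega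
  have := nonempty_of_two_le (ι := ι) (by omega)
  have hI := hH.1.le.trans (omegaGL_le _)
  have hq2 : 1 < Fintype.card F := Fintype.one_lt_card
  have h8 : n = 8 → IsPlusTypeOn ⇑Q ⊤ → OEven Q n H := fun a b => by
    unfold OEven
    iterate 11 right
    exact Or.inl ⟨a, b⟩
  rcases oRed hQ (by omega) hI with h1 | ⟨hi, h1 | ⟨m, D, h1, h2, h3⟩ | ⟨r, K, h1, -⟩ |
      ⟨hq, k, l, e, B, f₁, f₂, h1, h2, h3, h4, h6, h7, h9, h10⟩ |
      ⟨k, l, e, B, f₁, f₂, h1, h2, h3, h4, h6, h7, h9, h10⟩ | ⟨m, R, h1, h2⟩ |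
      ⟨-, k, t, e, -, -, h1, h2, -⟩ | ⟨k, t, h1, h2, h3, h4, h6⟩ | h1⟩
  · exact oEven_of_redu hQ hn h hH h1
  · exact oEven_of_dec hQ hn h hH hi h1
  · exact oEven_of_ts hQ hn h hH hi h1 h2 h3
  · have h2 := IsFieldSubalgebra.dvd_card h1.field
    have h3 := h1.prime
    have h4 := Nat.le_of_dvd (by omega) h2
    obtain rfl | ⟨rfl, h6⟩ | ⟨rfl, h6⟩ : r = 2 ∨ (r = 3 ∧ n = 12) ∨ (r = 5 ∧ n = 10) := by
      rw [hn] at h2 h4
      rcases h with rfl | rfl | rfl <;> interval_cases r <;> simp_all (config := {decide := true})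
    · exact oEven_of_two hQ hn h hH hi h1
    · unfold OEven
      iterate 7 right
      exact Or.inl ⟨h6, K, h1.field, eq_inf_of_maximal hH h1.le
        (omega_not_le_normalizer hQ h5 h1.field (by omega))⟩
    · rcases h1.cases_two_mul hQ hI hi (by decide) (by omega) with
        ⟨t, k, D, h7⟩ | ⟨m, D, h7, h9, h10⟩ | ⟨K', h7⟩
      · exact oEven_of_dec hQ hn h hH hi (decOrSub hQ hI hi (h7.orth hI) h7.le)
      · exact oEven_of_ts hQ hn h hH hi h7 h9 h10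
      · exact oEven_of_two hQ hn h hH hi h7
  · have h11 : n = k * l := by simpa [hn] using Fintype.card_congr e
    have h13 : k ≤ 3 := by nlinarith
    obtain rfl : k = 3 := by omega
    obtain rfl : l = 4 := by omega
    have h14 : 5 ≤ Fintype.card F := by
      rw [Nat.odd_iff] at hq
      omega
    by_cases hp : IsPlusTypeOn ⇑Q ⊤
    · obtain ⟨e', B', g₁, g₂, a, b, c, d, e⟩ := oEven_H6 hQ hq hH.1.le h7 h9 h10 hp
      exact oEven_of_symp hQ hn h hH (by omega) a b c d e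
    unfold OEven
    iterate 8 right
    exact Or.inl ⟨h11, hp, hq, h14, e, B, f₁, f₂, h6, h7, fun h15 => hp (oEven_H7 hQ hq h7 h9 h15),
      h9.struct (fcq hQ), eq_inf_of_maximal hH h10 ((qs_omega hQ h5).not_le_tensor
        (hasRoot_omega hQ h5) (by omega) (by omega) (Or.inr (by omega)) e B)⟩
  · have h11 : n = k * l := by simpa [hn] using Fintype.card_congr e
    have h13 : k ≤ 3 := by nlinarith
    have h14 : Even k := by simpa using even_card_of_symplectic h4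
    have h15 : Even l := by simpa using even_card_of_symplectic h6
    rw [Nat.even_iff] at h14 h15
    obtain rfl : k = 2 := by omega
    by_cases h16 : n = 8
    · exact h8 h16 (isPlus_of_pure_singular h9)
    obtain rfl : l = 6 := by omega
    exact oEven_of_symp hQ hn h hH (by omega) h4 h6 h7 h9 h10
  · have h3 := h1.card_eq
    have h4 : m < 4 := (Nat.pow_lt_pow_iff_right (a := 2) (by omega)).1 (by omega)
    have h6 : n = 8 := by interval_cases m <;> omega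
    exact h8 h6 (h1.isPlus hQ hI h2 (by omega))
  · have := pow_dims (n := n) (by simpa [hn] using Fintype.card_congr e) h1 h2 (by omega)
    omega
  · by_cases hk : k = 2
    · subst hk
      have h7 : t < 4 := (Nat.pow_lt_pow_iff_right (a := 2) (by omega)).1 (by omega)
      exact h8 (by interval_cases t <;> omega) (h6 rfl)
    · have := pow_dims (hn.symm.trans h4) (by omega) h2 (by omega)
      omega
  · unfold OEven
    iterate 12 right
    exact h1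

end

end Cfsg.Agent.Class.Asch
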