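import Cfsg.Agent.Class.Asch.OTens

/-! Tensor stabilisers that are not maximal in `Ω`. -/

set_option autoImplicit false
set_option linter.unusedSectionVars false

namespace Cfsg.Agent.Class.Asch

open Cfsg.Geo Cfsg.Agent.Class.Orth QuadraticMap Module
open scoped MatrixGroups Matrix Kronecker commutatorElement

variable {ι : Type} [Fintype ι] [DecidableEq ι] {F : Type*} [Field F] [Fintype F]
  {Q : QuadraticForm F (ι → F)}

local notation "𝐚" => adj (RingEquiv.refl F) (polar Q)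

theorem mul_self_mem_omegaGL (hQ : ND Q) (h5 : 5 ≤ Fintype.card ι) {g : GL ι F}
    (hg : g ∈ isometryGroup F ⇑Q) : g * g ∈ omegaGL ⇑Q := by
  obtain ⟨k, rfl⟩ := exists_oGL hg
  rw [← map_mul]
  exact oGL_mem_omegaGL (mul_mem_commutator_of_eq hQ
    (hQ.reflGen (Or.inr (by rw [finrank_fun]; omega))) rfl rfl)

theorem mem_omegaGL_of_even_rank (hQ : ND Q) (h5 : 5 ≤ Fintype.card ι) (h2 : (2 : F) = 0)
    {g : GL ι F} (hg : g ∈ isometryGroup F ⇑Q) (h : Even ((g : Matrix ι ι F) - 1).rank) :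
    g ∈ omegaGL ⇑Q := by
  have hr := hQ.reflGen (Or.inr (by rw [finrank_fun]; omega))
  refine mem_omegaGL.2 ⟨isoEquiv Q Q (fun _ => rfl) ⟨g, hg⟩, ?_, by simp [oGL]⟩
  rw [commutator_eq_ker_dickson hQ hr h2, MonoidHom.mem_ker, dickson_eq_one_iff, ← rank_sub_one_eq]
  exact h

theorem exists_skew_nil (hQ : ND Q) (h5 : 5 ≤ Fintype.card ι) : ∃ N : Matrix ι ι F, N * N = 0 ∧
    N ≠ 0 ∧ ∀ u v, polar Q (N *ᵥ u) v = polar Q u ((-N) *ᵥ v) := by
  obtain ⟨a, a', -, -, h, -⟩ := exists_root_data hQ (by omega)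
  obtain ⟨v, hv, hv0, h1⟩ := exists_singular_mem Q (perp2 Q a a')
    (by have := finrank_perp2_ge (Q := Q) a a'; omega)
  obtain ⟨h3, h4⟩ := mem_perp2.1 hv
  have h6 : ∀ x, (rkO Q v a - rkO Q a v) *ᵥ x = polar Q x a • v - polar Q x v • a := fun x => by
    rw [Matrix.sub_mulVec, rkO_mulVec, rkO_mulVec]
  refine ⟨rkO Q v a - rkO Q a v, ext_mulVec fun x => ?_, fun h0 => hv0 ?_, fun x y => ?_⟩
  · rw [← Matrix.mulVec_mulVec, h6, h6]
    simp [polar_self', h.left, h1, h3, polar_comm _ v a]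
  · have := h6 a'
    rwa [h0, Matrix.zero_mulVec, h4, h.symm.pol, zero_smul, sub_zero, one_smul, eq_comm] at this
  · rw [Matrix.neg_mulVec, h6, h6]
    simp only [polar_sub_left, polar_neg_right, polar_sub_right, polar_smul_left',
      polar_smul_right', polar_comm _ y]
    ring

theorem o_tensor_three_not_max (hq : Fintype.card F = 3) (hQ : ND Q) {l : ℕ} (hl : 5 ≤ l)
    {e : ι ≃ Fin 3 × Fin l} {B : GL ι F} {f₁ : (Fin 3 → F) → (Fin 3 → F) → F}
    {f₂ : (Fin l → F) → (Fin l → F) → F} (h₁ : IsSymmetricForm f₁) (h₂ : IsSymmetricForm f₂)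
    (h : IsTensorFormStructure id (polar Q) f₁ f₂ e B) :
    ∃ K, tensorProductSubgroup 3 l e B ⊓ omegaGL ⇑Q < K ∧ K < omegaGL ⇑Q := by
  have h2 : (2 : F) ≠ 0 := two_ne_zero_of_odd (by rw [hq]; decide)
  have hι : Fintype.card ι = 3 * l := by simpa using Fintype.card_congr e
  have hc := fcq hQ
  have hT := hc.tensForm_of_struct (fc_of_symmetric h₁) (fc_of_symmetric h₂)
    (fun h => absurd rfl h) (fun h => absurd rfl h) h
  obtain ⟨K, hK, x, hx, h3, h4⟩ := commAlg_O3_three' hq h₁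
  obtain ⟨h5, h6⟩ := isNondegenerateQuadraticForm_of_symm h₂.bilinear h₂.symm h₂.nondegenerate h2
  obtain ⟨N, hN, h0, h7⟩ := exists_skew_nil (Max.nd_qfOf h5) (by simpa using hl)
  have h8 := hT.fc₂.adj_unique fun u v => mul_left_cancel₀ h2
    (((h6 _ _).symm.trans (h7 u v)).trans (h6 _ _))
  refine hT.not_max (by omega) hc hK hx h3 hN h0 (qs_omega hQ (by omega))
    ((omegaGL_le _).trans (isometryGroup_le_sim _)) ?_
  have h9 : kronUnip x hN = kronUnip ((2 : F)⁻¹ • x) hN * kronUnip ((2 : F)⁻¹ • x) hN := by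
    refine Units.ext ?_
    change 1 + x ⊗ₖ N = (1 + ((2 : F)⁻¹ • x) ⊗ₖ N) * (1 + ((2 : F)⁻¹ • x) ⊗ₖ N)
    rw [add_mul, mul_add, mul_add, ← Matrix.mul_kronecker_mul, hN, Matrix.kronecker_zero, add_zero,
      one_mul, one_mul, mul_one, add_assoc, ← two_smul F, Matrix.smul_kronecker,
      smul_inv_smul₀ h2]
  rw [h9, map_mul]
  refine mul_self_mem_omegaGL hQ (by omega) (mem_isometryGroup_of_isoG h2
    (hT.kronUnip_mem hc hN ?_))
  rw [hT.fc₁.adj_smul, h4, h8, kron_neg]; rfl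

theorem o_tensor_two_not_max (hq : Fintype.card F = 2) (hQ : ND Q) {l : ℕ} (hl : 3 ≤ l)
    {e : ι ≃ Fin 2 × Fin l} {B : GL ι F} {f₁ : (Fin 2 → F) → (Fin 2 → F) → F}
    {f₂ : (Fin l → F) → (Fin l → F) → F} (h₁ : IsSymplecticForm f₁) (h₂ : IsSymplecticForm f₂)
    (h : IsTensorFormStructure id (polar Q) f₁ f₂ e B) (hp : ∀ x y, Q (trV e B (tens x y)) = 0) :
    ∃ K, tensorProductSubgroup 2 l e B ⊓ omegaGL ⇑Q < K ∧ K < omegaGL ⇑Q := by
  classical
  have hι : Fintype.card ι = 2 * l := by simpa using Fintype.card_congr e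
  have := nonempty_of_two_le (ι := ι) (by omega)
  have hc := fcq hQ
  have hT := hc.tensForm_of_struct (fc_of_symplectic h₁) (fc_of_symplectic h₂)
    (fun h => absurd rfl h) (fun h => absurd rfl h) h
  have c2 := two_eq_zero_of_not_odd (F := F) (by rw [hq]; decide)
  have h2 : (1 : F) + 1 = 0 := by rwa [← one_add_one_eq_two] at c2
  have hn : (-1 : F) = 1 := by linear_combination -h2
  set w := homL e B !![0, 1; 1, 1] with hw0
  have hw : w * w = (1 : F) • w - (1 : F) • 1 := by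
    rw [hw0, ← map_mul, one_smul, one_smul, ← map_one (homL e B), ← map_sub]
    congr 1
    ext i j; fin_cases i <;> fin_cases j <;> simp [Matrix.mul_apply, h2, hn]
  have ha : 𝐚 w = 1 - w := by
    rw [hw0, homL_apply, hT.adj_kron, hT.fc₂.adj_one, adj_symp_two h₁, ← homL_apply, map_sub,
      map_smul, map_one, ← homL_apply]
    simp
  obtain ⟨c, hc0, h3⟩ := hT.exists_tens hc
  have : Nonempty (Fin l) := ⟨⟨0, by omega⟩⟩
  obtain ⟨z', z₁, h4⟩ := hT.fc₂.exists_ne
  obtain ⟨z₂, h5, h6⟩ := Submodule.exists_mem_ne_zero_of_ne_bot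
    (p := hT.fc₂.perp (Submodule.span F {z', z₁})) fun h => by
      have h5 := hT.fc₂.card_le_finrank_add_perp (Submodule.span F {z', z₁})
      have h6 := finrank_span_le_card (R := F) ({z', z₁} : Set (Fin l → F))
      have h7 : ({z', z₁} : Set (Fin l → F)).toFinset.card ≤ 2 := by
        rw [Set.toFinset_insert, Set.toFinset_singleton]; exact Finset.card_le_two
      rw [h, finrank_bot, Fintype.card_fin] at h5
      omega
  have h7 : f₂ z₂ z' = 0 := h5 _ (Submodule.subset_span (by simp))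
  have h8 : f₂ z₂ z₁ = 0 := h5 _ (Submodule.subset_span (by simp))
  have h9 := hT.fc₂.perp_symm h8
  let u := fun a b : Fin 2 → F => trV e B (tens a z₁) + trV e B (tens b z₂)
  have hu : ∀ a b a' b', polar Q (u a b) (u a' b') = 0 := fun a b a' b' => by
    simp only [u, polar_add_left, polar_add_right, h3, h₂.alternating, h8, h9, mul_zero, add_zero]
  have hu' : ∀ a b, Q (u a b) = 0 := fun a b => by
    simp only [u, Q_add, hp, h3, h9, mul_zero, add_zero]
  have hwu : ∀ a b, w *ᵥ u a b = u (!![0, 1; 1, 1] *ᵥ a) (!![0, 1; 1, 1] *ᵥ b) := fun a b => by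
    simp only [u, hw0, homL_apply, Matrix.mulVec_add, tr_mulVec, kron_mulVec_tens,
      Matrix.one_mulVec]
  obtain ⟨v, hv⟩ : ∃ v, v = u ![1, 0] ![0, 1] := ⟨_, rfl⟩
  have hg := eGL_mulVec (Q := Q) (u := v) (v := w *ᵥ v) (hv ▸ hu' _ _) (by rw [hv, hwu, hu])
  rw [show Q (w *ᵥ v) = 0 by rw [hv, hwu, hu']] at hg
  refine exists_between' (M := subalgebraNormalizer (quadAlg _ 1 1 hw))
    (quadAlg_normalizer fun g hg => ?_)
    (omega_not_le_normalizer hQ (by omega) (isFieldSubalgebra_quadAlg fun x => ?_) (by decide))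
    (quadAlg_normalizer (H := setStab {w}) (fun g hg => ?_) (mem_setStab ?_))
    (eGL_mem hQ (by omega) v (w *ᵥ v)) fun h => ?_
  · obtain ⟨a, b, rfl⟩ := mem_tensorProductSubgroup_iff.1 hg.1
    obtain ⟨c, hc⟩ := cj_omega_two hq a
    refine ⟨c, 1, ?_⟩
    rw [hw0, homL_apply, cj_trGL_kron, map_one, ← homL_apply, ← homL_apply, hc, map_add, map_smul,
      map_one, one_smul]
  · rcases eq_zero_or_one_of_card_two hq x with rfl | rfl <;> simp
  · exact ⟨0, 1, by rw [(hg w).1 rfl]; simp⟩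
  · rintro _ rfl
    refine (cj_eq_self_iff _ _).2 (ext_mulVec fun x => ?_)
    rw [← Matrix.mulVec_mulVec, ← Matrix.mulVec_mulVec, hg, hg, hc.adj_spec, hc.adj_spec, ha,
      Matrix.mulVec_sub, Matrix.mulVec_add, Matrix.mulVec_smul, Matrix.mulVec_smul]
    simp only [Matrix.mulVec_mulVec, sub_mul, hw, one_smul, one_mul, sub_sub_cancel,
      Matrix.one_mulVec, Matrix.sub_mulVec, polar_sub_right]
    module
  · obtain ⟨a, b, h⟩ := mem_tensorProductSubgroup_iff.1 h
    have h10 := hg (trV e B (tens ![1, 0] z'))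
    have h11 : f₁ ![1, 0] ![0, 1] ≠ 0 := fun h => by
      have := hT.fc₁.eq_zero_left (v := ![1, 0]) fun y => by
        rw [show y = y 0 • ![1, 0] + y 1 • ![0, 1] by ext i; fin_cases i <;> simp,
          h₁.bilinear.add_right, h₁.bilinear.smul_right, h₁.bilinear.smul_right, h,
          h₁.alternating, mul_zero, mul_zero, add_zero]
      simpa using congrFun this 0
    rw [h, coe_trGL, tr_mulVec, coe_kronGL, kron_mulVec_tens, hv, hwu] at h10
    simp only [u, polar_add_right, h3, hT.fc₂.perp_symm h7, h₁.alternating, mul_zero, zero_mul,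
      add_zero, sub_zero, zero_smul] at h10
    rw [show !![0, 1; 1, 1] *ᵥ ![1, 0] = (![0, 1] : Fin 2 → F) by ext i; fin_cases i <;> simp,
      eq_one_of_card_two hq (mul_ne_zero hc0 (mul_ne_zero h11 h4)), one_smul, ← trV_add,
      ← trV_add] at h10
    have h12 := (trL e B).injective h10
    generalize (a : Matrix (Fin 2) (Fin 2) F) *ᵥ ![1, 0] = a' at h12
    generalize (b : Matrix (Fin l) (Fin l) F) *ᵥ z' = b' at h12
    have h13 : a' 0 • b' = z' + z₁ := funext fun j => by simpa [tens] using congrFun h12 (0, j)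
    have h14 : a' 1 • b' = z₂ := funext fun j => by simpa [tens] using congrFun h12 (1, j)
    have h15 := congrArg (f₂ · z₁) h13
    rw [← h14, h₂.bilinear.smul_left] at h8
    simp only [h₂.bilinear.smul_left, h₂.bilinear.add_left, h₂.alternating, add_zero,
      (mul_eq_zero.1 h8).resolve_left fun h => h6 (by rw [← h14, h, zero_smul]), mul_zero] at h15
    exact h4 h15.symm

omit [Fintype F] in
theorem rank_add_le' (A B : Matrix ι ι F) : (A + B).rank ≤ A.rank + B.rank := by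
  unfold Matrix.rank
  rw [Matrix.mulVecLin_add]
  exact (Submodule.finrank_mono (by
    rintro _ ⟨v, rfl⟩
    exact Submodule.add_mem_sup ⟨v, rfl⟩ ⟨v, rfl⟩)).trans
      (Submodule.finrank_add_le_finrank_add_finrank _ _)

omit [Fintype F] in
theorem card_le_two_mul_rank {z w : Matrix ι ι F} (h : z * w + w * z = 1) :
    Fintype.card ι ≤ 2 * z.rank := by
  have h1 := rank_add_le' (z * w) (w * z)
  have h2 := Matrix.rank_mul_le_left z w
  have h3 := Matrix.rank_mul_le_right w z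
  rw [h, Matrix.rank_one] at h1
  omega

omit [Fintype F] in
theorem FC.powForm_of_struct {σ : F ≃+* F} {ε : F} {f : (ι → F) → (ι → F) → F} (hf : FC σ ε f)
    {k t : ℕ} {e : ι ≃ (Fin t → Fin k)} {B : GL ι F} {ε₁ : F}
    {f₁ : (Fin k → F) → (Fin k → F) → F} (h₁ : FC σ ε₁ f₁) (u₁ : σ ≠ RingEquiv.refl F → ε₁ = 1)
    (h : IsTensorPowerFormStructure σ f f₁ e B) : PowForm σ f e B ε₁ f₁ := by
  obtain ⟨c, -, h⟩ := h
  refine ⟨h₁, u₁, fun i a => ?_⟩
  have h3 : Asch.pull e B f = formOfGram σ (c • pure fun _ => gramMatrix f₁) :=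
    funext₂ fun x y => by rw [frm_smul]; exact h x y
  rw [hf.adj_tr]
  congr 1
  refine (hf.pull e B).adj_unique_gram ?_
  rw [h3, gram_frm, smul_mul_assoc, mul_smul_comm, pure_gram_slot _ i (h₁.gram_adj a)]

section clifford

variable {k t : ℕ} {e : ι ≃ (Fin t → Fin k)} {B : GL ι F} {f₁ : (Fin k → F) → (Fin k → F) → F}

/-- the data of a Clifford-type subspace -/
structure CliffData (f₁ : (Fin k → F) → (Fin k → F) → F)
    (S : Submodule F (Matrix (Fin k) (Fin k) F)) (n : Matrix (Fin k) (Fin k) F) : Prop where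
  inv : ∀ c : GL (Fin k) F, (∀ a, cj c (adj (RingEquiv.refl F) f₁ a) =
    adj (RingEquiv.refl F) f₁ (cj c a)) → ∀ s ∈ S, cj c s ∈ S
  anti : ∀ s ∈ S, ∀ s' ∈ S, ∃ d : F, s * s' + s' * s = d • 1
  rad : ∀ s ∈ S, (∃ c : F, s = c • 1) ∨ ∃ w, s * w + w * s = 1
  one_mem : 1 ∈ S
  mem : n ∈ S
  sq : n * n = 0
  ne : n ≠ 0
  adj_eq : adj (RingEquiv.refl F) f₁ n = n

/-- the sum of the copies of `S` in the tensor factors -/
def slotSum (e : ι ≃ (Fin t → Fin k)) (B : GL ι F) (S : Submodule F (Matrix (Fin k) (Fin k) F)) :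
    Submodule F (Matrix ι ι F) where
  carrier := {z | ∃ s : Fin t → Matrix (Fin k) (Fin k) F, (∀ i, s i ∈ S) ∧
    z = ∑ i, homS e B i (s i)}
  add_mem' := by
    rintro _ _ ⟨s, hs, rfl⟩ ⟨s', hs', rfl⟩
    exact ⟨s + s', fun i => S.add_mem (hs i) (hs' i), by simp [Finset.sum_add_distrib]⟩
  zero_mem' := ⟨0, fun _ => S.zero_mem, by simp⟩
  smul_mem' := by
    rintro c _ ⟨s, hs, rfl⟩
    exact ⟨c • s, fun i => S.smul_mem c (hs i), by simp [Finset.smul_sum]⟩

omit [Fintype F] in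
theorem homS_mem_slotSum {S : Submodule F (Matrix (Fin k) (Fin k) F)} (i : Fin t)
    {s : Matrix (Fin k) (Fin k) F} (hs : s ∈ S) : homS e B i s ∈ slotSum e B S :=
  ⟨Pi.single i s, fun j => by
    rcases eq_or_ne j i with rfl | h
    · simpa using hs
    · simp [h], by
    rw [Finset.sum_eq_single i (fun j _ h => by simp [h]) (by simp), Pi.single_eq_same]⟩

omit [Fintype F] in
theorem homS_comm {i j : Fin t} (h : i ≠ j) (a b : Matrix (Fin k) (Fin k) F) :
    homS e B i a * homS e B j b = homS e B j b * homS e B i a := by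
  rw [homS_apply, homS_apply, ← map_mul, ← map_mul, slot_comm h]

omit [Fintype F] in
theorem sum_homS_anti (h2 : (2 : F) = 0) (s : Fin t → Matrix (Fin k) (Fin k) F) (i : Fin t)
    (w : Matrix (Fin k) (Fin k) F) :
    (∑ j, homS e B j (s j)) * homS e B i w + homS e B i w * ∑ j, homS e B j (s j) =
      homS e B i (s i * w + w * s i) := by
  rw [Finset.sum_mul, Finset.mul_sum, ← Finset.sum_add_distrib, Finset.sum_eq_single i
    (fun j _ h => by rw [homS_comm h, ← two_smul F, h2, zero_smul]) (by simp), map_add, map_mul,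
    map_mul]

theorem o_wreath_not_max (hQ : ND Q) (h2 : (2 : F) = 0) (h9 : 9 ≤ Fintype.card ι)
    (h4 : 4 ∣ Fintype.card ι) (h₁ : IsSymplecticForm f₁)
    (h : PowForm (RingEquiv.refl F) (polar Q) e B (-1) f₁)
    (hp : ∀ xs : Fin t → Fin k → F, Q (trV e B fun a => ∏ i, xs i (a i)) = 0)
    {S : Submodule F (Matrix (Fin k) (Fin k) F)} {n : Matrix (Fin k) (Fin k) F}
    (hS : CliffData f₁ S n) {i j : Fin t} (hij : i ≠ j)
    (hn : (∃ y, n = y + adj (RingEquiv.refl F) f₁ y) ∨ ∃ l, l ≠ i ∧ l ≠ j) :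
    ∃ K, tensorWreathSubgroup k t e B ⊓ omegaGL ⇑Q < K ∧ K < omegaGL ⇑Q := by
  have := nonempty_of_two_le (ι := ι) (by omega)
  have : Nonempty (Fin k) := ⟨e (Classical.arbitrary ι) i⟩
  have hc := fcq hQ
  have hf := polar_symplectic (ndq hQ) h2
  have ha : ∀ i a, 𝐚 (homS e B i a) = homS e B i (adj (RingEquiv.refl F) f₁ a) := h.adj_slot
  have hinj := fun i => algHom_injective (homS e B i)
  have hX : ∀ X : Matrix ι ι F, X + X = 0 := fun X => by rw [← two_smul F, h2, zero_smul]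
  obtain ⟨n', hn'⟩ := (hS.rad n hS.mem).resolve_left fun ⟨c, hc⟩ => by
    have := hS.sq
    rw [hc, smul_mul_smul_comm, mul_one, smul_eq_zero, mul_self_eq_zero] at this
    exact hS.ne (by rw [hc, this.resolve_right one_ne_zero, zero_smul])
  have hnn : n * n' ≠ n' * n := fun h => by
    rw [h, ← two_smul F, h2, zero_smul] at hn'
    exact zero_ne_one hn'
  have h0 : ∀ i, homS e B i n * homS e B i n = 0 := fun i => by rw [← map_mul, hS.sq, map_zero]
  obtain ⟨N, hN⟩ : ∃ N, N = homS e B i n + homS e B j n := ⟨_, rfl⟩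
  have hN1 : N * N = 0 := by
    rw [hN, add_mul, mul_add, mul_add, h0, h0, zero_add, add_zero, homS_comm hij, hX]
  have hN2 : N * homS e B i n' + homS e B i n' * N = 1 := by
    rw [hN, add_mul, mul_add, add_add_add_comm, homS_comm hij, hX, add_zero, ← map_mul, ← map_mul,
      ← map_add, hn', map_one]
  have hN3 : (1 + N) * (1 + N) = 1 := by
    rw [add_mul, mul_add, mul_add, hN1, one_mul, one_mul, mul_one, add_zero, add_assoc, hX,
      add_zero]
  let x : GL ι F := ⟨1 + N, 1 + N, hN3, hN3⟩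
  have hx : ∀ y, cj x y = (1 + N) * y * (1 + N) := fun _ => rfl
  have hL : 1 + N ∈ slotSum e B S := by
    rw [hN, ← map_one (homS e B i)]
    exact Submodule.add_mem _ (homS_mem_slotSum i hS.one_mem)
      (Submodule.add_mem _ (homS_mem_slotSum i hS.mem) (homS_mem_slotSum j hS.mem))
  have hanti : ∀ y ∈ slotSum e B S, ∀ z ∈ slotSum e B S, ∃ d : F, y * z + z * y = d • 1 := by
    rintro _ ⟨s, hs, rfl⟩ _ ⟨s', hs', rfl⟩
    choose d hd using fun l => hS.anti _ (hs l) _ (hs' l)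
    refine ⟨∑ l, d l, ?_⟩
    rw [Finset.mul_sum, Finset.sum_mul _ (fun l => homS e B l (s' l)), ← Finset.sum_add_distrib,
      Finset.sum_smul]
    exact Finset.sum_congr rfl fun l _ => by rw [sum_homS_anti h2, hd, map_smul, map_one]
  have halt : ∀ {l : Fin t} {Y} (y), 𝐚 Y = Y → (∀ b, Y * homS e B l b = homS e B l b * Y) →
      ∀ v, polar Q ((Y * homS e B l (y + adj (RingEquiv.refl F) f₁ y)) *ᵥ v) v = 0 :=
    fun {l Y} y h3 h5 v => by
      rw [map_add, mul_add, h5 (adj _ _ _), ← ha, ← qOf_add_adj h2 hf (Y * homS e B l y) v,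
        hc.adj_mul, h3]
  obtain ⟨ω, hω⟩ := exists_omega h₁
  have h5 : ∀ {l l' : Fin t}, l ≠ l' → ∀ v, polar Q v (homS e B l n *ᵥ v) = 0 := fun h v => by
    have := halt ω (by rw [ha, hS.adj_eq]) (homS_comm h n) v
    rwa [hω, map_one, mul_one, polar_comm] at this
  have h6 : ∀ l v, Q (homS e B l n *ᵥ v) = 0 := fun l v => by
    obtain ⟨y, rfl⟩ := (trL e B).surjective v
    induction y using Pi.single_induction with
    | zero => simp
    | add y z hy hz =>
      rw [map_add, Matrix.mulVec_add, Q_add, hy, hz, hc.adj_spec, ha, hS.adj_eq,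
        Matrix.mulVec_mulVec, h0, Matrix.zero_mulVec, polar_zero_right, add_zero, add_zero]
    | single a c =>
      rw [← mul_one c, ← smul_eq_mul, Pi.single_smul, map_smul, Matrix.mulVec_smul, Q_smul,
        trL_apply, homS_apply, tr_mulVec, Matrix.mulVec_single_one]
      exact mul_eq_zero_of_right _ (hp fun l' r => Pi.mulSingle (M := fun _ => Matrix _ _ F)
        l n l' r (a l'))
  have h7 : ∀ v, polar Q (homS e B i n *ᵥ v) (homS e B j n *ᵥ v) = 0 := fun v => by
    rw [hc.adj_spec', ha, hS.adj_eq, Matrix.mulVec_mulVec]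
    rcases hn with ⟨y, hy⟩ | ⟨l, hl, hl'⟩
    · nth_rw 2 [hy]
      exact halt y (by rw [ha, hS.adj_eq]) (homS_comm hij.symm n) v
    · have := halt (Y := homS e B j n * homS e B i n) ω
        (by rw [hc.adj_mul, ha, ha, hS.adj_eq, homS_comm hij]) (fun b => by
          rw [mul_assoc, homS_comm hl.symm, ← mul_assoc, homS_comm hl'.symm, mul_assoc]) v
      rwa [hω, map_one, mul_one] at this
  refine exists_between' (M := setStab (slotSum e B S)) (g := x) (fun g hg => mem_setStab ?_)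
    (fun hle => ?_) (mem_setStab fun y hy => ?_) (mem_omegaGL_of_even_rank hQ (by omega) h2
      (mem_isometryGroup.2 fun v => ?_) ?_) fun hg => ?_
  · rintro _ ⟨s, hs, rfl⟩
    rw [map_sum]
    refine Submodule.sum_mem _ fun l _ => ?_
    obtain ⟨l', c, h8⟩ := slot_perm_of_mem hg.1 l
    simp only [← homS_apply] at h8
    rw [h8]
    refine homS_mem_slotSum l' (hS.inv c (fun a => hinj l' ?_) _ (hs l))
    rw [← h8, ← ha, ← ha, ← h8, hc.adj_cj (isometryGroup_le_sim _ (omegaGL_le _ hg.2))]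
  · obtain ⟨g, hg, h8, W, h10, h11⟩ := hasRoot_omega hQ (by omega)
    refine h8 ((qs_omega hQ (by omega)).mem_scalars_of_centralizes (by omega) (slotSum e B S)
      (fun g hg y hy => (hle hg y).1 hy) ⟨_, homS_mem_slotSum i hS.mem, fun ⟨c, h⟩ => hnn ?_⟩ hg
      fun y hy => ?_)
    · refine hinj i ?_
      rw [map_mul, map_mul, h, smul_mul_assoc, mul_smul_comm, one_mul, mul_one]
    have h12 : ((g : Matrix ι ι F) - 1).rank ≤ 2 := by
      have h12 := LinearMap.finrank_range_add_finrank_ker ((g : Matrix ι ι F) - 1).mulVecLin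
      have h13 := Submodule.finrank_mono (show W ≤ LinearMap.ker
        ((g : Matrix ι ι F) - 1).mulVecLin from fun w hw => by
          simp [Matrix.sub_mulVec, h10 w hw])
      rw [finrank_fun] at h12
      unfold Matrix.rank
      omega
    have h13 : (cj g y - y).rank ≤ 4 := by
      rw [show cj g y - y = ((g : Matrix ι ι F) - 1) * (y * ↑g⁻¹) +
        (-y) * (((g : Matrix ι ι F) - 1) * ↑g⁻¹) by
          simp [cj_apply, add_mul, mul_add, mul_assoc, sub_eq_add_neg, add_assoc]]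
      exact (rank_add_le' _ _).trans (add_le_add ((Matrix.rank_mul_le_left _ _).trans h12)
        ((Matrix.rank_mul_le_right _ _).trans ((Matrix.rank_mul_le_left _ _).trans h12)))
    obtain ⟨s, hs, h14⟩ := (slotSum e B S).sub_mem ((hle hg y).1 hy) hy
    by_cases h15 : ∀ l, ∃ c : F, s l = c • 1
    · choose c h15 using h15
      simp only [h15, map_smul, map_one, ← Finset.sum_smul] at h14
      rw [← sub_eq_zero, h14]
      by_contra h16
      rw [h14, Matrix.rank_of_det_ne_zero (by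
        rw [Matrix.det_smul, Matrix.det_one, mul_one]
        exact pow_ne_zero _ fun h => h16 (by rw [h, zero_smul]))] at h13
      omega
    · push Not at h15
      obtain ⟨l, h15⟩ := h15
      obtain ⟨w, hw⟩ := (hS.rad _ (hs l)).resolve_left fun ⟨c, hc⟩ => h15 c hc
      have h16 := sum_homS_anti (e := e) (B := B) h2 s l w
      rw [hw, map_one, ← h14] at h16
      have := card_le_two_mul_rank h16
      omega
  · obtain ⟨d, hd⟩ := hanti _ hL _ hy
    rw [hx, eq_sub_of_add_eq hd, sub_mul, mul_assoc, hN3, mul_one, smul_mul_assoc, one_mul]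
    exact Submodule.sub_mem _ (Submodule.smul_mem _ _ hL) hy
  · change Q ((1 + N) *ᵥ v) = _
    rw [hN, Matrix.add_mulVec, Matrix.add_mulVec, Matrix.one_mulVec, Q_add, Q_add, h6, h6, h7,
      polar_add_right, h5 hij, h5 hij.symm]
    simp
  · change Even (1 + N - 1).rank
    rw [add_sub_cancel_left]
    have h8 := card_le_two_mul_rank hN2
    have h10 := Matrix.rank_add_rank_le_card_of_mul_eq_zero hN1
    obtain ⟨m, hm⟩ := h4
    exact ⟨m, by omega⟩
  · obtain ⟨l, c, h8⟩ := slot_perm_of_mem hg i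
    have h10 := h8 n'
    have h11 : (1 + N) * homS e B i n' = 1 + homS e B i n' * (1 + N) := by
      rw [add_mul, mul_add, one_mul, mul_one, eq_sub_of_add_eq hN2, sub_eq_add_neg,
        neg_eq_of_add_eq_zero_left (hX _)]
      abel
    rw [← homS_apply, ← homS_apply, hx, h11, add_mul, mul_assoc, hN3, one_mul, mul_one, hN] at h10
    rcases eq_or_ne l j with rfl | hl
    · have h12 := homS_comm (e := e) (B := B) hij n (cj c n')
      simp only [← h10, mul_add, add_mul, homS_comm hij n n, mul_one, one_mul, add_right_inj,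
        ← map_mul] at h12
      exact hnn (hinj i h12)
    · have h12 := homS_comm (e := e) (B := B) hl (cj c n') n'
      simp only [← h10, mul_add, add_mul, homS_comm hij, mul_one, one_mul, add_left_inj,
        add_right_inj, ← map_mul] at h12
      exact hnn (hinj j h12)

omit [Fintype F] in
theorem cliffData_two (h2 : (2 : F) = 0) {f₁ : (Fin 2 → F) → (Fin 2 → F) → F}
    (h₁ : IsSymplecticForm f₁) :
    CliffData f₁ (LinearMap.ker (Matrix.traceLinearMap (Fin 2) F F)) !![0, 1; 0, 0] := by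
  have h0 : ∀ s ∈ LinearMap.ker (Matrix.traceLinearMap (Fin 2) F F), s 1 1 = -s 0 0 :=
    fun s hs => by
      have : s.trace = 0 := hs
      rw [Matrix.trace_fin_two] at this
      linear_combination this
  have hn : (-1 : F) = 1 := by linear_combination -h2
  refine ⟨fun c _ s hs => (trace_cj c s).trans hs, fun s hs s' hs' =>
    ⟨2 * s 0 0 * s' 0 0 + s 0 1 * s' 1 0 + s 1 0 * s' 0 1, ?_⟩, fun s hs => ?_, by simpa using h2,
    by simp [Matrix.trace_fin_two], by ext i j; fin_cases i <;> fin_cases j <;> simp, fun h => by simpa using congrFun₂ h 0 1, ?_⟩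
  · ext i j
    fin_cases i <;> fin_cases j <;> simp [Matrix.mul_apply, h0 s hs, h0 s' hs'] <;> ring
  · by_cases hb : s 0 1 = 0
    · by_cases hc : s 1 0 = 0
      · refine Or.inl ⟨s 0 0, ?_⟩
        ext i j
        fin_cases i <;> fin_cases j <;> simp [h0 s hs, hb, hc]
        rw [neg_eq_neg_one_mul, hn, one_mul]
      · refine Or.inr ⟨!![0, (s 1 0)⁻¹; 0, 0], ?_⟩
        ext i j
        fin_cases i <;> fin_cases j <;> simp [Matrix.mul_apply, -Matrix.cons_mul, h0 s hs, hc, mul_comm]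
    · refine Or.inr ⟨!![0, 0; (s 0 1)⁻¹, 0], ?_⟩
      ext i j
      fin_cases i <;> fin_cases j <;> simp [Matrix.mul_apply, -Matrix.cons_mul, h0 s hs, hb, mul_comm]
  · rw [adj_symp_two h₁]
    ext i j
    fin_cases i <;> fin_cases j <;> simp [hn]

omit [Fintype F] in
theorem exists_tr_G4 {f : (Fin 4 → F) → (Fin 4 → F) → F} (hf : IsSymplecticForm f) :
    ∃ (e : Fin 4 ≃ Fin 4) (B : GL (Fin 4) F),
      ∀ X, adj (RingEquiv.refl F) f (tr e B X) = tr e B (ad4 X) := by
  have hc := fc_of_symplectic hf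
  obtain ⟨m, b, hm, h1, h2, h3⟩ := exists_symplectic_basis (Max.bilOf hf.bilinear) hf.alternating
    (Max.nondeg_of hf.nondegenerate).1
  obtain rfl : m = 2 := by simp at hm; omega
  change ∀ i j, f _ _ = _ at h1 h2 h3
  obtain ⟨e, B, -, h⟩ := hc.exists_tr_of_gram (κ := Fin 4) rfl
    ![b (.inl 0), b (.inr 0), b (.inl 1), b (.inr 1)] (G := G4 F) (fun a c => by
      fin_cases a <;> fin_cases c <;> simp [G4, h1, h2, h3, hf.skew (b (.inr _)) (b (.inl _))])
    (Matrix.det_ne_zero_of_right_inverse (B := -G4 F) (by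
      ext a c; fin_cases a <;> fin_cases c <;> simp [G4, Matrix.mul_apply, Fin.sum_univ_four]))
  exact ⟨e, B, fun X => by rw [hc.adj_tr, adj_G4 _ (hc.pull e B) h]⟩

omit [Fintype F] in
theorem add_ad4 {y : Matrix (Fin 4) (Fin 4) F} (h : y.trace = 0) : ∃ α a b c d : F,
    y + ad4 y = !![α, 0, a, b; 0, α, c, d; d, -b, -α, 0; -c, a, 0, -α] := by
  refine ⟨y 0 0 + y 1 1, y 0 2 + y 3 1, y 0 3 - y 2 1, y 1 2 - y 3 0, y 1 3 + y 2 0, ?_⟩
  have h1 : y 3 3 = -(y 0 0 + y 1 1 + y 2 2) := by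
    rw [Matrix.trace, Fin.sum_univ_four] at h
    simp only [Matrix.diag] at h
    linear_combination h
  ext i j
  fin_cases i <;> fin_cases j <;> simp [ad4, h1] <;> ring

omit [Fintype F] in
theorem cliffData_four (h2 : (2 : F) = 0) {f₁ : (Fin 4 → F) → (Fin 4 → F) → F}
    (h₁ : IsSymplecticForm f₁) : ∃ S y, CliffData f₁ S (y + adj (RingEquiv.refl F) f₁ y) := by
  have hc := fc_of_symplectic h₁
  obtain ⟨e, B, h⟩ := exists_tr_G4 h₁
  let S : Submodule F (Matrix (Fin 4) (Fin 4) F) :=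
    { carrier := {s | ∃ y, y.trace = 0 ∧ s = y + adj (RingEquiv.refl F) f₁ y}
      add_mem' := by
        rintro _ _ ⟨y, hy, rfl⟩ ⟨z, hz, rfl⟩
        exact ⟨y + z, by rw [Matrix.trace_add, hy, hz, add_zero], by rw [hc.adj_add]; abel⟩
      zero_mem' := ⟨0, by simp, by rw [hc.adj_zero, add_zero]⟩
      smul_mem' := by
        rintro c _ ⟨y, hy, rfl⟩
        exact ⟨c • y, by simp [hy], by rw [hc.adj_smul, smul_add]; rfl⟩ }
  have h3 : ∀ s ∈ S, ∃ α a b c d : F,
      s = tr e B !![α, 0, a, b; 0, α, c, d; d, -b, -α, 0; -c, a, 0, -α] := by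
    rintro _ ⟨y, hy, rfl⟩
    obtain ⟨y, rfl⟩ := (tr e B).surjective y
    rw [trace_tr] at hy
    obtain ⟨α, a, b, c, d, h3⟩ := add_ad4 hy
    exact ⟨α, a, b, c, d, by rw [h, ← map_add, h3]⟩
  have h5 : ∀ α a b c d α' a' b' c' d' : F,
      tr e B !![α, 0, a, b; 0, α, c, d; d, -b, -α, 0; -c, a, 0, -α] *
        tr e B !![α', 0, a', b'; 0, α', c', d'; d', -b', -α', 0; -c', a', 0, -α'] +
      tr e B !![α', 0, a', b'; 0, α', c', d'; d', -b', -α', 0; -c', a', 0, -α'] *
        tr e B !![α, 0, a, b; 0, α, c, d; d, -b, -α, 0; -c, a, 0, -α] =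
      (2 * α * α' + a * d' + a' * d - b * c' - b' * c) • 1 := by
    intro α a b c d α' a' b' c' d'
    rw [← map_mul (tr e B), ← map_mul (tr e B), ← map_add, ← map_one (tr e B), ← map_smul]
    congr 1
    ext i j
    fin_cases i <;> fin_cases j <;> simp <;> ring
  have hn : (-1 : F) = 1 := by linear_combination -h2
  have h4 : tr e B (Matrix.single 0 3 1) + adj (RingEquiv.refl F) f₁ (tr e B (Matrix.single 0 3 1))
      = tr e B !![0, 0, 0, 1; 0, 0, 0, 0; 0, -1, 0, 0; 0, 0, 0, 0] := by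
    rw [h, ← map_add]
    congr 1
    ext i j
    fin_cases i <;> fin_cases j <;> simp [ad4]
  refine ⟨S, tr e B (Matrix.single 0 3 1), ?_, fun s hs s' hs' => ?_, fun s hs => ?_,
    ⟨tr e B (Matrix.diagonal ![1, 0, 1, 0]), ?_, ?_⟩, ⟨_, by simp [trace_tr], rfl⟩, ?_, fun h6 => ?_,
    by rw [hc.adj_add, hc.adj_adj, add_comm]⟩
  · rintro c hc _ ⟨y, hy, rfl⟩
    exact ⟨cj c y, by rw [trace_cj, hy], by rw [map_add, hc]⟩
  · obtain ⟨α, a, b, c, d, rfl⟩ := h3 s hs
    obtain ⟨α', a', b', c', d', rfl⟩ := h3 s' hs'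
    exact ⟨_, h5 ..⟩
  · obtain ⟨α, a, b, c, d, rfl⟩ := h3 s hs
    by_cases ha : a = 0
    swap
    · exact Or.inr ⟨_, (h5 α a b c d 0 0 0 0 a⁻¹).trans (by simp [ha])⟩
    by_cases hb : b = 0
    swap
    · exact Or.inr ⟨_, (h5 α a b c d 0 0 0 (-b⁻¹) 0).trans (by simp [hb])⟩
    by_cases hc : c = 0
    swap
    · exact Or.inr ⟨_, (h5 α a b c d 0 0 (-c⁻¹) 0 0).trans (by simp [hc])⟩
    by_cases hd : d = 0
    swap
    · exact Or.inr ⟨_, (h5 α a b c d 0 d⁻¹ 0 0 0).trans (by simp [hd])⟩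
    refine Or.inl ⟨α, ?_⟩
    rw [← map_one (tr e B), ← map_smul, neg_eq_neg_one_mul α, hn]
    congr 1
    ext i j
    fin_cases i <;> fin_cases j <;> simp [ha, hb, hc, hd]
  · rw [trace_tr]
    simpa [Fin.sum_univ_four, one_add_one_eq_two] using h2
  · rw [h, ← map_add, ← map_one (tr e B)]
    congr 1
    ext i j
    fin_cases i <;> fin_cases j <;> simp [ad4]
  · rw [h4, ← map_mul (tr e B), ← map_zero (tr e B)]
    congr 1
    ext i j
    fin_cases i <;> fin_cases j <;> simp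
  · rw [h4, map_eq_zero_iff _ (tr e B).injective] at h6
    simpa using congrFun₂ h6 0 3

theorem o_symp_wreath_not_max (hQ : ND Q) (h2 : (2 : F) = 0) (h9 : 9 ≤ Fintype.card ι)
    (ht : 2 ≤ t) (hk : k ≤ 4) (h₁ : IsSymplecticForm f₁)
    (h : IsTensorPowerFormStructure id (polar Q) f₁ e B)
    (hp : ∀ xs : Fin t → Fin k → F, Q (trV e B fun a => ∏ i, xs i (a i)) = 0) :
    ∃ K, tensorWreathSubgroup k t e B ⊓ omegaGL ⇑Q < K ∧ K < omegaGL ⇑Q := by
  have hι : Fintype.card ι = k ^ t := by simpa using Fintype.card_congr e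
  have hT := (fcq hQ).powForm_of_struct (fc_of_symplectic h₁) (fun h => absurd rfl h) h
  have he : Even k := by simpa using even_card_of_symplectic h₁
  have h4 : 4 ∣ Fintype.card ι :=
    hι ▸ (pow_dvd_pow_of_dvd he.two_dvd 2).trans (pow_dvd_pow k ht)
  have h01 : (⟨0, by omega⟩ : Fin t) ≠ ⟨1, by omega⟩ := by simp
  obtain rfl | rfl | rfl : k = 0 ∨ k = 2 ∨ k = 4 := by obtain ⟨m, rfl⟩ := he; omega
  · rw [zero_pow (by omega)] at hι; omega
  · have : t ≠ 2 := by rintro rfl; omega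
    exact o_wreath_not_max hQ h2 h9 h4 h₁ hT hp (cliffData_two h2 h₁) h01
      (Or.inr ⟨⟨2, by omega⟩, by simp, by simp⟩)
  · obtain ⟨S, y, hS⟩ := cliffData_four h2 h₁
    exact o_wreath_not_max hQ h2 h9 h4 h₁ hT hp hS h01 (Or.inl ⟨y, rfl⟩)

end clifford

end Cfsg.Agent.Class.Asch
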