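import Cfsg.Agent.Class.Asch.OType

/-! The alternatives for subgroups of orthogonal groups with the small exceptions removed. -/

set_option autoImplicit false
set_option linter.unusedSectionVars false

namespace Cfsg.Agent.Class.Asch

open Cfsg.Geo Cfsg.Agent.Class.Orth QuadraticMap Module
open scoped MatrixGroups Matrix Kronecker commutatorElement

variable {ι : Type} [Fintype ι] [DecidableEq ι] {F : Type*} [Field F] [Fintype F]
  {Q : QuadraticForm F (ι → F)} {H : Subgroup (GL ι F)}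

/-- An orthogonal decomposition whose stabiliser does not lie in another geometric subgroup. -/
structure GoodDec (Q : QuadraticForm F (ι → F)) {t : ℕ} (k : ℕ)
    (D : Fin t → Submodule F (ι → F)) : Prop where
  dec : IsOrthogonalMDecomposition ⇑Q k D
  one : k = 1 → (Fintype.card F).Prime
  three : Fintype.card F = 3 → k = 1 ∨ 4 ≤ k
  two : k = 2 → ∀ i, IsPlusTypeOn ⇑Q (D i) → 7 ≤ Fintype.card F
  four : k = 4 → ∀ i, IsPlusTypeOn ⇑Q (D i) → 3 ≤ Fintype.card F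

/-- A good decomposition or a subfield structure. -/
def DecOrSub (Q : QuadraticForm F (ι → F)) (H : Subgroup (GL ι F)) : Prop :=
  (∃ (t k : ℕ) (D : Fin t → Submodule F (ι → F)), GoodDec Q k D ∧ H ≤ decompositionStabilizer D) ∨
  ∃ (F₀ : Subfield F) (r : ℕ) (B : GL ι F), r.Prime ∧ Fintype.card F = Nat.card F₀ ^ r ∧
    OSub Q H F₀ B

theorem decOrSub_of_rigid (hQ : ND Q) (hI : H ≤ isometryGroup F ⇑Q) {t k l : ℕ}
    {D : Fin t → Submodule F (ι → F)} (hD : IsOrthogonalMDecomposition ⇑Q k D)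
    (hle : H ≤ decompositionStabilizer D) {i : Fin t} (hi : Rigid (Q.comp (D i).subtype) l) :
    DecOrSub Q H := by
  obtain ⟨c, b, h1, -, h2⟩ := IsOrthogonalMDecomposition.exists_frame hD hi
  have h3 : 2 ≤ Fintype.card ι := by
    have := hD.decomp.decomp.two_le
    have := hD.decomp.decomp.pos
    rw [IsMDecomposition.card_eq' hD.decomp.decomp]; nlinarith
  by_cases hq : (Fintype.card F).Prime
  · obtain ⟨D', h4, h5⟩ := h1.exists_dec rfl h3
    exact Or.inl ⟨_, 1, D', ⟨h4, fun _ => hq, fun _ => Or.inl rfl, by simp, by simp⟩,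
      fun g hg => h5 g (h2 g ⟨hle hg, hI hg⟩)⟩
  · have := nonempty_of_two_le h3
    obtain ⟨F₀, r, h4, h5⟩ := exists_subfield_of_not_prime hq
    obtain ⟨B, h6⟩ := h1.oSub hQ hI (fun g hg => h2 g ⟨hle hg, hI hg⟩) F₀
    exact Or.inr ⟨F₀, r, B, h4, h5, h6⟩

theorem decOrSub (hQ : ND Q) (hI : H ≤ isometryGroup F ⇑Q) (hH : Irr H) {t k : ℕ}
    {D : Fin t → Submodule F (ι → F)} (hD : IsOrthogonalMDecomposition ⇑Q k D)
    (hle : H ≤ decompositionStabilizer D) : DecOrSub Q H := by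
  have ht := hD.decomp.decomp.two_le
  have hk := hD.decomp.decomp.pos
  have hq : 1 < Fintype.card F := Fintype.one_lt_card
  let i : Fin t := ⟨0, by omega⟩
  have h1 := (ndon_of_nd (hD.decomp.nondegenerate i)).nd_comp
  have h2 := hD.decomp.decomp.finrank_eq i
  by_cases k1 : k = 1
  · subst k1
    exact decOrSub_of_rigid hQ hI hD hle (rigid_one h1 h2)
  by_cases k3 : k = 3 ∧ Fintype.card F = 3
  · obtain ⟨rfl, hF⟩ := k3
    exact decOrSub_of_rigid hQ hI hD hle (rigid_three_three hF h1 h2)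
  by_cases hp : IsPlusTypeOn ⇑Q (D i)
  swap
  · by_cases k2 : k = 2 ∧ Fintype.card F = 3
    · obtain ⟨rfl, hF⟩ := k2
      exact decOrSub_of_rigid hQ hI hD hle (rigid_three_two hF h1 h2 (by rwa [← isPlusTypeOn_iff]))
    exact Or.inl ⟨t, k, D, ⟨hD, fun h => absurd h k1, fun _ => by omega,
      fun _ j h => absurd (IsOrthogonalMDecomposition.isPlus_all hD h i) hp,
      fun _ j h => absurd (IsOrthogonalMDecomposition.isPlus_all hD h i) hp⟩, hle⟩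
  by_cases k4 : k = 4 ∧ Fintype.card F = 2
  · obtain ⟨rfl, hF⟩ := k4
    obtain ⟨D', h3, h4, h5, -⟩ := fours_two hQ hF hD hp rfl
    exact Or.inl ⟨_, 2, D', ⟨h3, by simp, by omega, fun _ j h => absurd h (h4 j), by simp⟩,
      (le_inf hle hI).trans h5⟩
  by_cases k2 : k = 2 ∧ Fintype.card F < 7
  swap
  · exact Or.inl ⟨t, k, D, ⟨hD, fun h => absurd h k1, fun _ => by omega, fun _ _ _ => by omega,
      fun _ _ _ => by omega⟩, hle⟩
  obtain ⟨rfl, hF⟩ := k2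
  have := card_ne_six (F := F)
  obtain hF | hF | hF : Fintype.card F ≤ 3 ∨ Fintype.card F = 4 ∨ Fintype.card F = 5 := by omega
  · obtain ⟨U, h3, h4, h5, -⟩ := planes_le_three hQ hF hD hp
    exact absurd ((le_inf hle hI).trans h5) (hH.not_le_stabilizer h3 h4)
  · obtain ⟨F₀, r, h3, h4⟩ := exists_subfield_of_not_prime (F := F) (by rw [hF]; decide)
    obtain ⟨B, ⟨ζ, h5, h6, h7⟩, -⟩ := planes_four hQ hF hD hp F₀
    exact Or.inr ⟨F₀, r, B, h3, h4, ζ, h5, h6, (le_inf hle hI).trans h7⟩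
  · exact decOrSub_of_rigid hQ hI hD hle (rigid_five_two hF h1 h2 ((isPlusTypeOn_iff _).1 hp))

/-- The reduced alternatives for a reducible group. -/
def ORedu (Q : QuadraticForm F (ι → F)) (H : Subgroup (GL ι F)) : Prop :=
  (∃ W : Submodule F (ι → F), W ≠ ⊥ ∧ IsTotallySingularQuad ⇑Q W ∧ Inv H W) ∨
  (∃ W : Submodule F (ι → F), W ≠ ⊥ ∧ 2 * finrank F W ≤ Fintype.card ι ∧
    IsNondegenerateOn (polar Q) W ∧
    (finrank F W = 2 → IsPlusTypeOn ⇑Q W → 4 ≤ Fintype.card F) ∧ Inv H W) ∨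
  (¬ Odd (Fintype.card F) ∧ ∃ v, Q v ≠ 0 ∧ Inv H (Submodule.span F {v}))

/-- The reduced alternatives for an irreducible group. -/
def OIrr' (Q : QuadraticForm F (ι → F)) (H : Subgroup (GL ι F)) : Prop :=
  DecOrSub Q H ∨
  (∃ (m : ℕ) (D : Fin 2 → Submodule F (ι → F)), IsMDecomposition m D ∧
    (∀ i, IsTotallySingularQuad ⇑Q (D i)) ∧ H ≤ decompositionStabilizer D) ∨
  (∃ (r : ℕ) (K : Subalgebra F (Matrix ι ι F)), AdjField (RingEquiv.refl F) (polar Q) H r K ∧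
    Fintype.card ι ≠ r) ∨
  (Odd (Fintype.card F) ∧ ∃ (k l : ℕ) (e : ι ≃ Fin k × Fin l) (B : GL ι F)
    (f₁ : (Fin k → F) → (Fin k → F) → F) (f₂ : (Fin l → F) → (Fin l → F) → F), 3 ≤ k ∧ k ≤ l ∧
    (k = l → Even k) ∧ ¬ (Fintype.card F = 3 ∧ k = 3) ∧ IsSymmetricForm f₁ ∧ IsSymmetricForm f₂ ∧
    TensForm (RingEquiv.refl F) (polar Q) e B 1 1 f₁ f₂ ∧ H ≤ tensorProductSubgroup k l e B) ∨
  (∃ (k l : ℕ) (e : ι ≃ Fin k × Fin l) (B : GL ι F)
    (f₁ : (Fin k → F) → (Fin k → F) → F) (f₂ : (Fin l → F) → (Fin l → F) → F), 2 ≤ k ∧ k ≤ l ∧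
    ¬ (Fintype.card F = 2 ∧ k = 2) ∧ IsSymplecticForm f₁ ∧ IsSymplecticForm f₂ ∧
    TensForm (RingEquiv.refl F) (polar Q) e B (-1) (-1) f₁ f₂ ∧
    (∀ x y, Q (trV e B (tens x y)) = 0) ∧ H ≤ tensorProductSubgroup k l e B) ∨
  (∃ m R, ExtraData H 2 m R ∧ Nat.card (Subgroup.center R) = 2) ∨
  (Odd (Fintype.card F) ∧ ∃ (k t : ℕ) (e : ι ≃ (Fin t → Fin k)) (B : GL ι F)
    (f₁ : (Fin k → F) → (Fin k → F) → F), 3 ≤ k ∧ 2 ≤ t ∧ ¬ (Fintype.card F = 3 ∧ k = 3) ∧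
    IsSymmetricForm f₁ ∧ IsTensorPowerFormStructure id (polar Q) f₁ e B ∧
    H ≤ tensorWreathSubgroup k t e B) ∨
  (∃ k t : ℕ, 2 ≤ k ∧ 2 ≤ t ∧ Even k ∧ Fintype.card ι = k ^ t ∧ (k = 2 → IsPlusTypeOn ⇑Q ⊤)) ∨
  InOrthogonalResidualClass H

theorem oRedu_of_nd (hQ : ND Q) (hI : H ≤ isometryGroup F ⇑Q)
    {W : Submodule F (ι → F)} (h0 : W ≠ ⊥) (h1 : W ≠ ⊤) (hW : IsNondegenerateOn (polar Q) W)
    (hi : Inv H W) : ORedu Q H := by
  have hc := fcq hQ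
  wlog h2 : 2 * finrank F W ≤ Fintype.card ι generalizing W
  · have h4 := hc.finrank_add_perp hW
    exact this (hc.perp_ne_bot hW h1) (hc.perp_ne_top hW h0) (hc.nd_perp hW)
      (hc.inv_perp (hI.trans (isometryGroup_le_sim _)) hi) (by omega)
  by_cases h4 : finrank F W = 2 → IsPlusTypeOn ⇑Q W → 4 ≤ Fintype.card F
  · exact Or.inr <| Or.inl ⟨W, h0, h2, hW, h4, hi⟩
  push Not at h4
  obtain ⟨v, h5, h6⟩ := exists_vec_of_plane (by omega) hW h4.1 h4.2.1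
  have h7 := inv_of_le_stabilizer ((le_inf hi.le_stabilizer hI).trans h6)
  by_cases hq : Odd (Fintype.card F)
  swap
  · exact Or.inr <| Or.inr ⟨hq, v, by rw [h5]; exact one_ne_zero, h7⟩
  have h8 : v ≠ 0 := by rintro rfl; simp at h5
  have h9 := finrank_span_singleton (K := F) h8
  refine Or.inr <| Or.inl ⟨_, by simpa using h8, by omega, nd_of_ndon fun x hx h => ?_,
    by omega, h7⟩
  obtain ⟨c, rfl⟩ := Submodule.mem_span_singleton.1 hx
  have := h v (Submodule.mem_span_singleton_self v)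
  rw [polar_smul_left', polar_self', h5, mul_one] at this
  rw [(mul_eq_zero.1 this).resolve_right (QF.two_ne_zero_of_odd_card hq), zero_smul]

theorem oIrr'_of_comm (hQ : ND Q) (hI : H ≤ isometryGroup F ⇑Q) (hH : Irr H) (h : OComm Q H) :
    OIrr' Q H := by
  rcases h with ⟨t, k, D, h⟩ | h | h
  · exact Or.inl (decOrSub hQ hI hH (h.orth hI) h.le)
  · exact Or.inr <| Or.inl h
  · exact Or.inr <| Or.inr <| Or.inl h

theorem oRed (hQ : ND Q) (h3 : 3 ≤ Fintype.card ι) (hI : H ≤ isometryGroup F ⇑Q) :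
    ORedu Q H ∨ Irr H ∧ OIrr' Q H := by
  have := nonempty_of_two_le (ι := ι) (by omega)
  rcases oAlt hQ h3 hI with h | ⟨W, h0, h1, h2, h⟩ | ⟨h2, h⟩ | ⟨hH, h⟩
  · exact Or.inl <| Or.inl h
  · exact Or.inl (oRedu_of_nd hQ hI h0 h1 h2 h)
  · exact Or.inl <| Or.inr <| Or.inr ⟨fun h4 => QF.two_ne_zero_of_odd_card h4 h2, h⟩
  refine Or.inr ⟨hH, ?_⟩
  rcases h with h | h | h | ⟨F₀, r, B, h1, h2, h⟩ | h
  · exact oIrr'_of_comm hQ hI hH h
  · exact Or.inr <| Or.inr <| Or.inr <| Or.inl h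
  · exact Or.inr <| Or.inr <| Or.inr <| Or.inr <| Or.inl h
  · exact Or.inl <| Or.inr ⟨F₀, r, B, h1, h2, h.oSub hQ⟩
  · exact Or.inr <| Or.inr <| Or.inr <| Or.inr <| Or.inr h

/-! ### Odd dimension -/

/-- The alternatives in odd dimension. -/
def OOdd (Q : QuadraticForm F (ι → F)) (H : Subgroup (GL ι F)) : Prop :=
  (∃ W : Submodule F (ι → F), W ≠ ⊥ ∧ IsTotallySingularQuad ⇑Q W ∧ H ≤ subspaceStabilizer W) ∨
  (∃ W : Submodule F (ι → F), W ≠ ⊥ ∧ W ≠ ⊤ ∧ Even (finrank F W) ∧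
    IsNondegenerateOn (polar Q) W ∧
    ¬ (Fintype.card F = 3 ∧ finrank F W = 2 ∧ IsPlusTypeOn ⇑Q W) ∧ H ≤ subspaceStabilizer W) ∨
  (∃ (t k : ℕ) (D : Fin t → Submodule F (ι → F)), GoodDec Q k D ∧ H ≤ decompositionStabilizer D) ∨
  (∃ (r : ℕ) (K : Subalgebra F (Matrix ι ι F)), r.Prime ∧ Fintype.card ι ≠ r ∧
    IsFieldSubalgebra r K ∧ IsSelfAdjointFor (polar Q) K ∧ H ≤ subalgebraNormalizer K) ∨
  (∃ (k l : ℕ) (e : ι ≃ Fin k × Fin l) (B : GL ι F)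
    (f₁ : (Fin k → F) → (Fin k → F) → F) (f₂ : (Fin l → F) → (Fin l → F) → F), 3 ≤ k ∧ k < l ∧
    IsSymmetricForm f₁ ∧ IsSymmetricForm f₂ ∧ IsTensorFormStructure id (polar Q) f₁ f₂ e B ∧
    H ≤ tensorProductSubgroup k l e B) ∨
  (∃ (F₀ : Subfield F) (r : ℕ) (B : GL ι F), r.Prime ∧ Fintype.card F = Nat.card F₀ ^ r ∧
    IsQuadFormRationalStructure ⇑Q F₀ B ∧ H ≤ subfieldSubgroup F₀ B) ∨
  (∃ (k t : ℕ) (e : ι ≃ (Fin t → Fin k)) (B : GL ι F)
    (f₁ : (Fin k → F) → (Fin k → F) → F), 3 ≤ k ∧ 2 ≤ t ∧ ¬ (Fintype.card F = 3 ∧ k = 3) ∧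
    IsSymmetricForm f₁ ∧ IsTensorPowerFormStructure id (polar Q) f₁ e B ∧
    H ≤ tensorWreathSubgroup k t e B) ∨
  InOrthogonalResidualClass H

theorem ne_top_of_finrank_lt {W : Submodule F (ι → F)} (h : finrank F W < Fintype.card ι) :
    W ≠ ⊤ := by
  rintro rfl
  rw [finrank_top, finrank_fun] at h
  exact h.false

theorem oOdd (hQ : ND Q) (h5 : 5 ≤ Fintype.card ι) (hι : Odd (Fintype.card ι))
    (hq : Odd (Fintype.card F)) (hG : ∀ F₀ : Subfield F, (gramMatrix (polar Q)).det ∈ F₀)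
    (hI : H ≤ isometryGroup F ⇑Q) : OOdd Q H := by
  have := nonempty_of_two_le (ι := ι) (by omega)
  have hc := fcq hQ
  have hι' := Nat.odd_iff.1 hι
  rcases oRed hQ (by omega) hI with (⟨W, h0, h1, h⟩ | ⟨W, h0, h1, h2, h3, h⟩ | h) |
    ⟨hH, (h | ⟨F₀, r, B, h1, h2, h⟩) | ⟨m, D, h, -⟩ | ⟨r, K, h, h1⟩ |
      ⟨-, k, l, e, B, f₁, f₂, h1, h2, h3, -, h4, h6, h7, h⟩ |
      ⟨k, l, e, B, f₁, f₂, -, -, -, h, -⟩ | ⟨m, R, h, -⟩ | ⟨-, h⟩ | ⟨k, t, -, h1, h2, h, -⟩ | h⟩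
  · exact Or.inl ⟨W, h0, h1, h.le_stabilizer⟩
  · have h4 := hc.finrank_add_perp h2
    have h6 : W ≠ ⊤ := ne_top_of_finrank_lt (by omega)
    by_cases he : Even (finrank F W)
    · exact Or.inr <| Or.inl ⟨W, h0, h6, he, h2, fun h7 => by have := h3 h7.2.1 h7.2.2; omega,
        h.le_stabilizer⟩
    · rw [Nat.even_iff] at he
      exact Or.inr <| Or.inl ⟨_, hc.perp_ne_bot h2 h6, hc.perp_ne_top h2 h0,
        Nat.even_iff.2 (by omega), hc.nd_perp h2, fun h7 => by omega,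
        (hc.inv_perp (hI.trans (isometryGroup_le_sim _)) h).le_stabilizer⟩
  · exact absurd hq h.1
  · exact Or.inr <| Or.inr <| Or.inl h
  · obtain ⟨B', h3, h4⟩ := h.odd hQ hι (QF.two_ne_zero_of_odd_card hq) (hG F₀)
    exact Or.inr <| Or.inr <| Or.inr <| Or.inr <| Or.inr <| Or.inl ⟨F₀, r, B', h1, h2, h3, h4⟩
  · have := IsMDecomposition.card_eq' h
    omega
  · exact Or.inr <| Or.inr <| Or.inr <| Or.inl ⟨r, K, h.prime, h1, h.field,
      hc.isSelfAdjointFor_iff.2 (hc.selfadj_of_odd h.field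
        (hι.of_dvd_nat (IsFieldSubalgebra.dvd_card h.field)) h.adj_mem), h.le⟩
  · have h8 : Fintype.card ι = k * l := by simpa using Fintype.card_congr e
    exact Or.inr <| Or.inr <| Or.inr <| Or.inr <| Or.inl ⟨k, l, e, B, f₁, f₂, h1,
      h2.lt_of_ne fun h9 => Nat.not_even_iff_odd.2 hι (h8 ▸ (h3 h9).mul_right _), h4, h6,
      h7.struct hc, h⟩
  · have h8 : Fintype.card ι = k * l := by simpa using Fintype.card_congr e
    have h9 : Even k := by simpa using even_card_of_symplectic h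
    exact absurd (h8 ▸ h9.mul_right _) (Nat.not_even_iff_odd.2 hι)
  · have := h.m_pos
    exact absurd (h.card_eq ▸ (Nat.even_pow.2 ⟨even_two, by omega⟩)) (Nat.not_even_iff_odd.2 hι)
  · exact Or.inr <| Or.inr <| Or.inr <| Or.inr <| Or.inr <| Or.inr <| Or.inl h
  · exact absurd (h ▸ (Nat.even_pow.2 ⟨h2, by omega⟩)) (Nat.not_even_iff_odd.2 hι)
  · exact Or.inr <| Or.inr <| Or.inr <| Or.inr <| Or.inr <| Or.inr <| Or.inr h

theorem det_gram_odd (m : ℕ) (F₀ : Subfield F) :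
    (gramMatrix (polar (quadFormOdd m F))).det ∈ F₀ := by
  have h := QF.gramDet_odd (F := F) m 1
  have h1 : (gramMatrix (polar (quadFormOdd m F))).det = (-1) ^ m * (2 * 1) := by
    rw [← h, QF.gramDet]
    congr 1
    ext i j
    simp only [gramMatrix, Matrix.of_apply, Pi.basisFun_apply, one_mul]
    rfl
  rw [h1, mul_one]
  exact mul_mem (pow_mem (neg_mem (one_mem _)) _) (by exact_mod_cast natCast_mem F₀ 2)

theorem pow_dims {n k t : ℕ} (h : n = k ^ t) (hk : 3 ≤ k) (ht : 2 ≤ t) (hn : n ≤ 15) :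
    n = 9 ∧ k = 3 ∧ t = 2 := by
  have h1 : k ^ 2 ≤ k ^ t := Nat.pow_le_pow_right (by omega) ht
  obtain rfl : k = 3 := by nlinarith
  obtain rfl : t = 2 := by
    by_contra h2
    have : 3 ^ 3 ≤ 3 ^ t := Nat.pow_le_pow_right (by omega) (by omega)
    omega
  exact ⟨h, rfl, rfl⟩

/-- Maximal subgroups of `Ω` in dimensions seven, nine and eleven. -/
theorem oOddMax (hQ : ND Q) {n : ℕ} (hn : Fintype.card ι = n) (h : n = 7 ∨ n = 9 ∨ n = 11)
    (hq : Odd (Fintype.card F)) (hG : ∀ F₀ : Subfield F, (gramMatrix (polar Q)).det ∈ F₀)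
    (hH : IsMaximalIn (omegaGL ⇑Q) H) :
    (∃ W : Submodule F (ι → F), W ≠ ⊥ ∧ IsTotallySingularQuad ⇑Q W ∧
      H = subspaceStabilizer W ⊓ omegaGL ⇑Q) ∨
    (∃ W : Submodule F (ι → F), W ≠ ⊥ ∧ Even (finrank F W) ∧ IsNondegenerateOn (polar Q) W ∧
      ¬ (Fintype.card F = 3 ∧ finrank F W = 2 ∧ IsPlusTypeOn ⇑Q W) ∧
      H = subspaceStabilizer W ⊓ omegaGL ⇑Q) ∨
    ((Fintype.card F).Prime ∧ ∃ D : Fin n → Submodule F (ι → F),
      IsOrthogonalMDecomposition ⇑Q 1 D ∧ H = decompositionStabilizer D ⊓ omegaGL ⇑Q) ∨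
    (n = 9 ∧ 5 ≤ Fintype.card F ∧ ∃ D : Fin 3 → Submodule F (ι → F),
      IsOrthogonalMDecomposition ⇑Q 3 D ∧ H = decompositionStabilizer D ⊓ omegaGL ⇑Q) ∨
    (n = 9 ∧ ∃ K : Subalgebra F (Matrix ι ι F), IsFieldSubalgebra 3 K ∧
      IsSelfAdjointFor (polar Q) K ∧ H = subalgebraNormalizer K ⊓ omegaGL ⇑Q) ∨
    (∃ (F₀ : Subfield F) (r : ℕ) (B : GL ι F), r.Prime ∧ Fintype.card F = Nat.card F₀ ^ r ∧
      IsQuadFormRationalStructure ⇑Q F₀ B ∧ H = subfieldSubgroup F₀ B ⊓ omegaGL ⇑Q) ∨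
    (n = 9 ∧ 5 ≤ Fintype.card F ∧ ∃ (e : ι ≃ (Fin 2 → Fin 3)) (B : GL ι F)
      (f₁ : (Fin 3 → F) → (Fin 3 → F) → F), IsSymmetricForm f₁ ∧
      IsTensorPowerFormStructure id (polar Q) f₁ e B ∧
      H = tensorWreathSubgroup 3 2 e B ⊓ omegaGL ⇑Q) ∨
    InOrthogonalResidualClass H := by
  have h5 : 5 ≤ Fintype.card ι := by omega
  have h11 : Fintype.card ι ≤ 11 := by omega
  have := nonempty_of_two_le (ι := ι) (by omega)
  have hq5 : Fintype.card F ≠ 3 → 5 ≤ Fintype.card F := fun _ => by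
    have : 1 < Fintype.card F := Fintype.one_lt_card
    rw [Nat.odd_iff] at hq
    omega
  rcases oOdd hQ h5 (Nat.odd_iff.2 (by omega)) hq hG (hH.1.le.trans (omegaGL_le _)) with
    ⟨W, h0, h1, h2⟩ | ⟨W, h0, h1, h2, h3, h4, h6⟩ | ⟨t, k, D, h1, h2⟩ | ⟨r, K, h1, h2, h3, h4, h6⟩ |
    ⟨k, l, e, -, -, -, h1, h2, -⟩ | ⟨F₀, r, B, h1, h2, h3, h4⟩ |
    ⟨k, t, e, B, f₁, h1, h2, h3, h4, h6, h7⟩ | h1
  · exact Or.inl ⟨W, h0, h1, eq_inf_of_maximal hH h2
      (omega_not_le_stabilizer hQ h5 h0 (ts_ne_top hQ (by omega) h1))⟩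
  · exact Or.inr <| Or.inl ⟨W, h0, h2, h3, h4, eq_inf_of_maximal hH h6
      (omega_not_le_stabilizer hQ h5 h0 h1)⟩
  · have h3 := eq_inf_of_maximal hH h2 (omega_not_le_nd hQ h5 h1.dec.decomp)
    have h4 := IsMDecomposition.card_eq' h1.dec.decomp.decomp
    have h6 := h1.dec.decomp.decomp.two_le
    by_cases hk : k = 1
    · subst hk
      obtain rfl : t = n := by omega
      exact Or.inr <| Or.inr <| Or.inl ⟨h1.one rfl, D, h1.dec, h3⟩
    have h7 : k ≤ 5 := by nlinarith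
    have h8 := h1.three
    obtain ⟨rfl, rfl⟩ : k = 3 ∧ t = 3 := by interval_cases k <;> omega
    exact Or.inr <| Or.inr <| Or.inr <| Or.inl ⟨by omega, hq5 (by omega), D, h1.dec, h3⟩
  · have h7 := IsFieldSubalgebra.dvd_card h3
    have h8 := h1.two_le
    have h9 := Nat.le_of_dvd (by omega) h7
    obtain rfl : r = 3 := by
      rw [hn] at h7 h9 h2
      rcases h with rfl | rfl | rfl <;> interval_cases r <;> omega
    exact Or.inr <| Or.inr <| Or.inr <| Or.inr <| Or.inl ⟨by omega, K, h3, h4,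
      eq_inf_of_maximal hH h6 (omega_not_le_normalizer hQ h5 h3 (by omega))⟩
  · have h3 : Fintype.card ι = k * l := by simpa using Fintype.card_congr e
    nlinarith
  · exact Or.inr <| Or.inr <| Or.inr <| Or.inr <| Or.inr <| Or.inl ⟨F₀, r, B, h1, h2, h3,
      eq_inf_of_maximal hH h4 (omega_not_le_subfield hQ h5 (ne_top_of_card h1 h2) B)⟩
  · obtain ⟨h8, rfl, rfl⟩ := pow_dims (n := n) (by simpa [hn] using Fintype.card_congr e) h1 h2
      (by omega)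
    exact Or.inr <| Or.inr <| Or.inr <| Or.inr <| Or.inr <| Or.inr <| Or.inl ⟨h8,
      hq5 fun h9 => h3 ⟨h9, rfl⟩, e, B, f₁, h4, h6, eq_inf_of_maximal hH h7
        ((qs_omega hQ h5).not_le_wreath (hasRoot_omega hQ h5) (by omega) le_rfl (by omega)
          (by norm_num) e B)⟩
  · exact Or.inr <| Or.inr <| Or.inr <| Or.inr <| Or.inr <| Or.inr <| Or.inr h1

end Cfsg.Agent.Class.Asch
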