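import Cfsg.Agent.Class.Asch.ODec

/-! Containments between geometric subgroups of orthogonal groups over small fields. -/

set_option autoImplicit false
set_option linter.unusedSectionVars false

namespace Cfsg.Agent.Class.Asch

open Cfsg.Geo Cfsg.Agent.Class.Orth QuadraticMap Module
open scoped MatrixGroups Matrix Kronecker commutatorElement

variable {ι : Type} [Fintype ι] [DecidableEq ι] {F : Type*} [Field F] [Fintype F]
  {Q : QuadraticForm F (ι → F)}

theorem polar_comp_subtype {W : Submodule F (ι → F)} (x y : W) :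
    polar (Q.comp W.subtype) x y = polar Q x y := by
  simp [polar]

theorem exists_hyp_le_three (hF : Fintype.card F ≤ 3) {W : Submodule F (ι → F)}
    (hW : IsNondegenerateOn (polar Q) W) (h2 : finrank F W = 2) (hp : IsPlusTypeOn ⇑Q W) :
    ∃ e ∈ W, ∃ f ∈ W, IsHyp Q e f ∧ ∀ v ∈ W, Q v = 1 → ∃ s : F, v = s • (e + f) := by
  obtain ⟨e, f, h, h1⟩ := exists_hyp_plane_le_three hF (ndon_of_nd hW).nd_comp h2
    ((isPlusTypeOn_iff W).1 hp)
  refine ⟨e, e.2, f, f.2, ⟨h.left, h.right, (polar_comp_subtype e f).symm.trans h.pol⟩,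
    fun v hv h3 => ?_⟩
  obtain ⟨s, hs⟩ := h1 ⟨v, hv⟩ h3
  exact ⟨s, congrArg Subtype.val hs⟩

theorem IsHyp.Q_add' {V : Type*} [AddCommGroup V] [Module F V] {q : QuadraticForm F V} {e f : V}
    (h : IsHyp q e f) : q (e + f) = 1 := by
  rw [Q_add, h.left, h.right, h.pol, zero_add, zero_add]

theorem IsHyp.add_ne_zero' {V : Type*} [AddCommGroup V] [Module F V] {q : QuadraticForm F V}
    {e f : V} (h : IsHyp q e f) : e + f ≠ 0 := fun h0 =>
  one_ne_zero (by rw [← IsHyp.Q_add' h, h0, map_zero])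

theorem mem_stabilizer_span {s : Set (ι → F)} {g : GL ι F}
    (h : ∀ v ∈ s, (g : Matrix ι ι F) *ᵥ v ∈ Submodule.span F s) :
    g ∈ subspaceStabilizer (Submodule.span F s) :=
  mem_stabilizer_of_le fun _ hv =>
    (Submodule.span_le (p := (Submodule.span F s).comap (Matrix.toLin' (g : Matrix ι ι F)))).2 h hv

theorem stab_plane_le {W : Submodule F (ι → F)} {v : ι → F} (hv : v ∈ W) (h1 : Q v = 1)
    (h : ∀ u ∈ W, Q u = 1 → ∃ s : F, u = s • v) :
    subspaceStabilizer W ⊓ isometryGroup F ⇑Q ≤ subspaceStabilizer (Submodule.span F {v}) := by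
  refine fun g hg => mem_stabilizer_span ?_
  rintro _ rfl
  obtain ⟨s, hs⟩ := h _ (inv_of_le_stabilizer le_rfl g hg.1 _ hv) (by rw [Q_mulVec hg.2, h1])
  exact Submodule.mem_span_singleton.2 ⟨s, hs.symm⟩

theorem span_singleton_ne_top (h2 : 2 ≤ Fintype.card ι) {v : ι → F} (hv : v ≠ 0) :
    Submodule.span F {v} ≠ ⊤ := fun h => by
  have := finrank_span_singleton (K := F) hv
  rw [h, finrank_top, finrank_fun] at this
  omega

theorem exists_vec_of_plane (hF : Fintype.card F ≤ 3) {W : Submodule F (ι → F)}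
    (hW : IsNondegenerateOn (polar Q) W) (h2 : finrank F W = 2) (hp : IsPlusTypeOn ⇑Q W) :
    ∃ v, Q v = 1 ∧
      subspaceStabilizer W ⊓ isometryGroup F ⇑Q ≤ subspaceStabilizer (Submodule.span F {v}) := by
  obtain ⟨e, he, f, hf, h, h1⟩ := exists_hyp_le_three hF hW h2 hp
  exact ⟨_, IsHyp.Q_add' h, stab_plane_le (W.add_mem he hf) (IsHyp.Q_add' h) h1⟩

theorem not_max_plane (hQ : ND Q) (h5 : 5 ≤ Fintype.card ι) (hF : Fintype.card F ≤ 3)
    {W : Submodule F (ι → F)} (hW : IsNondegenerateOn (polar Q) W) (h2 : finrank F W = 2)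
    (hp : IsPlusTypeOn ⇑Q W) :
    ∃ K : Subgroup (GL ι F), subspaceStabilizer W ⊓ omegaGL ⇑Q < K ∧ K < omegaGL ⇑Q := by
  obtain ⟨e, he, f, hf, h, h1⟩ := exists_hyp_le_three hF hW h2 hp
  obtain ⟨a, ha, ha0, h3⟩ := exists_singular_mem Q ((fcq hQ).perp W)
    (by have := (fcq hQ).finrank_add_perp hW; omega)
  have h4 : ∀ w ∈ W, polar Q w a = 0 := fun w hw => by rw [polar_comm]; exact ha w hw
  have h0 := IsHyp.add_ne_zero' h
  refine exists_between (M := subspaceStabilizer (Submodule.span F {e + f}))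
    ((inf_le_inf_left _ (omegaGL_le _)).trans
      (stab_plane_le (W.add_mem he hf) (IsHyp.Q_add' h) h1))
    (omega_not_le_stabilizer hQ h5 (by simpa using h0) (span_singleton_ne_top (by omega) h0))
    (mem_stabilizer_span ?_) (eGL_mem hQ h5 a (e - f)) fun hg =>
      eGL_not_mem_of (ndon_of_nd hW) ha0 h3 (ha _ (W.sub_mem he hf)) h4 he ?_
        (inv_of_le_stabilizer le_rfl _ hg e he)
  · rintro _ rfl
    rw [eGL_mulVec_of_perp_perp (h4 _ (W.add_mem he hf))]
    · exact Submodule.mem_span_singleton_self _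
    · simp [polar_add_left, polar_sub_right, h.left, h.right, h.pol, h.pol']
  · simp [polar_sub_right, h.left, h.pol]

section dec

variable {t : ℕ} {D : Fin t → Submodule F (ι → F)}

omit [Fintype F] in
theorem ne_zero_of_polar {V : Type*} [AddCommGroup V] [Module F V] {q : QuadraticForm F V}
    {a y : V} (h : polar q a y ≠ 0) : a ≠ 0 := by
  rintro rfl
  exact h (polar_zero_left _ _)

theorem planes_le_three (hQ : ND Q) (hF : Fintype.card F ≤ 3)
    (hD : IsOrthogonalMDecomposition ⇑Q 2 D) {i : Fin t} (hp : IsPlusTypeOn ⇑Q (D i)) :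
    ∃ U : Submodule F (ι → F), U ≠ ⊥ ∧ U ≠ ⊤ ∧
      decompositionStabilizer D ⊓ isometryGroup F ⇑Q ≤ subspaceStabilizer U ∧
      (4 ≤ t → ∃ g ∈ subspaceStabilizer U, g ∈ omegaGL ⇑Q ∧ g ∉ decompositionStabilizer D) := by
  obtain ⟨φ, h1, h2⟩ := IsOrthogonalMDecomposition.exists_oFam hD i
  obtain ⟨e, f, h, h3⟩ := exists_hyp_plane_le_three hF h1.nd (hD.decomp.decomp.finrank_eq i)
    ((isPlusTypeOn_iff _).1 hp)
  have hc := IsMDecomposition.card_eq' hD.decomp.decomp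
  have hm : ∀ j, φ j (e + f) ∈ Submodule.span F (Set.range fun j => φ j (e + f)) :=
    fun j => Submodule.subset_span ⟨j, rfl⟩
  refine ⟨Submodule.span F (Set.range fun j => φ j (e + f)), fun h0 => ?_, fun h0 => ?_,
    fun g hg => mem_stabilizer_span ?_, fun ht => ?_⟩
  · exact IsHyp.add_ne_zero' h (h1.eq_zero ((Submodule.mem_bot F).1 (h0 ▸ hm i)))
  · have := finrank_range_le_card (R := F) fun j => φ j (e + f)
    rw [Set.finrank, h0, finrank_top, finrank_fun, hc, Fintype.card_fin] at this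
    have := hD.decomp.decomp.two_le
    omega
  · rintro _ ⟨j, rfl⟩
    obtain ⟨j', hj⟩ := exists_map_of_mem_stab hg.1 j
    obtain ⟨y, hy⟩ := (h2 j').ge (hj _ ((h2 j).le ⟨e + f, rfl⟩))
    obtain ⟨s, rfl⟩ := h3 y (by rw [← h1.map_Q j', hy, Q_mulVec hg.2, h1.map_Q, IsHyp.Q_add' h])
    rw [← hy, map_smul]
    exact Submodule.smul_mem _ _ (hm j')
  obtain ⟨u, hu⟩ : ∃ u : Fin 4 → Fin t, Function.Injective u := ⟨_, Fin.castLE_injective ht⟩
  have ho : ∀ a b, a ≠ b → ∀ x y, polar Q (φ (u a) x) (φ (u b) y) = 0 := fun a b hab =>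
    h1.orth _ _ (hu.ne hab)
  set a := φ (u 0) (e + f) + φ (u 1) (e + f) + (2 : F) • φ (u 2) (e + f) with ha
  have ham : a ∈ Submodule.span F (Set.range fun j => φ j (e + f)) :=
    add_mem (add_mem (hm _) (hm _)) (Submodule.smul_mem _ _ (hm _))
  have h4 : Q a = 0 := by
    simp only [ha, Q_add Q (_ + _), Q_add Q (φ _ _), Q_smul, h1.map_Q, IsHyp.Q_add' h,
      polar_add_left, polar_smul_right', ho 0 1 (by decide), ho 0 2 (by decide), ho 1 2 (by decide)]
    linear_combination six_eq_zero hF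
  have h5 : ∀ x, polar Q (φ (u 3) x) a = 0 := fun x => by
    simp only [ha, polar_add_right, polar_smul_right', ho 3 0 (by decide), ho 3 1 (by decide),
      ho 3 2 (by decide), mul_zero, add_zero]
  have h6 : polar Q a (φ (u 3) (e + f)) = 0 := by rw [polar_comm, h5]
  refine ⟨eGL Q a (φ (u 3) (e + f)), mem_stabilizer_span fun v hv => ?_,
    eGL_mem hQ (by omega) _ _, eGL_not_mem_stab hD.decomp le_rfl (i := u 3) (x := φ (u 3) e)
      (ne_zero_of_polar (q := Q) (y := φ (u 0) e) ?_) h4 h6 ?_ ((h2 _).le ⟨e, rfl⟩) ?_⟩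
  · rw [eGL_mulVec h4 h6]
    exact sub_mem (add_mem (Submodule.subset_span hv) (Submodule.smul_mem _ _ ham))
      (Submodule.smul_mem _ _ (hm _))
  · simp only [ha, polar_add_left Q (_ + _), polar_add_left Q (φ _ _), polar_smul_left',
      ho 1 0 (by decide), ho 2 0 (by decide), h1.polar_eq]
    simp [polar_add_left, h.ee, h.pol']
  · rw [← h2]
    rintro _ ⟨x, rfl⟩
    exact h5 x
  · rw [h1.polar_eq, polar_add_right, h.ee, h.pol]; simp

theorem exists_omega_four (hF : Fintype.card F = 4) : ∃ ω : F, ω ^ 2 + ω + 1 = 0 ∧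
    ∀ x : F, x ≠ 0 → x = 1 ∨ x = ω ∨ x = ω + 1 := by
  classical
  have h2 : (2 : F) = 0 := two_eq_zero_of_not_odd (by rw [hF]; decide)
  have h3 : ∀ x : F, x ≠ 0 → x ≠ 1 → x ^ 2 + x + 1 = 0 := fun x h0 h1 => by
    have := FiniteField.pow_card_sub_one_eq_one x h0
    rw [hF] at this
    exact mul_left_cancel₀ (sub_ne_zero.2 h1) (by linear_combination this)
  obtain ⟨ω, -, hω⟩ := Finset.exists_mem_notMem_of_card_lt_card
    (s := ({0, 1} : Finset F)) (t := Finset.univ)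
    ((Finset.card_le_two).trans_lt (by rw [Finset.card_univ, hF]; decide))
  simp only [Finset.mem_insert, Finset.mem_singleton, not_or] at hω
  refine ⟨ω, h3 ω hω.1 hω.2, fun x h0 => or_iff_not_imp_left.2 fun h1 => ?_⟩
  have : (x - ω) * (x - (ω + 1)) = 0 := by
    linear_combination h3 x h0 h1 + h3 ω hω.1 hω.2 - (x * ω + x + 1) * h2
  simpa only [mul_eq_zero, sub_eq_zero] using this

theorem planes_four (hQ : ND Q) (hF : Fintype.card F = 4)
    (hD : IsOrthogonalMDecomposition ⇑Q 2 D) {i : Fin t} (hp : IsPlusTypeOn ⇑Q (D i))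
    (F₀ : Subfield F) : ∃ B, OSub Q (decompositionStabilizer D ⊓ isometryGroup F ⇑Q) F₀ B ∧
      (3 ≤ t → ∃ g ∈ subfieldSubgroup F₀ B, g ∈ omegaGL ⇑Q ∧ g ∉ decompositionStabilizer D) := by
  obtain ⟨φ, h1, h2⟩ := IsOrthogonalMDecomposition.exists_oFam hD i
  obtain ⟨e, f, h, h3⟩ := exists_hyp_plane h1.nd (hD.decomp.decomp.finrank_eq i)
    ((isPlusTypeOn_iff _).1 hp)
  obtain ⟨ω, hω, hω'⟩ := exists_omega_four hF
  have hc := IsMDecomposition.card_eq' hD.decomp.decomp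
  have ht2 := hD.decomp.decomp.two_le
  have := nonempty_of_two_le (ι := ι) (by omega)
  have c2 : (2 : F) = 0 := two_eq_zero_of_not_odd (by rw [hF]; decide)
  let v : Fin 2 → D i := ![e + f, ω • e + (ω + 1) • f]
  have hv : ∀ a, (Q.comp (D i).subtype) (v a) = 1 := fun a => by
    fin_cases a
    · exact IsHyp.Q_add' h
    · exact (h.Q_comb _ _).trans (by linear_combination hω - c2)
  have hG : (Matrix.of fun p p' : Fin 2 × Fin t => polar Q (φ p.2 (v p.1)) (φ p'.2 (v p'.1))) =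
      Matrix.blockDiagonal fun _ => !![0, 1; 1, 0] := by
    ext ⟨a, j⟩ ⟨a', j'⟩
    rw [Matrix.of_apply, Matrix.blockDiagonal_apply']
    split_ifs with hj
    · subst hj
      have h4 : polar (Q.comp (D i).subtype) (v 0) (v 1) = 1 := by
        simp only [v, Matrix.cons_val_zero, Matrix.cons_val_one, polar_add_left, polar_add_right,
          polar_smul_right', h.ee, h.ff, h.pol, h.pol']
        linear_combination ω * c2
      rw [h1.polar_eq]
      fin_cases a <;> fin_cases a'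
      · exact (polar_self' _ _).trans (by simp [c2])
      · exact h4
      · exact (polar_comm _ _ _).trans h4
      · exact (polar_self' _ _).trans (by simp [c2])
    · exact h1.orth _ _ hj _ _
  have hG' : ∀ p p' : Fin 2 × Fin t, polar Q (φ p.2 (v p.1)) (φ p'.2 (v p'.1)) ∈ F₀ := by
    rintro ⟨a, j⟩ ⟨a', j'⟩
    have := congrFun (congrFun hG (a, j)) (a', j')
    rw [Matrix.of_apply] at this
    rw [this, Matrix.blockDiagonal_apply']
    split_ifs
    · fin_cases a <;> fin_cases a' <;> simp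
    · exact zero_mem _
  obtain ⟨B, h4, h5⟩ := exists_sub_of_family hQ (by simp [hc])
    (fun p : Fin 2 × Fin t => φ p.2 (v p.1))
    (by rw [hG, Matrix.det_blockDiagonal]; simp) (F₀ := F₀) (ζ := 1)
    fun p p' => by rw [one_mul]; exact hG' p p'
  have hm : ∀ a j, φ j (v a) ∈
      Submodule.span F₀ (Set.range fun p : Fin 2 × Fin t => φ p.2 (v p.1)) :=
    fun a j => Submodule.subset_span ⟨(a, j), rfl⟩
  refine ⟨B, ⟨1, one_ne_zero, h4, fun g hg => h5 g fun p => ?_⟩, fun ht => ?_⟩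
  · obtain ⟨j', hj⟩ := exists_map_of_mem_stab hg.1 p.2
    obtain ⟨y, hy⟩ := (h2 j').ge (hj _ ((h2 p.2).le ⟨v p.1, rfl⟩))
    obtain ⟨a, b, rfl, h6⟩ := h3 y
    rw [← h1.map_Q j', hy, Q_mulVec hg.2, h1.map_Q, hv] at h6
    have ha := left_ne_zero_of_mul_eq_one h6.symm
    rw [← hy]
    rcases hω' a ha with rfl | rfl | rfl
    · rw [one_mul] at h6
      rw [← h6, one_smul, one_smul]
      exact hm 0 j'
    · rw [mul_left_cancel₀ ha (show a * b = a * (a + 1) by linear_combination -h6 - hω + c2)]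
      exact hm 1 j'
    · rw [mul_left_cancel₀ ha (show (ω + 1) * b = (ω + 1) * ω by linear_combination -h6 - hω + c2),
        show (ω + 1) • e + ω • f = v 0 + v 1 by
          have : (ω + 1 + 1) • f = ω • f := by rw [add_assoc, one_add_one_eq_two, c2, add_zero]
          simp only [v, Matrix.cons_val_zero, Matrix.cons_val_one, ← this]
          module, map_add]
      exact add_mem (hm 0 j') (hm 1 j')
  obtain ⟨u, hu⟩ : ∃ u : Fin 3 → Fin t, Function.Injective u := ⟨_, Fin.castLE_injective ht⟩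
  have ho : ∀ a b, a ≠ b → ∀ x y, polar Q (φ (u a) x) (φ (u b) y) = 0 := fun a b hab =>
    h1.orth _ _ (hu.ne hab)
  have h6 : Q (φ (u 0) (v 0) + φ (u 1) (v 0)) = 0 := by
    rw [Q_add, h1.map_Q, h1.map_Q, hv, ho 0 1 (by decide)]; linear_combination c2
  have h7 : ∀ x, polar Q (φ (u 2) x) (φ (u 0) (v 0) + φ (u 1) (v 0)) = 0 := fun x => by
    rw [polar_add_right, ho 2 0 (by decide), ho 2 1 (by decide), add_zero]
  have h8 : polar Q (φ (u 0) (v 0) + φ (u 1) (v 0)) (φ (u 2) (v 0)) = 0 := by rw [polar_comm, h7]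
  have h9 : ∀ j, polar Q (φ j (v 1)) (φ j (v 0)) ≠ 0 := fun j => by
    have := congrFun (congrFun hG (1, j)) (0, j)
    rw [Matrix.of_apply] at this
    rw [this]; simp
  refine ⟨eGL Q (φ (u 0) (v 0) + φ (u 1) (v 0)) (φ (u 2) (v 0)), h5 _ fun p => ?_,
    eGL_mem hQ (by omega) _ _, eGL_not_mem_stab hD.decomp le_rfl (i := u 2) (x := φ (u 2) (v 1))
      (ne_zero_of_polar (q := Q) (y := φ (u 0) (v 1)) ?_) h6 h8 ?_ ((h2 _).le ⟨_, rfl⟩) (h9 _)⟩
  · have h10 : polar Q (φ p.2 (v p.1)) (φ (u 0) (v 0) + φ (u 1) (v 0)) ∈ F₀ := by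
      rw [polar_add_right]; exact add_mem (hG' p (0, _)) (hG' p (0, _))
    rw [eGL_mulVec h6 h8, h1.map_Q, hv, one_mul]
    exact sub_mem (add_mem (hm _ _) (Submodule.smul_mem _ (⟨_, sub_mem (hG' p (0, _)) h10⟩ : F₀)
      (add_mem (hm _ _) (hm _ _)))) (Submodule.smul_mem _ (⟨_, h10⟩ : F₀) (hm _ _))
  · rw [polar_add_left, ho 1 0 (by decide), add_zero, polar_comm]
    exact h9 _
  · rw [← h2]
    rintro _ ⟨x, rfl⟩
    exact h7 x

omit [Fintype F] in
theorem OFam.congr {V V' E : Type*} [AddCommGroup V] [Module F V] [AddCommGroup V'] [Module F V']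
    [AddCommGroup E] [Module F E] {κ : Type} [Fintype κ] {Q : QuadraticForm F V}
    {Q' : QuadraticForm F V'} {q : QuadraticForm F E} {φ : κ → E →ₗ[F] V} (h : OFam Q q φ)
    (g : V ≃ₗ[F] V') (hg : ∀ v, Q' (g v) = Q v) : OFam Q' q fun p => g.toLinearMap ∘ₗ φ p :=
  ⟨h.nd, fun p x => (hg _).trans (h.map_Q p x), fun p p' hp x y => by
    rw [← h.orth p p' hp x y]
    simp only [polar, LinearMap.comp_apply, LinearEquiv.coe_coe, ← map_add, hg],
    g.finrank_eq ▸ h.card⟩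

theorem exists_minus_planes (hF : Fintype.card F = 2) {E : Type*} [AddCommGroup E] [Module F E]
    [FiniteDimensional F E] {q : QuadraticForm F E} (hq : ND q) (h4 : finrank F E = 4)
    (hp : QF.IsPlus q) : ∃ χ : Fin 2 → (Fin 2 → F) →ₗ[F] E, OFam q (binQF F 1 1) χ ∧
      ∀ v, q v = 1 → ∃ s x, v = χ s x := by
  have c2 : (2 : F) = 0 := two_eq_zero_of_not_odd (by rw [hF]; decide)
  have c3 : (1 : F) + 1 = 0 := by linear_combination c2
  obtain ⟨g, hg⟩ := hq.exists_equiv_plusQF hp (m := 2) h4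
  let M : Fin 2 → Matrix (Fin 2 ⊕ Fin 2) (Fin 2) F :=
    ![Matrix.fromRows !![1, 0; 1, 1] !![1, 0; 0, 1], Matrix.fromRows !![1, 1; 0, 1] !![1, 0; 0, 1]]
  have h1 : OFam (plusQF 2 F) (binQF F 1 1) fun s => Matrix.toLin' (M s) := by
    refine ⟨nd_binQF_of_disc fun h => one_ne_zero (α := F) (by linear_combination h + 2 * c2),
      fun s x => ?_, fun s s' hs x y => ?_, by simp⟩
    · fin_cases s <;>
        simp [M, plusQF_apply, quadFormPlus, binQF_apply, dotProduct] <;> ring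
    · fin_cases s <;> fin_cases s' <;>
        simp [M, polar_plusQF, dotProduct] at hs ⊢
      · linear_combination (x 0 * y 0 + x 0 * y 1 + x 1 * y 1) * c2
      · linear_combination (x 0 * y 0 + x 1 * y 0 + x 1 * y 1) * c2
  refine ⟨_, h1.congr g.symm fun v => by rw [← hg, g.apply_symm_apply], fun v hv => ?_⟩
  suffices ∃ s x, g v = M s *ᵥ x by
    obtain ⟨s, x, h⟩ := this
    exact ⟨s, x, g.eq_symm_apply.2 h⟩
  rw [← hg] at hv
  generalize g v = w at hv
  simp only [plusQF_apply, quadFormPlus, Fin.sum_univ_two] at hv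
  have h2 : w (.inl 0) = w (.inr 0) ∧ w (.inl 1) = w (.inr 0) + w (.inr 1) ∨
      w (.inl 0) = w (.inr 0) + w (.inr 1) ∧ w (.inl 1) = w (.inr 1) := by
    rcases eq_zero_or_one_of_card_two hF (w (.inl 0)) with a | a <;>
    rcases eq_zero_or_one_of_card_two hF (w (.inl 1)) with b | b <;>
    rcases eq_zero_or_one_of_card_two hF (w (.inr 0)) with c | c <;>
    rcases eq_zero_or_one_of_card_two hF (w (.inr 1)) with d | d <;>
    simp [a, b, c, d, c3] at hv ⊢
  rcases h2 with h2 | h2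
  · refine ⟨0, fun j => w (.inr j), funext fun j => ?_⟩
    rcases j with j | j <;> fin_cases j <;> simp [M, Matrix.mulVec, dotProduct, h2]
  · refine ⟨1, fun j => w (.inr j), funext fun j => ?_⟩
    rcases j with j | j <;> fin_cases j <;> simp [M, Matrix.mulVec, dotProduct, h2]

theorem not_isPlus_bin_two (hF : Fintype.card F = 2) : ¬ QF.IsPlus (binQF F 1 1) := by
  rintro ⟨U, h1, h2⟩
  obtain ⟨x, hx, hx0⟩ := (Submodule.ne_bot_iff U).1 (by rintro rfl; simp at h2)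
  have h3 := h1 x hx
  have c3 : (1 : F) + 1 = 0 := by
    linear_combination two_eq_zero_of_not_odd (F := F) (by rw [hF]; decide)
  refine hx0 (funext fun j => ?_)
  rw [binQF_apply] at h3
  rcases eq_zero_or_one_of_card_two hF (x 0) with a | a <;>
  rcases eq_zero_or_one_of_card_two hF (x 1) with b | b <;>
  fin_cases j <;> simp [a, b, c3] at h3 ⊢

theorem OFam.mem_stab_bin {κ : Type} [Fintype κ] {ψ : κ → (Fin 2 → F) →ₗ[F] (ι → F)}
    (h : OFam Q (binQF F 1 1) ψ) {s : ℕ} (e : Fin s ≃ κ) (hs : 2 ≤ s) {g : GL ι F}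
    (hI : g ∈ isometryGroup F ⇑Q)
    (hg : ∀ p a, ∃ p' y, (g : Matrix ι ι F) *ᵥ ψ p (Pi.single a 1) = ψ p' y) :
    g ∈ decompositionStabilizer fun j => LinearMap.range (ψ (e j)) := by
  refine h.mem_stab e hs (by simp) fun p => ?_
  obtain ⟨p₀, y₀, h0⟩ := hg p 0
  obtain ⟨p₁, y₁, h1⟩ := hg p 1
  obtain rfl : p₀ = p₁ := by
    by_contra h2
    have := h.orth _ _ h2 y₀ y₁
    rw [← h0, ← h1, polar_gl hI, h.polar_eq, polar_binQF] at this
    simp at this
  refine ⟨p₀, fun x => ⟨x 0 • y₀ + x 1 • y₁, ?_⟩⟩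
  rw [map_add, map_smul, map_smul, ← h0, ← h1, ← Matrix.mulVec_smul, ← Matrix.mulVec_smul,
    ← Matrix.mulVec_add, ← map_smul, ← map_smul, ← map_add]
  congr 2
  ext j; fin_cases j <;> simp

theorem OFam.eGL_swap (c2 : (2 : F) = 0) {κ : Type} [Fintype κ]
    {ψ : κ → (Fin 2 → F) →ₗ[F] (ι → F)} (h : OFam Q (binQF F 1 1) ψ) {p p' : κ} (hp : p ≠ p')
    (a : Fin 2) : (eGL Q (ψ p (Pi.single 0 1) + ψ p' (Pi.single 0 1))
      (ψ p (Pi.single 1 1) + ψ p' (Pi.single 1 1)) : Matrix ι ι F) *ᵥ ψ p (Pi.single a 1) =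
      ψ p' (Pi.single a 1) := by
  have c3 : ∀ v : ι → F, v + v = 0 := fun v => by rw [← two_smul F, c2, zero_smul]
  have h1 : ∀ a, Q (ψ p (Pi.single a 1) + ψ p' (Pi.single a 1)) = 0 := fun a => by
    rw [Q_add, h.map_Q, h.map_Q, h.orth _ _ hp, ← two_mul, c2, zero_mul, add_zero]
  rw [eGL_mulVec (h1 0) (by
    simp only [polar_add_left, polar_add_right, h.orth _ _ hp, h.orth _ _ hp.symm, h.polar_eq]
    linear_combination polar (binQF F 1 1) (Pi.single 0 1) (Pi.single 1 1) * c2), h1]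
  simp only [polar_add_right, h.orth _ _ hp, h.polar_eq, polar_binQF, c2]
  fin_cases a
  · simp [← add_assoc, c3]
  · simp [neg_eq_iff_add_eq_zero, c3]

theorem fours_two (hQ : ND Q) (hF : Fintype.card F = 2)
    (hD : IsOrthogonalMDecomposition ⇑Q 4 D) {i : Fin t} (hp : IsPlusTypeOn ⇑Q (D i)) {s : ℕ}
    (hs : s = 2 * t) : ∃ D' : Fin s → Submodule F (ι → F), IsOrthogonalMDecomposition ⇑Q 2 D' ∧
      (∀ j, ¬ IsPlusTypeOn ⇑Q (D' j)) ∧
      decompositionStabilizer D ⊓ isometryGroup F ⇑Q ≤ decompositionStabilizer D' ∧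
      ∃ g ∈ decompositionStabilizer D', g ∈ omegaGL ⇑Q ∧ g ∉ decompositionStabilizer D := by
  obtain ⟨φ, h1, h2⟩ := IsOrthogonalMDecomposition.exists_oFam hD i
  obtain ⟨χ, h3, h4⟩ := exists_minus_planes hF h1.nd (hD.decomp.decomp.finrank_eq i)
    ((isPlusTypeOn_iff _).1 hp)
  have hc := IsMDecomposition.card_eq' hD.decomp.decomp
  have ht := hD.decomp.decomp.two_le
  have c2 : (2 : F) = 0 := two_eq_zero_of_not_odd (by rw [hF]; decide)
  have h5 := h1.comp h3
  have e : Fin s ≃ Fin 2 × Fin t := (Fintype.equivFinOfCardEq (by simp [hs])).symm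
  have hb : ∀ a, binQF F 1 1 (Pi.single a 1) = 1 := fun a => by
    fin_cases a <;> simp [binQF_apply]
  refine ⟨_, by simpa using h5.dec e (by omega) (by simp), fun j hj =>
    not_isPlus_bin_two hF ((h5.isPlus_iff _).1 hj), fun g hg =>
      h5.mem_stab_bin e (by omega) hg.2 fun p a => ?_, ?_⟩
  · obtain ⟨j', hj⟩ := exists_map_of_mem_stab hg.1 p.2
    obtain ⟨y, hy⟩ := (h2 j').ge (hj _ ((h2 p.2).le ⟨χ p.1 (Pi.single a 1), rfl⟩))
    obtain ⟨b, x, rfl⟩ := h4 y (by rw [← h1.map_Q j', hy, Q_mulVec hg.2, h1.map_Q, h3.map_Q, hb])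
    exact ⟨(b, j'), x, hy.symm⟩
  obtain ⟨u, hu⟩ : ∃ u : Fin 2 → Fin t, Function.Injective u := ⟨_, Fin.castLE_injective ht⟩
  have hm : ∀ (p : Fin 2 × Fin t) x, (φ p.2 ∘ₗ χ p.1) x ∈ D p.2 := fun p x => (h2 _).le ⟨_, rfl⟩
  have e1 : ((0 : Fin 2), u 0) ≠ (0, u 1) := by simp [hu.eq_iff]
  have h6 := h5.eGL_swap c2 e1
  have h7 := h5.eGL_swap c2 e1.symm
  rw [add_comm, add_comm (_ : ι → F) ((φ (u 0) ∘ₗ χ 0) (Pi.single 1 1))] at h7
  have h8 := fun p (hp : p ≠ (0, u 0)) (hp' : p ≠ (0, u 1)) x => eGL_mulVec_of_perp_perp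
    (Q := Q) (x := (φ p.2 ∘ₗ χ p.1) x)
    (u := (φ (u 0) ∘ₗ χ 0) (Pi.single 0 1) + (φ (u 1) ∘ₗ χ 0) (Pi.single 0 1))
    (v := (φ (u 0) ∘ₗ χ 0) (Pi.single 1 1) + (φ (u 1) ∘ₗ χ 0) (Pi.single 1 1))
    (by rw [polar_add_right, h5.orth _ _ hp, h5.orth _ _ hp', add_zero])
    (by rw [polar_add_right, h5.orth _ _ hp, h5.orth _ _ hp', add_zero])
  have h9 : ∀ p : Fin 2 × Fin t, (φ p.2 ∘ₗ χ p.1) (Pi.single 0 1) ≠ 0 := fun p h =>
    one_ne_zero (α := F) (by simpa using congrFun (h5.eq_zero h) 0)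
  refine ⟨_, h5.mem_stab_bin e (by omega) (omegaGL_le _ (eGL_mem hQ (by omega) _ _)) fun p a => ?_,
    eGL_mem hQ (by omega) _ _, not_mem_stab_of hD.decomp.decomp (hm (1, u 0) _) (h9 _)
      (h8 _ (by simp) (by simp) _) (hm (0, u 0) (Pi.single 0 1)) fun h => ?_⟩
  · by_cases hp : p = (0, u 0)
    · subst hp; exact ⟨(0, u 1), _, h6 a⟩
    by_cases hp' : p = (0, u 1)
    · subst hp'; exact ⟨(0, u 0), _, h7 a⟩
    · exact ⟨_, _, h8 p hp hp' _⟩
  · rw [h6] at h
    exact h9 (0, u 1) (Submodule.disjoint_def.1 (hD.decomp.decomp.indep.pairwiseDisjoint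
      (hu.ne (show (0 : Fin 2) ≠ 1 by decide))) _ h (hm (0, u 1) _))

theorem ne_top_of_card {F₀ : Subfield F} {r : ℕ} (hr : r.Prime)
    (h : Fintype.card F = Nat.card F₀ ^ r) : F₀ ≠ ⊤ := by
  rintro rfl
  rw [Nat.card_congr Subfield.topEquiv.toEquiv, Nat.card_eq_fintype_card] at h
  exact (Nat.pow_lt_pow_right Fintype.one_lt_card hr.one_lt).ne (by rw [pow_one]; exact h)

theorem exists_subfield_of_not_prime (h : ¬ (Fintype.card F).Prime) :
    ∃ (F₀ : Subfield F) (r : ℕ), r.Prime ∧ Fintype.card F = Nat.card F₀ ^ r := by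
  obtain ⟨p, hp⟩ := CharP.exists F
  have := Fact.mk (CharP.char_is_prime F p)
  obtain ⟨F₀, r, -, h1, h2, -⟩ := exists_subfield_prime_index (F := F) ⊥ fun h0 => h (by
    have h1 := Subfield.card_bot F p
    rw [h0, Nat.card_congr Subfield.topEquiv.toEquiv, Nat.card_eq_fintype_card] at h1
    exact h1 ▸ this.out)
  exact ⟨F₀, r, h1, h2⟩

/-- The non-maximal stabilisers of orthogonal decompositions. -/
theorem not_max_dec (hQ : ND Q) {k : ℕ} (hD : IsOrthogonalMDecomposition ⇑Q k D)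
    (h : 13 ≤ Fintype.card ι) (hcase : (k = 2 ∧ (Fintype.card F = 3 ∨
      ((∀ i, IsPlusTypeOn ⇑Q (D i)) ∧ (Fintype.card F = 2 ∨ Fintype.card F = 4 ∨
        Fintype.card F = 5)))) ∨ (k = 3 ∧ Fintype.card F = 3) ∨
      (k = 4 ∧ Fintype.card F = 2 ∧ ∀ i, IsPlusTypeOn ⇑Q (D i))) :
    ∃ K : Subgroup (GL ι F), decompositionStabilizer D ⊓ omegaGL ⇑Q < K ∧ K < omegaGL ⇑Q := by
  have hc := IsMDecomposition.card_eq' hD.decomp.decomp
  have ht := hD.decomp.decomp.two_le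
  let i : Fin t := ⟨0, by omega⟩
  have h1 := (ndon_of_nd (hD.decomp.nondegenerate i)).nd_comp
  have h2 := hD.decomp.decomp.finrank_eq i
  have h3 := inf_le_inf_left (decompositionStabilizer D) (omegaGL_le ⇑Q)
  have h4 : k = 2 → Fintype.card F ≤ 3 → IsPlusTypeOn ⇑Q (D i) → ∃ K : Subgroup (GL ι F),
      decompositionStabilizer D ⊓ omegaGL ⇑Q < K ∧ K < omegaGL ⇑Q := by
    rintro rfl hF hp
    obtain ⟨U, a, b, c, d⟩ := planes_le_three hQ hF hD hp
    obtain ⟨g, d1, d2, d3⟩ := d (by omega)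
    exact exists_between (h3.trans c) (omega_not_le_stabilizer hQ (by omega) a b) d1 d2 d3
  rcases hcase with ⟨rfl, hF | ⟨hp, hF | hF | hF⟩⟩ | ⟨rfl, hF⟩ | ⟨rfl, hF, hp⟩
  · by_cases hp : IsPlusTypeOn ⇑Q (D i)
    · exact h4 rfl hF.le hp
    · exact not_max_of_rigid hQ hD (rigid_three_two hF h1 h2 (by rwa [← isPlusTypeOn_iff])) le_rfl
        (by omega)
  · exact h4 rfl (by omega) (hp i)
  · obtain ⟨F₀, r, a, b⟩ := exists_subfield_of_not_prime (F := F) (by rw [hF]; decide)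
    obtain ⟨B, ⟨-, -, -, c⟩, d⟩ := planes_four hQ hF hD (hp i) F₀
    obtain ⟨g, d1, d2, d3⟩ := d (by omega)
    exact exists_between (h3.trans c) (omega_not_le_subfield hQ (by omega) (ne_top_of_card a b) B)
      d1 d2 d3
  · exact not_max_of_rigid hQ hD (rigid_five_two hF h1 h2 ((isPlusTypeOn_iff _).1 (hp i))) le_rfl
      (by omega)
  · exact not_max_of_rigid hQ hD (rigid_three_three hF h1 h2) (by omega) (by omega)
  · obtain ⟨D', a, -, c, g, d1, d2, d3⟩ := fours_two hQ hF hD (hp i) rfl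
    exact exists_between (h3.trans c) (omega_not_le_nd hQ (by omega) a.decomp) d1 d2 d3

end dec

end Cfsg.Agent.Class.Asch
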