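import Cfsg.Agent.Class.Asch.OAsch
import Cfsg.Agent.Class.Asch.SL34
import Cfsg.Agent.Class.FinFieldExt

/-! Subfield structures and frames for quadratic forms. -/

set_option autoImplicit false
set_option linter.unusedSectionVars false

namespace Cfsg.Agent.Class.Asch

open Cfsg.Geo Cfsg.Agent.Class.Orth QuadraticMap Module
open scoped MatrixGroups Matrix Kronecker commutatorElement

variable {ι : Type} [Fintype ι] [DecidableEq ι] {F : Type*} [Field F]
  {Q : QuadraticForm F (ι → F)}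

/-- A subfield structure carrying a multiple of the polar form. -/
def OSub (Q : QuadraticForm F (ι → F)) (H : Subgroup (GL ι F)) (F₀ : Subfield F) (B : GL ι F) :
    Prop :=
  ∃ ζ : F, ζ ≠ 0 ∧ Ent F₀ (ζ • gramB (polar Q) B) ∧ H ≤ subfieldSubgroup F₀ B

theorem RatData.oSub [Nonempty ι] (hQ : ND Q) {H : Subgroup (GL ι F)} {F₀ : Subfield F}
    {B : GL ι F} (h : RatData (RingEquiv.refl F) (polar Q) H F₀ B) : OSub Q H F₀ B :=
  let ⟨ζ, h0, h1⟩ := h.exists_ent (fcq hQ) fun _ hc => hc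
  ⟨ζ, h0, h1, h.le⟩

theorem subfieldSubgroup_scal_mul (F₀ : Subfield F) (b : Fˣ) (B : GL ι F) :
    subfieldSubgroup F₀ (scal b * B) = subfieldSubgroup F₀ B := by
  ext g
  rw [mem_subfieldSubgroup_iff, mem_subfieldSubgroup_iff]
  have h := scalars_comm' (scal_mem (ι := ι) b) g
  have : (scal b * B)⁻¹ * g * (scal b * B) = B⁻¹ * g * B := by
    calc (scal b * B)⁻¹ * g * (scal b * B) = B⁻¹ * (scal b)⁻¹ * (g * scal b) * B := by group
      _ = _ := by rw [← h]; group
  rw [this]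

theorem quad_rational_of_polar (h2 : (2 : F) ≠ 0) {F₀ : Subfield F} {ζ : F} {B : GL ι F}
    (h : IsFormRationalStructure (polar Q) F₀ ζ B) :
    IsQuadFormRationalStructure (fun v => ζ * Q v) F₀ B := fun u hu => by
  have h1 := F₀.div_mem (h u u hu hu) (ofNat_mem F₀ 2)
  rw [polar_self'] at h1
  convert h1 using 1
  field_simp

theorem OSub.odd (hQ : ND Q) (hι : Odd (Fintype.card ι)) (h2 : (2 : F) ≠ 0)
    {H : Subgroup (GL ι F)} {F₀ : Subfield F} (hG : (gramMatrix (polar Q)).det ∈ F₀) {B : GL ι F}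
    (h : OSub Q H F₀ B) :
    ∃ B', IsQuadFormRationalStructure ⇑Q F₀ B' ∧ H ≤ subfieldSubgroup F₀ B' := by
  have hf := fcq hQ
  obtain ⟨ζ, hζ, h1, hle⟩ := h
  obtain ⟨m, hm⟩ := hι
  have hB : (B : Matrix ι ι F).det ≠ 0 := Matrix.GeneralLinearGroup.det_ne_zero _
  have h3 : (ζ • gramB (polar Q) B).det =
      ζ * (ζ ^ m * (B : Matrix ι ι F).det) ^ 2 * (gramMatrix (polar Q)).det := by
    rw [Matrix.det_smul, hf.gramB_eq, Matrix.det_mul, Matrix.det_mul, Matrix.det_transpose, hm]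
    change _ * (_ * _ * (B : Matrix ι ι F).det) = _
    ring
  have h4 := F₀.div_mem h1.det hG
  rw [h3, mul_div_cancel_right₀ _ hf.det_ne] at h4
  have hs : ζ ^ m * (B : Matrix ι ι F).det ≠ 0 := mul_ne_zero (pow_ne_zero _ hζ) hB
  refine ⟨scal (Units.mk0 _ hs)⁻¹ * B, ?_, (subfieldSubgroup_scal_mul F₀ _ B).symm ▸ hle⟩
  have := quad_rational_of_polar (Q := Q) h2 (ζ := 1) (F₀ := F₀)
    (B := scal (Units.mk0 _ hs)⁻¹ * B) (hf.rational_of_ent (fun c hc => hc) ?_)
  · simpa only [one_mul] using this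
  have h5 := h1.smul (F₀.inv_mem h4)
  rw [one_smul, hf.gramB_scal_mul]
  rw [smul_smul] at h5
  convert h5 using 2
  simp only [Units.val_inv_eq_inv_val, Units.val_mk0, RingEquiv.refl_apply]
  field_simp

theorem exists_frob [Fintype F] (F₀ : Subfield F) : ∃ τ : F ≃+* F, ∀ x, τ x = x ↔ x ∈ F₀ := by
  classical
  refine ⟨(FiniteField.frobeniusAlgEquivOfAlgebraic F₀ F).toRingEquiv, fun x => ?_⟩
  rw [mem_subfield_iff_pow, Nat.card_eq_fintype_card]
  rfl

theorem OSub.quad [Fintype F] (hQ : ND Q) (hι : 2 ≤ Fintype.card ι) {H : Subgroup (GL ι F)}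
    (hI : H ≤ isometryGroup F ⇑Q) (hH : Irr H) {F₀ : Subfield F} {B : GL ι F}
    (h : OSub Q H F₀ B) : ∃ ζ : F, ζ ≠ 0 ∧ IsQuadFormRationalStructure (fun v => ζ * Q v) F₀ B ∧
      H ≤ subfieldSubgroup F₀ B := by
  have := nonempty_of_two_le hι
  have hf := fcq hQ
  obtain ⟨ζ, hζ, h1, hle⟩ := h
  refine ⟨ζ, hζ, ?_, hle⟩
  by_cases h2 : (2 : F) = 0
  swap
  · exact quad_rational_of_polar h2 (hf.rational_of_ent (fun c hc => hc) h1)
  obtain ⟨τ, hτ⟩ := exists_frob F₀
  set G := ζ • gramB (polar Q) B with hG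
  have hGd : G.det ≠ 0 := det_smul_ne_zero (hf.pull (Equiv.refl ι) B).det_ne hζ
  have hp : ∀ u w, ζ * polar Q ((B : Matrix ι ι F) *ᵥ u) ((B : Matrix ι ι F) *ᵥ w) =
      formOfGram (RingEquiv.refl F) G u w := fun u w => by rw [hf.eq_gramB, hG, frm_smul]
  have hmap : ∀ X : Matrix ι ι F, Ent F₀ X → X.map τ = X := fun X hX =>
    Matrix.ext fun i j => (hτ _).2 (hX i j)
  let φ : (ι → F) → ι → F := fun v =>
    (B : Matrix ι ι F) *ᵥ (τ ∘ (((B⁻¹ : GL ι F) : Matrix ι ι F) *ᵥ v))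
  have hφ : ∀ u, φ ((B : Matrix ι ι F) *ᵥ u) = (B : Matrix ι ι F) *ᵥ (τ ∘ u) := fun u => by
    simp only [φ, inv_mulVec_mulVec]
  have hs : ∀ v, ∃ u, v = (B : Matrix ι ι F) *ᵥ u := fun v => ⟨_, (mulVec_inv_mulVec B v).symm⟩
  have key := additive_vanish h2 hι hH (fun v => τ.symm (ζ * Q (φ v)) - ζ * Q v)
    (fun v w => ?_) (fun c v => ?_) (fun g hg v hv => ?_)
  · intro u hu
    have h3 := key ((B : Matrix ι ι F) *ᵥ u)
    rw [hφ, show τ ∘ u = u from funext fun i => (hτ _).2 (hu i), sub_eq_zero,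
      RingEquiv.symm_apply_eq] at h3
    exact (hτ _).1 h3.symm
  · obtain ⟨u, rfl⟩ := hs v
    obtain ⟨u', rfl⟩ := hs w
    have h3 : formOfGram (RingEquiv.refl F) G (τ ∘ u) (τ ∘ u') =
        τ (formOfGram (RingEquiv.refl F) G u u') := by
      simp only [formOfGram, map_sum, map_mul, (hτ _).2 (h1 _ _), Function.comp,
        RingEquiv.refl_apply]
    rw [← Matrix.mulVec_add, hφ, hφ, hφ, show τ ∘ (u + u') = τ ∘ u + τ ∘ u' from
      funext fun i => map_add τ _ _, Matrix.mulVec_add, Matrix.mulVec_add, Q_add, Q_add, mul_add,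
      mul_add, mul_add, mul_add, hp, hp, h3, map_add, map_add, RingEquiv.symm_apply_apply]
    ring
  · obtain ⟨u, rfl⟩ := hs v
    rw [← Matrix.mulVec_smul, hφ, hφ, show τ ∘ (c • u) = τ c • (τ ∘ u) from
      funext fun i => map_mul τ _ _, Matrix.mulVec_smul, Matrix.mulVec_smul, Q_smul, Q_smul,
      mul_left_comm, map_mul, map_pow, RingEquiv.symm_apply_apply]
    ring
  · obtain ⟨u, rfl⟩ := hs v
    obtain ⟨c, hc0, hc⟩ := exists_ent_of_mem_subfieldSubgroup (hle hg)
    set g' := cj B⁻¹ (g : Matrix ι ι F) with hg'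
    have h3 : ∀ x, (g : Matrix ι ι F) *ᵥ ((B : Matrix ι ι F) *ᵥ x) =
        (B : Matrix ι ι F) *ᵥ (g' *ᵥ x) := fun x => by
      rw [← cj_mulVec B g', hg', cj_cj_inv]
    have h4 : (c • g')ᵀ * G * (c • g').map (RingEquiv.refl F) = (c * c) • G :=
      frm_inj (RingEquiv.refl F) fun x y => by
        rw [← frm_mulVec, frm_smul _ (c * c), ← hp, ← hp, Matrix.smul_mulVec, Matrix.smul_mulVec,
          Matrix.mulVec_smul, Matrix.mulVec_smul, ← h3, ← h3, polar_smul_left', polar_smul_right',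
          polar_gl (hI hg)]
        ring
    have h5 : c * c ∈ F₀ := ent_exists_ratio hGd h1 (h4 ▸ (hc.transpose.mul h1).mul hc)
    have h6 : c ∈ F₀ := (hτ c).1 (by
      have h7 := (hτ _).2 h5
      rw [map_mul] at h7
      rw [← sub_eq_zero, ← pow_eq_zero_iff two_ne_zero]
      linear_combination h7 + (c * c - c * τ c) * h2)
    have h7 : Ent F₀ g' := by
      have := hc.smul (F₀.inv_mem h6)
      rwa [smul_smul, inv_mul_cancel₀ hc0, one_smul] at this
    rw [hφ] at hv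
    rw [h3, hφ, comp_mulVec, hmap _ h7, ← h3, ← h3, Q_mulVec (hI hg), Q_mulVec (hI hg), hv]

theorem exists_root_of_card_sq [Fintype F] {F₀ : Subfield F}
    (h : Fintype.card F = Nat.card F₀ ^ 2) (a b : F₀) : ∃ θ : F, θ ^ 2 + a * θ + b = 0 := by
  classical
  rw [Nat.card_eq_fintype_card] at h
  by_cases h1 : ∀ r : F₀, r ^ 2 ≠ -b + a * r
  · have := Fact.mk h1
    obtain ⟨f⟩ := FiniteField.nonempty_algHom_of_finrank_dvd (F := F₀)
      (K := QuadraticAlgebra F₀ (-b) a) (L := F) (by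
        rw [QuadraticAlgebra.finrank_eq_two, Class.FinExt.finrank_eq_of_card h])
    have h2 := congrArg f
      (QuadraticAlgebra.omega_mul_omega_eq_algebraMap (R := F₀) (a := -b) (b := a))
    rw [map_mul, map_add, map_mul, f.commutes, f.commutes, map_neg] at h2
    exact ⟨-f QuadraticAlgebra.omega, by
      change _ + algebraMap F₀ F a * _ + algebraMap F₀ F b = 0
      linear_combination h2⟩
  · push Not at h1
    obtain ⟨r, hr⟩ := h1
    refine ⟨((-r : F₀) : F), ?_⟩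
    have : ((-r) ^ 2 + a * (-r) + b : F₀) = 0 := by linear_combination hr
    exact_mod_cast congrArg Subtype.val this

/-- A form defined over the subfield of index two is of plus type. -/
theorem isPlus_of_index_two [Fintype F] (hQ : ND Q) (he : Even (Fintype.card ι))
    {F₀ : Subfield F} (hF : Fintype.card F = Nat.card F₀ ^ 2) {ζ : F} (hζ : ζ ≠ 0) {B : GL ι F}
    (h : IsQuadFormRationalStructure (fun v => ζ * Q v) F₀ B) : IsPlusTypeOn ⇑Q ⊤ := by
  classical
  let c : (ι → F₀) → ι → F := fun u => (B : Matrix ι ι F) *ᵥ fun i => (u i : F)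
  have cadd : ∀ u w, c (u + w) = c u + c w := fun u w => by
    simp only [c, ← Matrix.mulVec_add]; rfl
  have csmul : ∀ (a : F₀) u, c (a • u) = (a : F) • c u := fun a u => by
    simp only [c, ← Matrix.mulVec_smul]; rfl
  let q₀ : (ι → F₀) → F₀ := fun u => ⟨ζ * Q (c u), h _ fun i => (u i).2⟩
  have hq : ∀ u, (q₀ u : F) = ζ * Q (c u) := fun u => rfl
  have hp : ∀ u w, ((polar q₀ u w : F₀) : F) = ζ * polar Q (c u) (c w) := fun u w => by
    simp only [polar, AddSubgroupClass.coe_sub, hq, cadd]; ring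
  have hnd : ∀ v : ι → F₀, (∀ x, polar q₀ x v = 0) → v = 0 := fun v hv => by
    have h1 : ∀ j, polar Q ((B : Matrix ι ι F) *ᵥ Pi.single j 1) (c v) = 0 := fun j => by
      have h2 := hp (Pi.single j 1) v
      rw [hv] at h2
      have h3 : c (Pi.single j 1) = (B : Matrix ι ι F) *ᵥ Pi.single j 1 := by
        simp only [c]; congr 1; ext i; by_cases hij : i = j <;> simp [hij]
      exact h3 ▸ (mul_eq_zero.1 h2.symm).resolve_left hζ
    have h2 : c v = 0 := hQ _ fun y => by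
      rw [← mulVec_inv_mulVec B y, pi_eq_sum_univ' (_ *ᵥ y), Matrix.mulVec_sum, QF.polar_sum_right]
      refine Finset.sum_eq_zero fun j _ => ?_
      rw [Matrix.mulVec_smul, polar_smul_right', polar_comm, h1, mul_zero]
    have h3 := congrArg (((B⁻¹ : GL ι F) : Matrix ι ι F) *ᵥ ·) h2
    simp only [c, inv_mulVec_mulVec, Matrix.mulVec_zero] at h3
    exact funext fun i => Subtype.ext (congrFun h3 i)
  have hq₀ : IsNondegenerateQuadraticForm q₀ := by
    refine ⟨fun a v => Subtype.ext ?_, ⟨fun x y v => Subtype.ext ?_, fun a x v => Subtype.ext ?_,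
      fun v x y => Subtype.ext ?_, fun a v x => Subtype.ext ?_⟩, fun v hv => ?_⟩
    · rw [hq, csmul, Q_smul]; push_cast; rw [hq]; ring
    · push_cast; rw [hp, hp, hp, cadd, polar_add_left, mul_add]
    · push_cast; rw [hp, hp, csmul, polar_smul_left']; ring
    · push_cast; rw [hp, hp, hp, cadd, polar_add_right, mul_add]
    · push_cast; rw [hp, hp, csmul, polar_smul_right']; ring
    · obtain ⟨x, hx⟩ := not_forall.1 fun h => hv (hnd v h)
      exact ⟨⟨x, hx⟩, x, by rwa [polar_comm]⟩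
  let Q₀ := Max.qfOf hq₀
  have z1 : ∀ u, Q₀ u = 0 → Q (c u) = 0 := fun u hu =>
    (mul_eq_zero.1 ((hq u).symm.trans (congrArg Subtype.val hu))).resolve_left hζ
  have z2 : ∀ u w, polar Q₀ u w = 0 → polar Q (c u) (c w) = 0 := fun u w hu =>
    (mul_eq_zero.1 ((hp u w).symm.trans (congrArg Subtype.val hu))).resolve_left hζ
  obtain ⟨k, e, f, hef, han⟩ := QF.exists_hypSys_anisotropic ((nd_iff _).1 (Max.nd_qfOf hq₀))
  have hef' : QF.IsHypSys Q (fun i => c (e i)) (fun i => ζ • c (f i)) :=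
    ⟨fun i => z1 _ (hef.qe i), fun i => by rw [Q_smul, z1 _ (hef.qf i), mul_zero],
      fun i j => z2 _ _ (hef.ee i j),
      fun i j => by rw [polar_smul_left', polar_smul_right', z2 _ _ (hef.ff i j)]; simp,
      fun i => by rw [polar_smul_right', ← hp]; exact congrArg Subtype.val (hef.ef_self i),
      fun i j hij => by rw [polar_smul_right', z2 _ _ (hef.ef_ne i j hij), mul_zero]⟩
  have d1 := hef.finrank_eq
  have d2 := QF.finrank_le_two_of_anisotropic (Q₀.comp (QF.hypPerp Q₀ e f).subtype)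
    fun v hv => Subtype.ext (han v.1 v.2 hv)
  rw [finrank_fun, Fintype.card_fin] at d1
  change _ = _ + finrank F₀ (QF.hypPerp Q₀ e f) at d1
  change finrank F₀ (QF.hypPerp Q₀ e f) ≤ 2 at d2
  obtain ⟨m, hm⟩ := he
  rw [isPlusTypeOn_top_iff]
  by_cases d3 : finrank F₀ (QF.hypPerp Q₀ e f) = 0
  · exact ⟨_, hef'.span_e.1, by rw [hef'.span_e.2, finrank_fun, Fintype.card_fin]; omega⟩
  have d4 : finrank F₀ (QF.hypPerp Q₀ e f) = 2 := by omega
  let b := Module.finBasisOfFinrankEq F₀ _ d4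
  have hx : Q₀ (b 0).1 ≠ 0 := fun h0 => b.ne_zero 0 (Subtype.ext (han _ (b 0).2 h0))
  obtain ⟨θ, hθ⟩ := exists_root_of_card_sq hF (polar Q₀ (b 0).1 (b 1).1 / Q₀ (b 0).1)
    (Q₀ (b 1).1 / Q₀ (b 0).1)
  have hx' : ζ * Q (c (b 0).1) ≠ 0 := fun h0 => hx (Subtype.ext h0)
  have hperp : ∀ u ∈ QF.hypPerp Q₀ e f, c u ∈ QF.hypPerp Q (fun i => c (e i))
      (fun i => ζ • c (f i)) := fun u hu i =>
    ⟨z2 _ _ (hu i).1, by rw [polar_smul_left', z2 _ _ (hu i).2, mul_zero]⟩
  have hz := Submodule.add_mem _ (Submodule.smul_mem _ θ (hperp _ (b 0).2)) (hperp _ (b 1).2)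
  have hz0 : θ • c (b 0).1 + c (b 1).1 ≠ 0 := fun h0 => by
    obtain ⟨i, hi⟩ := Function.ne_iff.1 fun h => b.ne_zero 0 (Subtype.ext h)
    have h1 := congrArg (((B⁻¹ : GL ι F) : Matrix ι ι F) *ᵥ ·) h0
    simp only [c, Matrix.mulVec_add, Matrix.mulVec_smul, inv_mulVec_mulVec,
      Matrix.mulVec_zero] at h1
    have hi' : (((b 0).1 i : F₀) : F) ≠ 0 := fun h => hi (Subtype.ext h)
    have h2 : θ = ((-((b 1).1 i / (b 0).1 i) : F₀) : F) := by
      have h3 := congrFun h1 i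
      simp only [Pi.add_apply, Pi.smul_apply, smul_eq_mul, Pi.zero_apply] at h3
      push_cast
      field_simp
      linear_combination h3
    have h4 := LinearIndependent.pair_iff.1 (show LinearIndependent F₀ ![b 0, b 1] by
      convert b.linearIndependent; ext1 j; fin_cases j <;> rfl)
      (-((b 1).1 i / (b 0).1 i)) 1 (Subtype.ext (funext fun j => Subtype.ext (by
        have := congrFun h1 j
        rw [h2] at this
        simpa using this)))
    exact one_ne_zero h4.2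
  have hzQ : Q (θ • c (b 0).1 + c (b 1).1) = 0 := by
    push_cast at hθ
    change θ ^ 2 + ((polar q₀ (b 0).1 (b 1).1 : F₀) : F) / (ζ * Q (c (b 0).1)) * θ +
      (ζ * Q (c (b 1).1)) / (ζ * Q (c (b 0).1)) = 0 at hθ
    rw [hp] at hθ
    rw [Q_add, Q_smul, polar_smul_left']
    have h1 := right_ne_zero_of_mul hx'
    field_simp at hθ
    linear_combination hθ
  obtain ⟨y, hy, hzy⟩ := NDon.exists_isHyp (Q := Q)
    (fun w hw H => hef'.perp_nondeg' ((nd_iff Q).1 hQ) hw H) hz hz0 hzQ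
  have h5 := (hef'.cons hz hy hzy.left hzy.right hzy.pol).span_e
  refine ⟨_, h5.1, ?_⟩
  rw [h5.2, finrank_fun, Fintype.card_fin]; omega

theorem exists_GL_of_gram (hQ : ND Q) (b : ι → ι → F)
    (hd : (Matrix.of fun i j => polar Q (b i) (b j)).det ≠ 0) :
    ∃ B : GL ι F, (∀ j, (B : Matrix ι ι F) *ᵥ Pi.single j 1 = b j) ∧
      gramB (polar Q) B = Matrix.of fun i j => polar Q (b i) (b j) := by
  let X : Matrix ι ι F := Matrix.of fun i j => b j i
  have hX : ∀ j, X *ᵥ Pi.single j 1 = b j := fun j => by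
    rw [Matrix.mulVec_single_one]; rfl
  have h1 : (Matrix.of fun i j => polar Q (b i) (b j)) =
      Xᵀ * gramMatrix (polar Q) * X.map (RingEquiv.refl F) := by
    ext i j
    rw [← frm_single (RingEquiv.refl F) (Xᵀ * _ * _), ← frm_mulVec, hX, hX,
      ← (fcq hQ).sesq.eq_frm, Matrix.of_apply]
  have h2 : X.det ≠ 0 := fun h => hd (by
    rw [h1, Matrix.det_mul, Matrix.det_mul, Matrix.det_transpose, h, zero_mul, zero_mul])
  exact ⟨Matrix.GeneralLinearGroup.mkOfDetNeZero X h2, hX, by rw [(fcq hQ).gramB_eq, h1]; rfl⟩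

theorem exists_sub_of_family [Nonempty ι] (hQ : ND Q) {κ : Type} [Fintype κ] [DecidableEq κ]
    (hκ : Fintype.card ι = Fintype.card κ) (b : κ → ι → F)
    (hd : (Matrix.of fun i j => polar Q (b i) (b j)).det ≠ 0) {F₀ : Subfield F} {ζ : F}
    (hb : ∀ i j, ζ * polar Q (b i) (b j) ∈ F₀) : ∃ B, Ent F₀ (ζ • gramB (polar Q) B) ∧
      ∀ g : GL ι F, (∀ j, (g : Matrix ι ι F) *ᵥ b j ∈ Submodule.span F₀ (Set.range b)) →
        g ∈ subfieldSubgroup F₀ B := by
  let e := Fintype.equivOfCardEq hκ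
  obtain ⟨B, h1, h2⟩ := exists_GL_of_gram hQ (fun i => b (e i)) (by
    rwa [← Matrix.det_submatrix_equiv_self e] at hd)
  refine ⟨B, fun i j => h2 ▸ hb _ _, fun g hg => mem_subfieldSubgroup_of_ent one_ne_zero ?_⟩
  rw [one_smul]
  refine ent_cj_inv_of_cols fun j => ?_
  obtain ⟨u, h3⟩ := (Submodule.mem_span_range_iff_exists_fun F₀).1 (hg (e j))
  refine ⟨fun i => u (e i), fun i => (u _).2, ?_⟩
  rw [h1, ← h3, pi_eq_sum_univ' (fun i => (u (e i) : F)), Matrix.mulVec_sum, ← e.sum_comp]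
  exact Finset.sum_congr rfl fun i _ => by rw [Matrix.mulVec_smul, h1]; rfl

end Cfsg.Agent.Class.Asch
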