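import Cfsg.Agent.Class.Asch.OBasic

/-! Totally singular subspaces and `Ω`: the two classes of maximal subspaces. -/

set_option autoImplicit false
set_option linter.unusedSectionVars false

namespace Cfsg.Agent.Class.Asch

open Cfsg.Geo Cfsg.Agent.Class.Orth QuadraticMap Module
open scoped MatrixGroups Matrix Kronecker commutatorElement

theorem exists_between {G : Type*} [Group G] {Ω S M : Subgroup G} (hle : S ⊓ Ω ≤ M)
    (hne : ¬ Ω ≤ M) {g : G} (hgM : g ∈ M) (hgΩ : g ∈ Ω) (hg : g ∉ S) :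
    ∃ K : Subgroup G, S ⊓ Ω < K ∧ K < Ω :=
  ⟨M ⊓ Ω, lt_of_le_of_ne (le_inf hle inf_le_right) fun h => hg (h.ge ⟨hgM, hgΩ⟩).1,
    lt_of_le_of_ne inf_le_right fun h => hne (h.ge.trans inf_le_left)⟩

variable {ι : Type} [Fintype ι] [DecidableEq ι] {F : Type*} [Field F]
  {Q : QuadraticForm F (ι → F)}

theorem mem_stabilizer_of_le {W : Submodule F (ι → F)} {g : GL ι F}
    (h : ∀ v ∈ W, (g : Matrix ι ι F) *ᵥ v ∈ W) : g ∈ subspaceStabilizer W := by
  have h1 : W.map (Matrix.toLin' (g : Matrix ι ι F)) = W :=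
    Submodule.eq_of_le_of_finrank_eq (by rintro _ ⟨v, hv, rfl⟩; exact h v hv) (finrank_map_gl g W)
  refine mem_subspaceStabilizer.2 fun v => ⟨h v, fun hv => ?_⟩
  rw [← h1] at hv
  obtain ⟨w, hw, h2⟩ := hv
  have h3 := congrArg (fun x => ((g⁻¹ : GL ι F) : Matrix ι ι F) *ᵥ x) h2
  simp only [Matrix.toLin'_apply, inv_mulVec_mulVec] at h3
  exact h3 ▸ hw

theorem map_eq_of_mem_stabilizer {W : Submodule F (ι → F)} {g : GL ι F}
    (h : g ∈ subspaceStabilizer W) : W.map (Matrix.toLin' (g : Matrix ι ι F)) = W :=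
  (inv_of_le_stabilizer le_rfl).map_eq h

theorem isPlusTypeOn_top_iff : IsPlusTypeOn ⇑Q ⊤ ↔ QF.IsPlus Q :=
  ⟨fun ⟨U, _, h1, h2⟩ => ⟨U, h1, by rwa [finrank_top] at h2⟩,
    fun ⟨U, h1, h2⟩ => ⟨U, le_top, h1, by rwa [finrank_top]⟩⟩

theorem exists_maxTS_ge (hQ : ND Q) (hp : IsPlusTypeOn ⇑Q ⊤) {W : Submodule F (ι → F)}
    (hW : IsTotallySingularQuad ⇑Q W) : ∃ U, W ≤ U ∧ IsTotallySingularQuad ⇑Q U ∧
      2 * finrank F U = Fintype.card ι := by
  obtain ⟨X, -, h1, h2⟩ := hp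
  obtain ⟨h3, h4⟩ := TS.extend (Q := Q) h1 hW
  have h5 := TS.two_mul_le hQ h3
  rw [finrank_top, finrank_fun] at h2
  rw [finrank_fun] at h5
  exact ⟨_, le_sup_left, h3, by omega⟩

variable [Finite F]

theorem exists_eichler_move (hQ : ND Q) (h5 : 5 ≤ Fintype.card ι) {a y : ι → F} (ha : Q a = 0)
    (hy : polar Q y a = 0) (hya : ∀ c : F, y ≠ c • a) : ∃ g ∈ omegaGL ⇑Q,
      (g : Matrix ι ι F) *ᵥ y = y + a ∧
        ∀ x, polar Q x a = 0 → ∃ c : F, (g : Matrix ι ι F) *ᵥ x = x + c • a := by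
  obtain ⟨b, -, h1, h2⟩ := hQ.ndon_top.exists_polar_eq_eq_zero trivial trivial hya 1
  exact ⟨_, eGL_mem hQ h5 a b, by rw [eGL_mulVec_of_perp ha h2 hy, h1, one_smul],
    fun x hx => ⟨_, eGL_mulVec_of_perp ha h2 hx⟩⟩

theorem stab_le_stab_maxTS (hQ : ND Q) (h5 : 5 ≤ Fintype.card ι) {W U : Submodule F (ι → F)}
    (hWU : W ≤ U) (hU : IsTotallySingularQuad ⇑Q U) (dU : 2 * finrank F U = Fintype.card ι)
    (dW : 2 * (finrank F W + 1) = Fintype.card ι) :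
    subspaceStabilizer W ⊓ omegaGL ⇑Q ≤ subspaceStabilizer U := by
  rintro g ⟨hg, hgΩ⟩
  have h1 := even_codim_of_mem_omegaGL hQ h5 dU.symm hU rfl hgΩ
  have h2 : W ≤ U ⊓ U.map (Matrix.toLin' (g : Matrix ι ι F)) :=
    le_inf hWU ((map_eq_of_mem_stabilizer hg).ge.trans (Submodule.map_mono hWU))
  have h3 := Submodule.finrank_mono h2
  have h4 := Submodule.finrank_mono
    (inf_le_right : U ⊓ U.map (Matrix.toLin' (g : Matrix ι ι F)) ≤ _)
  have h6 := finrank_map_gl g U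
  obtain ⟨k, hk⟩ := h1
  have h7 := Submodule.eq_of_le_of_finrank_le
    (inf_le_right : U ⊓ U.map (Matrix.toLin' (g : Matrix ι ι F)) ≤ _) (by omega)
  exact mem_stabilizer_of_le fun v hv => (h7.ge ⟨v, hv, rfl⟩).1

theorem stab_pair_le (hQ : ND Q) (h5 : 5 ≤ Fintype.card ι) {m : ℕ} (hm : Odd m)
    {D : Fin 2 → Submodule F (ι → F)} (hD : IsMDecomposition m D)
    (hts : ∀ i, IsTotallySingularQuad ⇑Q (D i)) :
    decompositionStabilizer D ⊓ omegaGL ⇑Q ≤ subspaceStabilizer (D 0) := by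
  rintro g ⟨⟨σ, hσ⟩, hgΩ⟩
  have h1 := even_codim_of_mem_omegaGL hQ h5
    ((IsMDecomposition.card_eq' hD).trans (mul_comm _ _)) (hts 0) (hD.finrank_eq 0) hgΩ
  by_cases h : σ 0 = 0
  · exact mem_stabilizer_of_le fun v hv => h ▸ (hσ 0).le ⟨v, hv, rfl⟩
  · rw [hσ, (hD.indep.pairwiseDisjoint (Ne.symm h)).eq_bot, finrank_bot, Nat.sub_zero] at h1
    exact absurd h1 (Nat.not_even_iff_odd.2 hm)

theorem not_max_ts (hQ : ND Q) (h5 : 5 ≤ Fintype.card ι) (hp : IsPlusTypeOn ⇑Q ⊤)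
    {W : Submodule F (ι → F)} (hW : IsTotallySingularQuad ⇑Q W)
    (dW : 2 * (finrank F W + 1) = Fintype.card ι) :
    ∃ K : Subgroup (GL ι F), subspaceStabilizer W ⊓ omegaGL ⇑Q < K ∧ K < omegaGL ⇑Q := by
  obtain ⟨U, hWU, hU, dU⟩ := exists_maxTS_ge hQ hp hW
  obtain ⟨a, haU, haW⟩ := SetLike.exists_of_lt (lt_of_le_of_ne hWU (by rintro rfl; omega))
  obtain ⟨y, hy, hy0⟩ := Submodule.exists_mem_ne_zero_of_ne_bot (p := W) (by
    rintro rfl; rw [finrank_bot] at dW; omega)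
  obtain ⟨g, hg, h1, h2⟩ := exists_eichler_move hQ h5 (hU a haU) (TS.polar_eq hU (hWU hy) haU)
    fun c hc => haW ((W.smul_mem_iff (by rintro rfl; exact hy0 (by simpa using hc))).1 (hc ▸ hy))
  refine exists_between (stab_le_stab_maxTS hQ h5 hWU hU dU dW) (omega_not_le_stabilizer hQ h5
    (by rintro rfl; rw [finrank_bot] at dU; omega) (ts_ne_top hQ (by omega) hU))
    (mem_stabilizer_of_le fun v hv => ?_) hg fun h => haW ?_
  · obtain ⟨c, hc⟩ := h2 v (TS.polar_eq hU hv haU)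
    exact hc ▸ U.add_mem hv (U.smul_mem c haU)
  · exact (W.add_mem_iff_right hy).1 (h1 ▸ (mem_subspaceStabilizer.1 h y).1 hy)

theorem not_max_pair (hQ : ND Q) (h5 : 5 ≤ Fintype.card ι) {m : ℕ} (hm : Odd m)
    {D : Fin 2 → Submodule F (ι → F)} (hD : IsMDecomposition m D)
    (hts : ∀ i, IsTotallySingularQuad ⇑Q (D i)) :
    ∃ K : Subgroup (GL ι F), decompositionStabilizer D ⊓ omegaGL ⇑Q < K ∧ K < omegaGL ⇑Q := by
  have hc := IsMDecomposition.card_eq' hD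
  obtain ⟨x, hx, hx0⟩ := IsMDecomposition.exists_ne_zero' hD 1
  obtain ⟨a, ha, ha0, hxa⟩ := exists_mem_polar_eq_zero (Q := Q) (W := D 0)
    (by rw [hD.finrank_eq]; omega) x
  obtain ⟨g, hg, h1, h2⟩ := exists_eichler_move hQ h5 (hts 0 a ha) hxa fun c h => hx0
    ((Submodule.disjoint_def.1 (hD.indep.pairwiseDisjoint (zero_ne_one' (Fin 2)))) x
      (h ▸ (D 0).smul_mem c ha) hx)
  refine exists_between (stab_pair_le hQ h5 hm hD hts) (omega_not_le_stabilizer hQ h5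
    (fun h => ha0 (by simpa [h] using ha)) (ts_ne_top hQ (by omega) (hts 0)))
    (mem_stabilizer_of_le fun v hv => ?_) hg (not_mem_decompositionStabilizer hx fun j => h1 ▸
      IsMDecomposition.add_notMem' hD hx hx0 (mem_iSup_ne (j := 0) (by decide) ha) ha0 j)
  obtain ⟨c, hc⟩ := h2 v (TS.polar_eq (hts 0) hv ha)
  exact hc ▸ (D 0).add_mem hv ((D 0).smul_mem c ha)

end Cfsg.Agent.Class.Asch
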