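import Cfsg.Agent.Class.Asch.OSmall

/-! Types of orthogonal sums. -/

set_option autoImplicit false
set_option linter.unusedSectionVars false

namespace Cfsg.Agent.Class.Asch

open Cfsg.Geo Cfsg.Agent.Class.Orth QuadraticMap Module
open scoped MatrixGroups Matrix Kronecker commutatorElement

section gen

variable {F : Type*} [Field F] {V E : Type*} [AddCommGroup V] [Module F V] [AddCommGroup E]
  [Module F E] [FiniteDimensional F V] [FiniteDimensional F E] {κ : Type} [Fintype κ]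
  {Q : QuadraticForm F V} {q : QuadraticForm F E} {φ : κ → E →ₗ[F] V}

theorem two_ne_zero_of_odd_finrank [Finite F] (hq : ND q) (h : Odd (finrank F E)) :
    (2 : F) ≠ 0 := by
  obtain ⟨m, hm⟩ := h
  obtain ⟨-, -, -, h2, -⟩ := QF.exists_equiv_odd ((nd_iff _).1 hq) hm
  exact h2

theorem OFam.exists_ts (h : OFam Q q φ) {X : Type*} [AddCommGroup X] [Module F X]
    (T : X →ₗ[F] (κ → E)) (hT : Function.Injective T) (h0 : ∀ x, ∑ j, q (T x j) = 0) :
    ∃ Y : Submodule F V, TS Q Y ∧ finrank F Y = finrank F X ∧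
      ∀ p, (∀ x, T x p = 0) → ∀ y ∈ Y, ∀ z, polar Q y (φ p z) = 0 := by
  let Φ : (κ → E) →ₗ[F] V := ∑ j, φ j ∘ₗ LinearMap.proj j
  have h1 : ∀ x, Φ x = ∑ j, φ j (x j) := fun x => by simp [Φ]
  have h2 : Function.Injective Φ := (injective_iff_map_eq_zero _).2 fun x hx =>
    funext fun p => h.nd _ fun y => by rw [← h.polar_sum, ← h1, hx, polar_zero_left]
  refine ⟨LinearMap.range (Φ ∘ₗ T), ?_, LinearMap.finrank_range_of_inj (h2.comp hT), ?_⟩
  · rintro _ ⟨x, rfl⟩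
    rw [LinearMap.comp_apply, h1, h.Q_sum, h0]
  · rintro p hp _ ⟨x, rfl⟩ z
    rw [LinearMap.comp_apply, h1, h.polar_sum, hp, polar_zero_left]

theorem OFam.isPlus_of_isPlus (h : OFam Q q φ) (hp : QF.IsPlus q) : QF.IsPlus Q := by
  obtain ⟨U, h1, h2⟩ := hp
  obtain ⟨Y, h3, h4, -⟩ := h.exists_ts (U.subtype.compLeft κ)
    (fun x y hxy => funext fun j => Subtype.ext (congrFun hxy j))
    fun x => Finset.sum_eq_zero fun j _ => h1 _ (x j).2
  exact ⟨Y, h3, by
    rw [h4, ← h.card, ← h2, finrank_pi_fintype, Finset.sum_const, smul_eq_mul, Finset.card_univ]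
    ring⟩

theorem exists_anti [Finite F] (hq : ND q) (he : Even (finrank F E)) :
    ∃ α : E ≃ₗ[F] E, ∀ x, q (α x) = - q x := by
  have h3 : ND (-q) := fun x hx => hq x fun y => by
    have := hx y
    rwa [FunLike.coe_neg, polar_neg, neg_eq_zero] at this
  exact QF.exists_equiv_of_isPlus_iff ((nd_iff _).1 h3) ((nd_iff _).1 hq) rfl he
    ⟨QF.IsPlus.of_equiv (LinearEquiv.refl F E) (c := -1) fun v => by simp,
      QF.IsPlus.of_equiv (LinearEquiv.refl F E) (c := -1) fun v => by simp⟩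

theorem OFam.exists_ts_pairs [Finite F] (h : OFam Q q φ) (he : Even (finrank F E)) {s : ℕ}
    {τ : Type} [Fintype τ] (e : κ ≃ τ ⊕ (Fin s ⊕ Fin s)) : ∃ Y : Submodule F V, TS Q Y ∧
      finrank F Y = s * finrank F E ∧ ∀ j, ∀ y ∈ Y, ∀ z, polar Q y (φ (e.symm (.inl j)) z) = 0 := by
  obtain ⟨α, hα⟩ := exists_anti h.nd he
  obtain ⟨Y, h1, h2, h3⟩ := h.exists_ts (X := Fin s → E) (LinearMap.pi fun p =>
    Sum.elim (fun _ => 0) (Sum.elim (fun j => LinearMap.proj j)
      fun j => α.toLinearMap ∘ₗ LinearMap.proj j) (e p))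
    (fun x y hxy => funext fun j => by simpa using congrFun hxy (e.symm (.inr (.inl j))))
    fun x => by
      rw [← e.symm.sum_comp]
      simp [Fintype.sum_sum_type, hα]
  exact ⟨Y, h1, by simpa [finrank_pi_fintype] using h2, fun j => h3 _ fun x => by simp⟩

theorem OFam.isPlus_of_even [Finite F] (h : OFam Q q φ) (he : Even (finrank F E))
    (ht : Even (Fintype.card κ)) : QF.IsPlus Q := by
  obtain ⟨s, hs⟩ := ht
  obtain ⟨Y, h1, h2, -⟩ := h.exists_ts_pairs he (s := s) (τ := Empty)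
    (Fintype.equivOfCardEq (by simp [hs]))
  exact ⟨Y, h1, by rw [h2, ← h.card, hs]; ring⟩

theorem isPlus_of_perp (hQ : ND Q) (hp : QF.IsPlus Q) {Y W : Submodule F V} (hY : TS Q Y)
    (hW : NDon Q W) (ho : ∀ y ∈ Y, ∀ w ∈ W, polar Q y w = 0)
    (hd : 2 * finrank F Y + finrank F W = finrank F V) : QF.IsPlus (Q.comp W.subtype) := by
  obtain ⟨X, hX, h1⟩ := hp
  obtain ⟨h2, h3⟩ := TS.extend (Q := Q) hX hY
  have h4 : Y ⊓ W = ⊥ := eq_bot_iff.2 fun v hv => hW v hv.2 (ho v hv.1)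
  have h5 : Y ⊔ W = perp Q Y := by
    refine Submodule.eq_of_le_of_finrank_eq (sup_le (hY.le_perp le_rfl) fun w hw y hy => ho y hy w hw)
      ?_
    have := Submodule.finrank_sup_add_finrank_inf_eq Y W
    rw [h4, finrank_bot] at this
    have := hQ.finrank_perp Y
    omega
  set Z := Y ⊔ X ⊓ perp Q Y
  have h6 : Y ⊔ W ⊓ Z = Z := by
    rw [← sup_inf_assoc_of_le _ (le_sup_left : Y ≤ Z), h5,
      inf_eq_right.2 (sup_le (hY.le_perp le_rfl) inf_le_right)]
  have h7 := Submodule.finrank_sup_add_finrank_inf_eq Y (W ⊓ Z)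
  rw [h6] at h7
  have h8 := (Submodule.comapSubtypeEquivOfLe (inf_le_left : W ⊓ Z ≤ W)).finrank_eq
  have h9 : ∀ u ∈ (W ⊓ Z).comap W.subtype, (Q.comp W.subtype) u = 0 := fun u hu => h2 _ hu.2
  have := QF.two_mul_finrank_le ((nd_iff _).1 hW.nd_comp) _ h9
  exact ⟨_, h9, by omega⟩

theorem linearIndependent_of_gramDet [DecidableEq κ] {b : κ → V} (h : QF.gramDet Q b ≠ 0) :
    LinearIndependent F b := by
  refine Fintype.linearIndependent_iff.2 fun x hx => congrFun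
    (Matrix.eq_zero_of_vecMul_eq_zero h (funext fun j => ?_))
  have := congrArg (polarBilin Q · (b j)) hx
  simpa [Matrix.vecMul, dotProduct] using this

theorem isPlus_iff_family [Finite F] [DecidableEq κ] (h2 : (2 : F) ≠ 0) (hQ : ND Q) {b : κ → V}
    (h : QF.gramDet Q b ≠ 0) (hc : Fintype.card κ = finrank F V) {m : ℕ}
    (hm : finrank F V = 2 * m) : QF.IsPlus Q ↔ IsSquare ((-1) ^ m * QF.gramDet Q b) := by
  have := QF.isPlus_iff_disc h2 ((nd_iff _).1 hQ) hm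
    (basisOfLinearIndependentOfCardEqFinrank' b (linearIndependent_of_gramDet h) hc)
  rwa [coe_basisOfLinearIndependentOfCardEqFinrank'] at this

theorem exists_equiv_of_odd [Finite F] {E' : Type*} [AddCommGroup E'] [Module F E']
    [FiniteDimensional F E'] {q' : QuadraticForm F E'} (hq : ND q) (hq' : ND q')
    (ho : Odd (finrank F E)) (hd : finrank F E' = finrank F E) [DecidableEq κ] (b : Basis κ F E)
    (b' : Basis κ F E') (h : IsSquare (QF.gramDet q b * QF.gramDet q' b')) :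
    ∃ g : E ≃ₗ[F] E', ∀ v, q' (g v) = q v := by
  obtain ⟨m, hm⟩ := ho
  obtain ⟨c, g, hc, h2, hg⟩ := QF.exists_equiv_odd ((nd_iff _).1 hq) hm
  obtain ⟨c', g', hc', -, hg'⟩ := QF.exists_equiv_odd ((nd_iff _).1 hq') (hd.trans hm)
  obtain ⟨u, hu, h3⟩ := QF.gramDet_of_isometry q (Q' := fun v => c * v (.inl ()) ^ 2 +
    ∑ i, v (.inr (.inl i)) * v (.inr (.inr i))) g (fun v => (hg v).symm) b (Pi.basisFun F _)
  obtain ⟨u', hu', h4⟩ := QF.gramDet_of_isometry q' (Q' := fun v => c' * v (.inl ()) ^ 2 +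
    ∑ i, v (.inr (.inl i)) * v (.inr (.inr i))) g' (fun v => (hg' v).symm) b' (Pi.basisFun F _)
  rw [QF.gramDet_odd] at h3 h4
  obtain ⟨r, hr⟩ := h
  have h5 : c' * (u * u' * r / (2 * c')) ^ 2 = c := by
    have h6 : (-1 : F) ^ m * (-1) ^ m = 1 := by rw [← mul_pow]; simp
    field_simp
    linear_combination -(u ^ 2 * u' ^ 2) * hr - (-1) ^ m * (2 * c') * h3 -
      u ^ 2 * QF.gramDet q b * h4 + 4 * c * c' * h6
  generalize u * u' * r / (2 * c') = s at h5
  have hs : s ≠ 0 := by rintro rfl; exact hc (by rw [← h5]; ring)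
  refine ⟨g.trans ((LinearEquiv.piCongrRight (Sum.elim (fun _ => LinearEquiv.smulOfNeZero F F s hs)
    fun _ => LinearEquiv.refl F F)).trans g'.symm), fun v => ?_⟩
  rw [hg', hg, ← h5]
  simp [mul_pow, mul_assoc]

end gen

variable {ι : Type} [Fintype ι] [DecidableEq ι] {F : Type*} [Field F] [Fintype F]
  {Q : QuadraticForm F (ι → F)} {t k : ℕ} {D : Fin t → Submodule F (ι → F)}

theorem even_finrank_of_nd (hq : ¬ Odd (Fintype.card F)) {W : Submodule F (ι → F)}
    (hW : IsNondegenerateOn (polar Q) W) : Even (finrank F W) :=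
  Nat.not_odd_iff_even.1 fun h =>
    two_ne_zero_of_odd_finrank (ndon_of_nd hW).nd_comp h (two_eq_zero_of_not_odd hq)

theorem IsOrthogonalMDecomposition.isPlus_of_block (hD : IsOrthogonalMDecomposition ⇑Q k D)
    {i : Fin t} (hp : IsPlusTypeOn ⇑Q (D i)) : IsPlusTypeOn ⇑Q ⊤ := by
  obtain ⟨φ, h1, -⟩ := IsOrthogonalMDecomposition.exists_oFam hD i
  exact isPlusTypeOn_top_iff.2 (h1.isPlus_of_isPlus ((isPlusTypeOn_iff _).1 hp))

theorem IsOrthogonalMDecomposition.isPlus_all (hD : IsOrthogonalMDecomposition ⇑Q k D)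
    {i : Fin t} (hp : IsPlusTypeOn ⇑Q (D i)) (j : Fin t) : IsPlusTypeOn ⇑Q (D j) := by
  obtain ⟨φ, h1, h2⟩ := IsOrthogonalMDecomposition.exists_oFam hD i
  exact h2 j ▸ (h1.isPlus_iff j).2 ((isPlusTypeOn_iff _).1 hp)

theorem IsOrthogonalMDecomposition.isPlus_of_even (hD : IsOrthogonalMDecomposition ⇑Q k D)
    (hk : Even k) (ht : Even t) : IsPlusTypeOn ⇑Q ⊤ := by
  obtain ⟨φ, h1, -⟩ := IsOrthogonalMDecomposition.exists_oFam hD
    ⟨0, by have := hD.decomp.decomp.two_le; omega⟩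
  exact isPlusTypeOn_top_iff.2 (h1.isPlus_of_even (by rwa [hD.decomp.decomp.finrank_eq])
    (by simpa using ht))

theorem IsOrthogonalMDecomposition.isPlus_of_odd (hQ : ND Q)
    (hD : IsOrthogonalMDecomposition ⇑Q k D) (hk : Even k) (ht : Odd t)
    (hp : IsPlusTypeOn ⇑Q ⊤) (i : Fin t) : IsPlusTypeOn ⇑Q (D i) := by
  obtain ⟨φ, h1, h2⟩ := IsOrthogonalMDecomposition.exists_oFam hD i
  obtain ⟨s, hs⟩ := ht
  obtain ⟨e⟩ : Nonempty (Fin t ≃ Unit ⊕ (Fin s ⊕ Fin s)) :=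
    ⟨Fintype.equivOfCardEq (by simp [hs]; omega)⟩
  have h3 := hD.decomp.decomp.finrank_eq
  obtain ⟨Y, h4, h5, h6⟩ := h1.exists_ts_pairs (by rwa [h3]) e
  refine IsOrthogonalMDecomposition.isPlus_all hD (i := e.symm (.inl ())) ((isPlusTypeOn_iff _).2
    (isPlus_of_perp hQ (isPlusTypeOn_top_iff.1 hp) h4 (ndon_of_nd (hD.decomp.nondegenerate _))
      (fun y hy w hw => ?_) ?_)) i
  · obtain ⟨z, rfl⟩ := (h2 _).ge hw
    exact h6 _ y hy z
  · rw [h5, h3, h3, finrank_fun, IsMDecomposition.card_eq' hD.decomp.decomp, hs]; ring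

theorem isPlus_iff_prod (h2 : (2 : F) ≠ 0) (hQ : ND Q)
    (hD : IsNondegenerateMDecomposition (polar Q) k D) (β : ∀ j, Basis (Fin k) F (D j)) {m : ℕ}
    (hm : Fintype.card ι = 2 * m) : IsPlusTypeOn ⇑Q ⊤ ↔
      IsSquare ((-1) ^ m * ∏ j, QF.gramDet (Q.comp (D j).subtype) (β j)) := by
  have h1 : QF.gramDet Q (fun p : Fin k × Fin t => (β p.2 p.1 : ι → F)) =
      ∏ j, QF.gramDet (Q.comp (D j).subtype) (β j) := by
    simp only [QF.gramDet, ← Matrix.det_blockDiagonal]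
    congr 1
    ext ⟨a, i⟩ ⟨b, j⟩
    rw [Matrix.blockDiagonal_apply']
    split_ifs with hij
    · subst hij; exact (polar_comp_subtype _ _).symm
    · exact hD.orthogonal i j hij _ (β i a).2 _ (β j b).2
  rw [isPlusTypeOn_top_iff, ← h1]
  refine isPlus_iff_family h2 hQ ?_ (by simp [IsMDecomposition.card_eq' hD.decomp])
    (by rw [finrank_fun, hm])
  rw [h1]
  exact Finset.prod_ne_zero_iff.2 fun j _ =>
    QF.gramDet_ne_zero ((nd_iff _).1 (ndon_of_nd (hD.nondegenerate j)).nd_comp) _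

theorem IsOrthogonalMDecomposition.isPlus_iff (h2 : (2 : F) ≠ 0) (hQ : ND Q)
    (hD : IsOrthogonalMDecomposition ⇑Q k D) (ht : Even t) {m : ℕ}
    (hm : Fintype.card ι = 2 * m) : IsPlusTypeOn ⇑Q ⊤ ↔ Even m ∨ Fintype.card F % 4 ≠ 3 := by
  let i : Fin t := ⟨0, by have := hD.decomp.decomp.two_le; omega⟩
  choose e he using hD.isometric i
  let β := finBasisOfFinrankEq F (D i) (hD.decomp.decomp.finrank_eq i)
  have h1 : ∀ j, QF.gramDet (Q.comp (D j).subtype) (β.map (e j)) =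
      QF.gramDet (Q.comp (D i).subtype) β := fun j => by
    simp only [QF.gramDet, Basis.map_apply, polar, ← map_add, QuadraticMap.comp_apply,
      Submodule.subtype_apply, he]
  obtain ⟨s, rfl⟩ := ht
  rw [isPlus_iff_prod h2 hQ hD.decomp (fun j => β.map (e j)) hm, ← QF.isSquare_neg_one_pow]
  simp only [h1, Finset.prod_const, Finset.card_univ, Fintype.card_fin]
  rw [← two_mul, pow_mul', mul_comm, QF.isSquare_sq_mul (pow_ne_zero _ (QF.gramDet_ne_zero
    ((nd_iff _).1 (ndon_of_nd (hD.decomp.nondegenerate i)).nd_comp) _))]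

theorem isometric_of_odd (hQ : ND Q) {D : Fin 2 → Submodule F (ι → F)}
    (hD : IsNondegenerateMDecomposition (polar Q) k D) (hk : Odd k)
    (h : IsPlusTypeOn ⇑Q ⊤ ↔ Fintype.card F % 4 ≠ 3) : AreIsometricFor ⇑Q (D 0) (D 1) := by
  have h0 := fun j => (ndon_of_nd (hD.nondegenerate j)).nd_comp
  have h1 := hD.decomp.finrank_eq
  have h2 := two_ne_zero_of_odd_finrank (h0 0) (by rwa [h1])
  let β := fun j => finBasisOfFinrankEq F (D j) (h1 j)
  have h3 := fun j => QF.gramDet_ne_zero ((nd_iff _).1 (h0 j)) (β j)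
  rw [isPlus_iff_prod h2 hQ hD β (m := k) (by rw [IsMDecomposition.card_eq' hD.decomp, mul_comm]),
    Fin.prod_univ_two, QF.isSquare_mul_iff (by simp) (mul_ne_zero (h3 0) (h3 1)),
    QF.isSquare_neg_one_pow, or_iff_right (Nat.not_even_iff_odd.2 hk)] at h
  exact exists_equiv_of_odd (h0 0) (h0 1) (by rwa [h1]) (by rw [h1, h1]) (β 0) (β 1) (by tauto)

theorem isometric_of_even (hQ : ND Q) {D : Fin 2 → Submodule F (ι → F)}
    (hD : IsNondegenerateMDecomposition (polar Q) k D) (hk : Even k) (h : IsPlusTypeOn ⇑Q ⊤) :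
    AreIsometricFor ⇑Q (D 0) (D 1) := by
  have h0 := fun j => ndon_of_nd (hD.nondegenerate j)
  have h1 := hD.decomp.finrank_eq
  have h2 : ∀ i j, i ≠ j → QF.IsPlus (Q.comp (D i).subtype) → QF.IsPlus (Q.comp (D j).subtype) := by
    intro i j hij hi
    obtain ⟨U, h3, h4, h5⟩ := (isPlusTypeOn_iff _).2 hi
    refine isPlus_of_perp hQ (isPlusTypeOn_top_iff.1 h) h4 (h0 j)
      (fun y hy w hw => hD.orthogonal i j hij y (h3 hy) w hw) ?_
    rw [h5, h1, h1, finrank_fun, IsMDecomposition.card_eq' hD.decomp, mul_two]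
  exact QF.exists_equiv_of_isPlus_iff ((nd_iff _).1 (h0 0).nd_comp) ((nd_iff _).1 (h0 1).nd_comp)
    (by rw [h1, h1]) (by rwa [h1]) ⟨h2 0 1 (by decide), h2 1 0 (by decide)⟩

omit [Fintype F] in
theorem orth_of_isometric {D : Fin 2 → Submodule F (ι → F)}
    (hD : IsNondegenerateMDecomposition (polar Q) k D) (h : AreIsometricFor ⇑Q (D 0) (D 1)) :
    IsOrthogonalMDecomposition ⇑Q k D := by
  refine ⟨hD, fun i j => ?_⟩
  fin_cases i <;> fin_cases j
  · exact ⟨LinearEquiv.refl _ _, fun _ => rfl⟩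
  · exact h
  · obtain ⟨e, he⟩ := h
    exact ⟨e.symm, fun w => by rw [← he, e.apply_symm_apply]⟩
  · exact ⟨LinearEquiv.refl _ _, fun _ => rfl⟩

omit [Fintype F] in
theorem isPlus_of_ts_pair {D : Fin 2 → Submodule F (ι → F)} (hD : IsMDecomposition k D)
    (h : ∀ i, IsTotallySingularQuad ⇑Q (D i)) : IsPlusTypeOn ⇑Q ⊤ :=
  ⟨D 0, le_top, h 0, by
    rw [hD.finrank_eq, finrank_top, finrank_fun, IsMDecomposition.card_eq' hD, mul_comm]⟩

end Cfsg.Agent.Class.Asch
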