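import Cfsg.Agent.Class.Asch.SUField

/-! Normal forms for orthogonal subfield subgroups and Heisenberg normalisers in `SU`. -/

set_option autoImplicit false
set_option linter.unusedSectionVars false

namespace Cfsg.Agent.Class.Asch

open Cfsg.Geo Cfsg.Agent.Class.U
open scoped MatrixGroups Matrix

variable {F : Type*} [Field F] [Fintype F] {q n : ℕ} [hU : UF F q] [NeZero n]

local notation "𝐡" => hermForm n F q
local notation "σ" => conj F q

theorem exists_orth_max (ho : Odd n) (hq : Odd q) {H : Subgroup (GL (Fin n) F)}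
    (hH : IsMaximalIn (suG n F q) H) {F₀ : Subfield F} {P : GL (Fin n) F}
    (hc : Fintype.card F = Nat.card F₀ ^ 2) (hP : IsFormRationalStructure 𝐡 F₀ 1 P)
    (h : H = subfieldSubgroup F₀ P ⊓ suG n F q) {E : Type*} [Field E] [UF E q] (φ : E ≃+* F) :
    ∃ H' : Subgroup (GL (Fin n) E), IsMaximalIn (suG n E q) H' ∧ ∀ g ∈ H', ∃ ν : E,
      (g : Matrix (Fin n) (Fin n) E).map (conj E q) = ν • (g : Matrix (Fin n) (Fin n) E) := by
  have := Fintype.ofFinite F₀
  have h0 : ∀ x ∈ F₀, σ x = x := fun x hx => by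
    have h1 := congrArg Subtype.val (FiniteField.pow_card (⟨x, hx⟩ : F₀))
    rwa [← Nat.card_eq_fintype_card,
      ← Nat.pow_left_injective two_ne_zero ((card_of_UF (q := q)).symm.trans hc)] at h1
  have h2 : (2 : F) ≠ 0 := two_ne_zero_of_odd (by rw [card_of_UF (q := q)]; exact hq.pow)
  have he : ∀ i j : Fin n, (Pi.single i 1 : Fin n → F) j ∈ F₀ := fun i j => by
    rw [Pi.single_apply]; split_ifs; exacts [F₀.one_mem, F₀.zero_mem]
  let G : Matrix (Fin n) (Fin n) F₀ := fun i j => ⟨_, hP _ _ (he i) (he j)⟩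
  have hG : G.map F₀.subtype = (P : Matrix (Fin n) (Fin n) F)ᵀ * (P : Matrix _ _ F).map σ := by
    ext i j; change 1 * 𝐡 _ _ = _; simp [herm_eq, Matrix.mul_apply]
  have hs : ∀ {M : Matrix (Fin n) (Fin n) F₀}, M.det ≠ 0 → Mᵀ = M →
      IsSymmetricForm (formOfGram (RingEquiv.refl F₀) M) := fun {M} h1 h2 =>
    ⟨(isSesq_frm _ _).bilinear, fun u v => by
      simpa [h2] using (map_frm (RingEquiv.refl F₀) (fun _ => rfl) M v u).symm, nondeg_frm _ h1⟩
  obtain ⟨A, c, hc0, hA⟩ := exists_sim_odd (by simpa using ho)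
    (fun e => h2 (congrArg Subtype.val e)) (hs (M := 1) (by simp) (by simp)) (hs (M := G) (fun e => by
      have := F₀.subtype.map_det G
      rw [e, map_zero, RingHom.mapMatrix_apply, hG, Matrix.det_mul, Matrix.det_transpose] at this
      exact mul_ne_zero P.det_ne_zero ((conj F q).map_det P.1 ▸ (map_ne_zero _).2 P.det_ne_zero)
        this.symm) (Matrix.ext fun i j => Subtype.ext (by
      refine (h0 _ (G j i).2).symm.trans ?_
      simp only [G, one_mul, herm_conj])))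
  simp only [frm_mulVec, ← frm_smul] at hA
  have hA' := congrArg (·.map F₀.subtype) (frm_inj _ hA)
  obtain ⟨l, hl⟩ := exists_norm_eq (F := F) (q := q) (μ := (c : F)⁻¹) (by rw [map_inv₀, h0 _ c.2])
  have hc1 : (c : F) ≠ 0 := fun e => hc0 (Subtype.ext e)
  have hl0 : l ≠ 0 := by rintro rfl; exact inv_ne_zero hc1 (by rw [← hl, zero_mul])
  let B := Matrix.GeneralLinearGroup.map (F₀.subtype : F₀ →+* F) A
  have hB : (B : Matrix (Fin n) (Fin n) F).map σ = B := Matrix.ext fun i j => h0 _ (A i j).2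
  have hT : P * (B * scal (Units.mk0 l hl0)) ∈ GU n F q := by
    have e : (B : Matrix (Fin n) (Fin n) F)ᵀ * G.map F₀.subtype * B = (c : F) • 1 := by
      rw [Matrix.map_mul, Matrix.map_mul, Matrix.map_smul' _ _ _ (map_mul _),
        Matrix.map_one _ (map_zero _) (map_one _)] at hA'
      exact hA'
    rw [mem_GU_iff, pres_iff]
    simp only [Units.val_mul, coe_scal, Units.val_mk0, Matrix.mul_smul, mul_one, Matrix.transpose_smul,
      Matrix.map_smul' _ _ _ (map_mul σ), Matrix.map_mul, hB, Matrix.transpose_mul, Matrix.smul_mul]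
    rw [mul_assoc, ← mul_assoc _ _ B.1, ← hG, ← mul_assoc, e, smul_smul, smul_smul, mul_comm (σ l), hl,
      inv_mul_cancel₀ hc1, one_smul]
  refine ⟨_, isMaximalIn_fdS φ (isMaximalIn_cjBy hT hH), fun g hg => ?_⟩
  rw [mem_fdS, mem_cjBy, h] at hg
  obtain ⟨d, hd0, hd⟩ := exists_ent_of_mem_subfieldSubgroup hg.1
  rw [← cj_coe, ← cj_mul, inv_mul_cancel_left, cj_mul, cj_scalar (scal_mem _), ← map_smul] at hd
  have h3 : Ent F₀ (cj B⁻¹ _) :=
    ((ent_of_mem_range ⟨A⁻¹, map_inv _ _⟩).mul hd).mul (ent_of_mem_range ⟨A, (inv_inv _).symm⟩)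
  rw [cj_inv_cj] at h3
  refine ⟨φ.symm (d / σ d), Matrix.ext fun i j => φ.injective ?_⟩
  have h4 := h0 _ (h3 i j)
  have h5 : σ d ≠ 0 := (map_ne_zero _).2 hd0
  simp only [Matrix.smul_apply, smul_eq_mul, map_mul, coe_glCongr, Matrix.map_apply] at h4
  simp only [Matrix.smul_apply, smul_eq_mul, map_mul, Matrix.map_apply, RingEquiv.apply_symm_apply,
    conj_apply, map_pow]
  rw [← conj_apply, ← conj_apply, div_mul_eq_mul_div, ← h4, mul_div_cancel_left₀ _ h5]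

theorem exists_heis_basis {a : F} (ha : a ^ 2 + a + 1 = 0) (h3 : (3 : F) ≠ 0)
    {X Y : Matrix (Fin 3) (Fin 3) F} (hX : Pres q X) (hY : Pres q Y) (hX3 : X ^ 3 = 1)
    (hY3 : Y ^ 3 = 1) (h : X * Y = a • (Y * X)) : ∃ T ∈ GU 3 F q,
      X * T.1 = T.1 * !![1, 0, 0; 0, a, 0; 0, 0, a ^ 2] ∧
      Y * T.1 = T.1 * !![0, 0, 1; 1, 0, 0; 0, 1, 0] := by
  have cube : ∀ {X : Matrix (Fin 3) (Fin 3) F}, X ^ 3 = 1 → ∀ v, X *ᵥ X *ᵥ X *ᵥ v = v :=
    fun {X} hX v => by simp only [Matrix.mulVec_mulVec, ← pow_three, hX, Matrix.one_mulVec]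
  have hXY : ∀ v, X *ᵥ Y *ᵥ v = a • Y *ᵥ X *ᵥ v := fun v => by
    rw [Matrix.mulVec_mulVec, h, Matrix.smul_mulVec, Matrix.mulVec_mulVec]
  let W := LinearMap.ker (Matrix.toLin' X - LinearMap.id)
  have hW : ∀ v, v ∈ W ↔ X *ᵥ v = v := fun v => sub_eq_zero
  have hP : ∀ v, v + X *ᵥ v + X *ᵥ X *ᵥ v ∈ W := fun v => (hW _).2 (by
    simp only [Matrix.mulVec_add, cube hX3]; abel)
  have h1 : IsNondegenerateOn (hermForm 3 F q) W := fc_herm.nd_of fun w hw h0 =>
    eq_zero_of_herm_left (q := q) fun v => by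
      have h4 : ∀ v, hermForm 3 F q w (X *ᵥ v) = hermForm 3 F q w v := fun v => by
        rw [← hX w v, (hW w).1 hw]
      have := h0 _ (hP v)
      rw [herm_add_right, herm_add_right, h4 (X *ᵥ v), h4] at this
      exact mul_left_cancel₀ h3 (by linear_combination this)
  have h2 : W ≠ ⊥ := fun h0 => by
    have h4 : ∀ v, v + X *ᵥ v + X *ᵥ X *ᵥ v = 0 := fun v => h0.le (hP v)
    obtain ⟨v, hv⟩ := exists_vec_ne_zero (ι := Fin 3) (F := F)
    have a1 := congrArg (fun w => Y *ᵥ Y *ᵥ w) (h4 (Y *ᵥ v))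
    have a2 := congrArg (fun w => Y *ᵥ w) (h4 (Y *ᵥ Y *ᵥ v))
    simp only [hXY, Matrix.mulVec_add, Matrix.mulVec_smul, cube hY3, Matrix.mulVec_zero] at a1 a2
    refine smul_ne_zero h3 hv ?_
    linear_combination (norm := module) h4 v + a1 + a2 - ha • X *ᵥ v -
      ((a ^ 2 - a + 1) * ha) • X *ᵥ X *ᵥ v
  obtain ⟨b, hb⟩ := exists_orthonormal_on h1 rfl
  obtain ⟨u, hu, hu1⟩ : ∃ u ∈ W, hermForm 3 F q u u = 1 :=
    ⟨_, (b ⟨0, Submodule.one_le_finrank_iff.2 h2⟩).2, (hb _ _).trans (if_pos rfl)⟩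
  rw [hW] at hu
  have ha1 : a - 1 ≠ 0 := fun e => h3 (by linear_combination ha - (a + 2) * e)
  have e1 : hermForm 3 F q (Y *ᵥ u) u = 0 := mul_left_cancel₀ ha1 (by
    have := hX (Y *ᵥ u) u
    rw [hXY, hu, herm_smul_left] at this
    linear_combination this)
  have e2 : hermForm 3 F q u (Y *ᵥ u) = 0 := by rw [← herm_conj, e1, map_zero]
  have e3 : hermForm 3 F q (Y *ᵥ Y *ᵥ u) u = 0 := by rw [← hY, cube hY3, e2]
  have e4 : hermForm 3 F q u (Y *ᵥ Y *ᵥ u) = 0 := by rw [← herm_conj, e3, map_zero]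
  let T : Matrix (Fin 3) (Fin 3) F := (Matrix.of ![u, Y *ᵥ u, Y *ᵥ Y *ᵥ u])ᵀ
  have hT : Pres q T := pres_iff.2 (Matrix.ext fun i j => by
    change hermForm 3 F q (![u, Y *ᵥ u, Y *ᵥ Y *ᵥ u] i) (![u, Y *ᵥ u, Y *ᵥ Y *ᵥ u] j) = _
    fin_cases i <;> fin_cases j <;> simp [hY _, -Matrix.mulVec_mulVec, e1, e2, e3, e4, hu1])
  have col : ∀ (M : Matrix (Fin 3) (Fin 3) F) i j,
      (M * T) i j = (M *ᵥ ![u, Y *ᵥ u, Y *ᵥ Y *ᵥ u] j) i := fun M i j => rfl
  refine ⟨(mkGU T hT : GU 3 F q), Subtype.mem _, ?_, ?_⟩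
  · change X * T = T * _
    ext i j
    rw [col]
    fin_cases j <;>
      simp [-Matrix.mulVec_mulVec, hXY, hu, Matrix.mulVec_smul, Matrix.mul_apply, T,
        Fin.sum_univ_three, mul_comm, sq, mul_assoc]
  · change Y * T = T * _
    ext i j
    rw [col]
    fin_cases j <;>
      simp [-Matrix.mulVec_mulVec, cube hY3, Matrix.mul_apply, T, Fin.sum_univ_three]

theorem exists_heis_max {H R : Subgroup (GL (Fin 3) F)} (hH : IsMaximalIn (suG 3 F q) H)
    (hR : UExtra (hermForm 3 F q) H R 3 1) (hc : Nat.card R = 27) {E : Type*} [Field E]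
    (φ : E ≃+* F) {a : E} (ha : a ^ 2 + a + 1 = 0) {X Y : GL (Fin 3) E}
    (hX : (X : Matrix (Fin 3) (Fin 3) E) = !![1, 0, 0; 0, a, 0; 0, 0, a ^ 2])
    (hY : (Y : Matrix (Fin 3) (Fin 3) E) = !![0, 0, 1; 1, 0, 0; 0, 1, 0]) {f : Fin 27 → GL (Fin 3) E}
    (hf : Function.Injective f) (hf' : ∀ t, f t ∈ Subgroup.closure {X, Y}) :
    ∃ H' : Subgroup (GL (Fin 3) E), IsMaximalIn (suG 3 E q) H' ∧
      ∀ g ∈ H', ∀ t, ∃ t', f t * g = g * f t' := by
  obtain ⟨-, -, h1, h2, -⟩ := hR.props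
  obtain ⟨H', -, -, hE⟩ := hR.extra
  have ha' : φ a ^ 2 + φ a + 1 = 0 := by simpa using congrArg φ ha
  have h3 : ∀ x ∈ R, (x : Matrix (Fin 3) (Fin 3) F) ^ 3 = 1 := fun x hx =>
    congrArg Units.val (hE.pow_eq x hx)
  obtain ⟨x, hx, y, hy, hxy⟩ : ∃ x ∈ R, ∃ y ∈ R,
      (x : Matrix (Fin 3) (Fin 3) F) * y = φ a • ((y : Matrix (Fin 3) (Fin 3) F) * x) := by
    obtain ⟨x, hx⟩ : ∃ x : R, x ∉ Subgroup.center R := by
      by_contra! h0
      have := hE.card_R
      rw [(Subgroup.eq_top_iff' _).2 h0, Subgroup.card_top] at this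
      omega
    obtain ⟨y, hy⟩ := not_forall.1 (mt Subgroup.mem_center_iff.2 hx)
    obtain ⟨c, hc⟩ := (mem_scalars_iff _).1 (hE.comm_le (Subgroup.commutator_mem_commutator y.2 x.2))
    have h4 : y.1.1 * x.1.1 = (c : F) • (x.1.1 * y.1.1) := by
      rw [← smul_one_mul, ← hc, ← Units.val_mul, ← Units.val_mul, ← Units.val_mul,
        commutatorElement_def]
      group
    have h5 := h3 _ (Subgroup.commutator_le_self R (Subgroup.commutator_mem_commutator y.2 x.2))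
    rw [hc, smul_pow, one_pow] at h5
    have h6 : (c : F) ^ 3 = 1 := by simpa using congrFun (congrFun h5 0) 0
    have h7 : (c : F) - 1 ≠ 0 := fun e => hy (Subtype.ext (Units.ext (by
      rw [sub_eq_zero.1 e, one_smul] at h4; exact h4)))
    have h8 : (c - φ a) * (c * φ a - 1) = 0 := mul_left_cancel₀ h7 (by
      linear_combination φ a * h6 - (c - 1) * c * ha')
    rcases mul_eq_zero.1 h8 with h9 | h9
    · exact ⟨_, y.2, _, x.2, sub_eq_zero.1 h9 ▸ h4⟩
    · exact ⟨_, x.2, _, y.2, by rw [h4, smul_smul, mul_comm (φ a), sub_eq_zero.1 h9, one_smul]⟩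
  obtain ⟨T, hT, hTX, hTY⟩ := exists_heis_basis ha' (by exact_mod_cast hE.ne_char)
    (mem_GU_iff.1 (h1 hx)) (mem_GU_iff.1 (h1 hy)) (h3 x hx) (h3 y hy) hxy
  have h4 : Subgroup.closure {X, Y} ≤ fdS φ (cjBy T R) := by
    rw [Subgroup.closure_le]
    rintro _ (rfl | rfl) <;> rw [SetLike.mem_coe, mem_fdS, mem_cjBy]
    · convert hx
      rw [mul_inv_eq_iff_eq_mul, Units.ext_iff, Units.val_mul, Units.val_mul, hTX, coe_glCongr, hX]
      congr 1; ext i j; fin_cases i <;> fin_cases j <;> simp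
    · convert hy
      rw [mul_inv_eq_iff_eq_mul, Units.ext_iff, Units.val_mul, Units.val_mul, hTY, coe_glCongr, hY]
      congr 1; ext i j; fin_cases i <;> fin_cases j <;> simp
  let k : Fin 27 → R := fun t => ⟨_, h4 (hf' t)⟩
  have hk : Function.Bijective k := (Nat.bijective_iff_injective_and_card k).2
    ⟨fun t t' e => hf ((glCongr (Fin 3) φ).injective ((MulAut.conj T).injective
      (congrArg Subtype.val e))), by simp [hc]⟩
  refine ⟨_, isMaximalIn_fdS φ (isMaximalIn_cjBy hT hH), fun g hg t => ?_⟩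
  obtain ⟨t', ht⟩ := hk.2 ⟨_, (Subgroup.mem_normalizer_iff''.1 (h2 hg) _).1 (k t).2⟩
  refine ⟨t', (glCongr (Fin 3) φ).injective ((MulAut.conj T).injective ?_)⟩
  rw [map_mul, map_mul, map_mul, map_mul, ← inv_mul_eq_iff_eq_mul, ← mul_assoc]
  exact (congrArg Subtype.val ht).symm

end Cfsg.Agent.Class.Asch
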