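import Cfsg.Agent.Class.Asch.SUField

/-! The normaliser of a cubic field in `SU₆(2)` lies in a symplectic group. -/

set_option autoImplicit false
set_option linter.unusedSectionVars false

namespace Cfsg.Agent.Class.Asch

open Cfsg.Geo Cfsg.Agent.Class.U
open scoped MatrixGroups Matrix

variable {F : Type*} [Field F] [Fintype F] {q n : ℕ} [hU : UF F q] [NeZero n]
  {L : Type*} [Field L] [Finite L] [Algebra F L]

local notation "𝐡" => hermForm n F q
local notation "σ" => conj F q
local notation "Tr" => Algebra.trace F L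

theorem eq_zero_of_tr {a : L} (h : ∀ y, Tr (y * a) = 0) : a = 0 :=
  (traceForm_nondegenerate F L).2 a h

theorem det_aut_sq (τ : L ≃ₐ[F] L) : LinearMap.det τ.toLinearMap ^ 2 = 1 := by
  let b := Module.finBasis F L
  have h1 : (Algebra.traceForm F L).comp τ.toLinearMap τ.toLinearMap = Algebra.traceForm F L := by
    ext x y
    simp [← map_mul, Algebra.trace_eq_of_algEquiv]
  have h2 := congrArg (fun B => (LinearMap.BilinForm.toMatrix b B).det) h1
  simp only [LinearMap.BilinForm.toMatrix_comp b b, Matrix.det_mul, Matrix.det_transpose,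
    LinearMap.det_toMatrix] at h2
  exact mul_left_cancel₀ (det_traceForm_ne_zero b) (by linear_combination h2)

namespace FRep

variable {ρ : L →ₐ[F] Matrix (Fin n) (Fin n) F} {s : L →+* L} (h : FRep q ρ s)
include h

theorem tr_conj (x : L) : Tr (s x) = σ (Tr x) := by
  rw [Algebra.trace_eq_of_equiv_equiv (Max.conjEquiv F q)
    (RingEquiv.ofBijective s (Function.Involutive.bijective h.invol))
    (RingHom.ext fun c => (h.alg c).symm) x]
  exact (conj_conj _).symm

theorem exists_coords (hL : 2 * Module.finrank F L = n) :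
    ∃ E : (Fin 2 → L) ≃ₗ[F] (Fin n → F), (∀ (k : L) x, E (k • x) = ρ k *ᵥ E x) ∧
      ∀ x y, 𝐡 (E x) (E y) = Tr (x 0 * s (y 0) + x 1 * s (y 1)) := by
  have hs : Function.Surjective s := Function.Involutive.surjective h.invol
  obtain ⟨c, hc⟩ := h.rescale (Algebra.trace_ne_zero F L) h.tr_conj (v := Pi.single 0 1)
    (by simp [herm_single_single])
  set v := ρ c *ᵥ Pi.single 0 1
  have hW : IsNondegenerateOn 𝐡 (LinearMap.range (evρ ρ v)) := fc_herm.nd_of <| by
    rintro _ ⟨x, rfl⟩ hx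
    obtain rfl : x = 0 := eq_zero_of_tr (F := F) fun y => by
      obtain ⟨y, rfl⟩ := hs y
      rw [mul_comm, ← hc]; exact hx _ ⟨y, rfl⟩
    exact map_zero _
  have h1 := fc_herm.finrank_add_perp hW
  have h2 := (evρ ρ v).finrank_range_le
  have h3 : 0 < Module.finrank F L := Module.finrank_pos
  rw [Fintype.card_fin] at h1
  obtain ⟨b, hb⟩ := exists_orthonormal_on (fc_herm.nd_perp hW) rfl
  let u := b ⟨0, by omega⟩
  obtain ⟨d, hd⟩ := h.rescale (Algebra.trace_ne_zero F L) h.tr_conj (v := u)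
    (by rw [hb, if_pos rfl]; exact one_ne_zero)
  set w := ρ d *ᵥ (u : Fin n → F)
  have h4 : ∀ x y, 𝐡 (ρ x *ᵥ w) (ρ y *ᵥ v) = 0 := fun x y => by
    rw [rep_mulVec, h, rep_mulVec]
    exact u.2 _ ⟨_, rfl⟩
  let E : (Fin 2 → L) →ₗ[F] (Fin n → F) :=
    evρ ρ v ∘ₗ LinearMap.proj 0 + evρ ρ w ∘ₗ LinearMap.proj 1
  have hE : ∀ x, E x = ρ (x 0) *ᵥ v + ρ (x 1) *ᵥ w := fun x => rfl
  have h5 : ∀ x y, 𝐡 (E x) (E y) = Tr (x 0 * s (y 0) + x 1 * s (y 1)) := fun x y => by
    rw [hE, hE, herm_add_left, herm_add_right, herm_add_right, hc, hd, h4, ← herm_conj, h4,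
      map_zero, add_zero, zero_add, map_add]
  have hinj : Function.Injective E := by
    rw [← LinearMap.ker_eq_bot, eq_bot_iff]
    intro x (hx : E x = 0)
    refine funext fun i => eq_zero_of_tr (F := F) fun y => ?_
    obtain ⟨y, rfl⟩ := hs y
    have := h5 x (Pi.single i y)
    rw [hx, herm_zero_left] at this
    fin_cases i <;> simpa [mul_comm] using this.symm
  refine ⟨LinearEquiv.ofBijective E ⟨hinj, (LinearMap.injective_iff_surjective_of_finrank_eq_finrank
    (by simp [Module.finrank_pi_fintype, ← hL])).1 hinj⟩, fun k x => ?_, h5⟩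
  change E _ = ρ k *ᵥ E x
  rw [hE, hE, Matrix.mulVec_add, rep_mulVec ρ k, rep_mulVec ρ k]
  rfl

end FRep

theorem exists_semi {ρ : L →ₐ[F] Matrix (Fin n) (Fin n) F} {E : (Fin 2 → L) ≃ₗ[F] (Fin n → F)}
    (hE : ∀ (k : L) x, E (k • x) = ρ k *ᵥ E x) {g : GL (Fin n) F} (hg : ∀ x, ∃ y, cj g (ρ x) = ρ y) :
    ∃ (τ : L ≃ₐ[F] L) (M : Matrix (Fin 2) (Fin 2) L),
      (∀ x, (g : Matrix (Fin n) (Fin n) F) *ᵥ E x = E (M *ᵥ (τ ∘ x))) ∧
      (g : Matrix (Fin n) (Fin n) F).det = Algebra.norm F M.det := by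
  obtain ⟨τ, hτ⟩ := exists_aut_of_norm ρ hg
  let A : (Fin 2 → L) →ₗ[L] (Fin 2 → L) :=
    { toFun := fun x => E.symm ((g : Matrix (Fin n) (Fin n) F) *ᵥ E (τ.symm ∘ x))
      map_add' := fun x y => by
        rw [← map_add, ← Matrix.mulVec_add, ← map_add]
        congr 3; ext i; simp
      map_smul' := fun k x => E.injective (by
        rw [RingHom.id_apply, hE, E.apply_symm_apply, E.apply_symm_apply, ← τ.apply_symm_apply k,
          ← hτ, cj_mulVec, ← hE]
        congr 2; ext i; simp) }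
  have h1 : ∀ x, (g : Matrix (Fin n) (Fin n) F) *ᵥ E x = E (A (τ ∘ x)) := fun x => by
    change _ = E (E.symm _)
    rw [E.apply_symm_apply]
    congr 2; ext i; simp
  refine ⟨τ, LinearMap.toMatrix' A, fun x => by rw [h1, LinearMap.toMatrix'_mulVec], ?_⟩
  have h2 : Matrix.toLin' (g : Matrix (Fin n) (Fin n) F) = E ∘ₗ (A.restrictScalars F ∘ₗ
      LinearMap.pi fun i => τ.toLinearMap ∘ₗ LinearMap.proj i) ∘ₗ E.symm.toLinearMap := by
    refine LinearMap.ext fun v => ?_
    obtain ⟨x, rfl⟩ := E.surjective v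
    simp only [LinearMap.comp_apply, LinearEquiv.coe_coe, LinearEquiv.symm_apply_apply]
    exact h1 x
  rw [← LinearMap.det_toLin', h2, LinearMap.det_conj, LinearMap.det_comp, LinearMap.det_pi,
    LinearMap.det_restrictScalars, LinearMap.det_toMatrix', Finset.prod_const, Finset.card_fin,
    det_aut_sq, mul_one]

theorem su6_cubic_two [UF F 2] {H : Subgroup (GL (Fin 6) F)} (hH : IsMaximalIn (suG 6 F 2) H)
    {K : Subalgebra F (Matrix (Fin 6) (Fin 6) F)} (hK : IsFieldSubalgebra 3 K)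
    (hA : IsAdjointClosedFor (hermForm 6 F 2) K) (h : H = subalgebraNormalizer K ⊓ suG 6 F 2) :
    False := by
  letI := (IsFieldSubalgebra.isField' hK).toField
  obtain ⟨s, hs⟩ := frep_of_field hK hA
  have hL := hK.finrank_eq
  obtain ⟨E, hE, hf⟩ := hs.exists_coords (by rw [hL])
  have hg : ∀ g ∈ H, ∀ x, ∃ y, cj g (K.val x) = K.val y := fun g hg x =>
    ⟨⟨_, ((h ▸ hg).1 x).1 x.2⟩, rfl⟩
  have h2 : (-1 : F) = 1 := by
    have := conj_apply (F := F) (q := 2) (-1)
    rw [map_neg, map_one] at this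
    rw [this]; ring
  have h3 : ∀ x y : K, x - y = x + y := fun x y => by
    rw [sub_eq_add_neg, ← neg_one_smul F y, h2, one_smul]
  let f : (Fin 6 → F) → (Fin 6 → F) → F := fun u v =>
    Algebra.trace F K (E.symm u 0 * E.symm v 1 - E.symm u 1 * E.symm v 0)
  have h4 : ∀ x y, f (E x) (E y) = Algebra.trace F K (x 0 * y 1 - x 1 * y 0) := fun x y => by
    simp only [f, E.symm_apply_apply]
  have hsk : ∀ u v, f u v = -f v u := fun u v => by
    simp only [f, ← map_neg]; congr 1; ring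
  have hv : ∀ x, hermForm 6 F 2 (E x) (E ![1, 1]) = Algebra.trace F K (x 0 + x 1) := fun x => by
    simp [hf]
  refine false_of_symp (f := f) (by norm_num) (by omega) hH ⟨⟨fun x y v => ?_, fun c x v => ?_,
    fun v x y => ?_, fun c v x => ?_⟩, hsk, fun v => ?_, fun v hv => ?_⟩ (fun g hg' => ?_)
    (v := E ![1, 1]) (l := 1) (fun x => ?_) fun c hc hc0 hg' => ?_
  · simp only [f, ← map_add (Algebra.trace F K), map_add E.symm, Pi.add_apply]; congr 1; ring
  · simp only [f, map_smul, Pi.smul_apply, smul_mul_assoc, ← smul_sub, smul_eq_mul]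
  · simp only [f, ← map_add (Algebra.trace F K), map_add E.symm, Pi.add_apply]; congr 1; ring
  · simp only [f, map_smul, Pi.smul_apply, mul_smul_comm, ← smul_sub, smul_eq_mul]
  · simp only [f, mul_comm, sub_self, map_zero]
  · obtain ⟨x, rfl⟩ := E.surjective v
    have : ∃ y, f y (E x) ≠ 0 := by
      by_contra! h0
      refine hv (E.map_eq_zero_iff.2 (funext fun i => eq_zero_of_tr (F := F) fun y => ?_))
      have := h0 (E (Pi.single (i + 1) y))
      rw [h4] at this
      fin_cases i <;> simpa using this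
    exact ⟨this, this.imp fun y hy => by rwa [hsk, neg_ne_zero]⟩
  · obtain ⟨τ, M, h5, h6⟩ := exists_semi hE (hg g hg')
    have h7 : ∀ x y, (M *ᵥ x) 0 * s ((M *ᵥ y) 0) + (M *ᵥ x) 1 * s ((M *ᵥ y) 1) =
        x 0 * s (y 0) + x 1 * s (y 1) := fun x y => sub_eq_zero.1 (eq_zero_of_tr (F := F) fun k => by
      have := mem_GU_iff.1 (hH.1.le hg').1 (E (τ.symm ∘ (k • x))) (E (τ.symm ∘ y))
      have e : ∀ x : Fin 2 → K, τ ∘ τ.symm ∘ x = x := fun x => funext fun i => τ.apply_symm_apply _
      rw [h5, h5, e, e, hf, hf, ← Algebra.trace_eq_of_algEquiv τ ((τ.symm ∘ _) 0 * _ + _),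
        ← sub_eq_zero, ← map_sub] at this
      simp only [Matrix.mulVec_smul, map_add, map_mul, ← hs.comm_aut (by rw [hL]; decide),
        Function.comp_apply, AlgEquiv.apply_symm_apply, Pi.smul_apply, smul_eq_mul] at this
      rw [← this]; congr 1; ring)
    have h8 : M.det ^ 9 = 1 := by
      have a := h7 (Pi.single 0 1) (Pi.single 0 1)
      have b := h7 (Pi.single 0 1) (Pi.single 1 1)
      have c := h7 (Pi.single 1 1) (Pi.single 0 1)
      have d := h7 (Pi.single 1 1) (Pi.single 1 1)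
      simp at a b c d
      rw [pow_succ', show 8 = 2 ^ Module.finrank F K by rw [hL]; rfl, ← hs.eq_pow (by rw [hL]; decide),
        Matrix.det_fin_two, map_sub, map_mul, map_mul]
      linear_combination (M 0 1 * s (M 0 1) + M 1 1 * s (M 1 1)) * a + d -
        (M 0 1 * s (M 0 0) + M 1 1 * s (M 1 0)) * b
    have h9 := FiniteField.algebraMap_norm_eq_pow (K := F) (x := M.det)
    rw [← h6, mem_specialLinear.1 (hH.1.le hg').2, map_one,
      Module.natCard_eq_pow_finrank (K := F) (V := K), UF.card_eq (q := 2), hL] at h9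
    have h10 : M.det ^ 3 = 1 := pow_gcd_eq_one.2 ⟨h8, h9.symm⟩
    obtain ⟨c, hc⟩ := (IsGalois.mem_range_algebraMap_iff_fixed (F := F) M.det).2 fun τ => by
      obtain ⟨i, hi⟩ := exists_pow_of_aut (q := 2) τ
      rw [hi, ← Nat.mod_add_div ((2 ^ 2) ^ i) 3, pow_add, pow_mul, h10, one_pow, mul_one,
        Nat.pow_mod]
      simp
    have hc0 : c ≠ 0 := by rintro rfl; rw [← hc] at h10; simp at h10
    refine ⟨Units.mk0 c hc0, fun u v => ?_⟩
    obtain ⟨x, rfl⟩ := E.surjective u
    obtain ⟨y, rfl⟩ := E.surjective v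
    rw [h5, h5, h4, h4, ← Algebra.trace_eq_of_algEquiv τ (x 0 * _ - _), Units.val_mk0,
      ← smul_eq_mul c, ← map_smul, Algebra.smul_def, hc]
    congr 1
    simp [Matrix.det_fin_two, Matrix.mulVec, dotProduct]
    ring
  · obtain ⟨x, rfl⟩ := E.surjective x
    simp [hv, h4, h3]
  · obtain ⟨τ, M, h5, -⟩ := exists_semi hE (hg _ hg')
    simp only [utv_mulVec, hv, ← map_smul, ← map_add] at h5
    have b : ∀ k, algebraMap F K (c * Algebra.trace F K k) = M 1 0 * τ k := fun k => by
      rw [Algebra.algebraMap_eq_smul_one]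
      simpa [Matrix.mulVec, dotProduct] using congrFun (E.injective (h5 ![k, 0])) 1
    have a := b 1
    rw [map_one τ, mul_one, ← map_one (algebraMap F K), Algebra.trace_algebraMap, hL,
      show (3 • 1 : F) = 1 by rw [nsmul_eq_mul]; push_cast; linear_combination -h2, mul_one] at a
    have := Algebra.finrank_eq_one_iff_bijective_algebraMap.2 ⟨(algebraMap F K).injective, fun k =>
      ⟨Algebra.trace F K (τ.symm k), mul_left_cancel₀ ((map_ne_zero _).2 hc0) (by
        rw [← map_mul, b, a, τ.apply_symm_apply])⟩⟩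
    omega

end Cfsg.Agent.Class.Asch
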