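import Cfsg.Agent.Class.Asch.FormBlock

/-! The groups `GL₂(3).2` and `GU₂(3).2` are not maximal in `Sp₄(3)`. -/

set_option autoImplicit false

namespace Cfsg.Agent.Class.Asch

open Cfsg.Geo
open scoped MatrixGroups Matrix Kronecker commutatorElement

variable {ι : Type} [Fintype ι] [DecidableEq ι] {F : Type*} [Field F]

/-- The stabiliser of a set of matrices under conjugation. -/
def setStab (S : Set (Matrix ι ι F)) : Subgroup (GL ι F) where
  carrier := {g | ∀ x, x ∈ S ↔ cj g x ∈ S}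
  mul_mem' {a b} ha hb x := by rw [cj_mul, ← ha, ← hb]
  one_mem' x := by rw [cj_one]
  inv_mem' {a} ha x := by rw [ha (cj a⁻¹ x), cj_cj_inv]

theorem mem_setStab [Finite F] {S : Set (Matrix ι ι F)} {g : GL ι F}
    (h : ∀ x ∈ S, cj g x ∈ S) : g ∈ setStab S := fun x => ⟨h x, fun hx => by
  obtain ⟨y, hy, h1⟩ := ((Set.toFinite S).injOn_iff_bijOn_of_mapsTo (f := cj g) h).1
    (cj g).injective.injOn |>.surjOn hx
  exact (cj g).injective h1 ▸ hy⟩

/-- A ring isomorphism from matrices over a model field, compatible with adjoints. -/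
theorem FC.exists_model {σ : F ≃+* F} {ε : F} {f : (ι → F) → (ι → F) → F} (hf : FC σ ε f)
    {A : Type*} [Ring A] (Φ : A ≃+* Matrix ι ι F) (ad : A → A) (had : ∀ x, adj σ f (Φ x) = Φ (ad x))
    {g : A} (h1 : ad g * g = 1) :
    ∃ u ∈ isoG f, (u : Matrix ι ι F) = Φ g ∧ ∀ x, cj u (Φ x) = Φ (g * x * ad g) := by
  have h2 : Φ (ad g) * Φ g = 1 := by rw [← map_mul, h1, map_one]
  refine ⟨⟨Φ g, Φ (ad g), mul_eq_one_comm.1 h2, h2⟩, hf.mem_isoG_of_adj (by rw [had]; exact h2),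
    rfl, fun x => by rw [map_mul, map_mul]; rfl⟩

def G4 (R : Type*) [CommRing R] : Matrix (Fin 4) (Fin 4) R :=
  !![0, 1, 0, 0; -1, 0, 0, 0; 0, 0, 0, 1; 0, 0, -1, 0]

def j4 {R : Type*} [CommRing R] (δ : R) : Matrix (Fin 4) (Fin 4) R :=
  !![0, δ, 0, 0; 1, 0, 0, 0; 0, 0, 0, δ; 0, 0, 1, 0]

def ad4 {R : Type*} [CommRing R] (X : Matrix (Fin 4) (Fin 4) R) : Matrix (Fin 4) (Fin 4) R :=
  !![X 1 1, -X 0 1, X 3 1, -X 2 1; -X 1 0, X 0 0, -X 3 0, X 2 0;
    X 1 3, -X 0 3, X 3 3, -X 2 3; -X 1 2, X 0 2, -X 3 2, X 2 2]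

def sa4 (a b c d e f : ZMod 3) : Matrix (Fin 4) (Fin 4) (ZMod 3) :=
  !![a, 0, b, c; 0, a, d, e; e, -c, f, 0; -d, b, 0, f]

theorem eq_sa4 {X : Matrix (Fin 4) (Fin 4) (ZMod 3)} (h : ad4 X = X) :
    X = sa4 (X 0 0) (X 0 2) (X 0 3) (X 1 2) (X 1 3) (X 2 2) := by
  have h0 : ∀ a : ZMod 3, -a = a → a = 0 := by decide
  have h1 := fun i j => congrFun (congrFun h i) j
  have a1 : X 0 1 = 0 := h0 _ (by simpa [ad4] using h1 0 1)
  have a2 : X 1 0 = 0 := h0 _ (by simpa [ad4] using h1 1 0)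
  have a3 : X 2 3 = 0 := h0 _ (by simpa [ad4] using h1 2 3)
  have a4 : X 3 2 = 0 := h0 _ (by simpa [ad4] using h1 3 2)
  have a5 : X 1 1 = X 0 0 := by simpa [ad4] using h1 0 0
  have a6 : X 3 3 = X 2 2 := by simpa [ad4] using h1 2 2
  have a7 : X 2 0 = X 1 3 := by simpa [ad4] using (h1 2 0).symm
  have a8 : X 2 1 = -X 0 3 := by simpa [ad4] using (h1 2 1).symm
  have a9 : X 3 0 = -X 1 2 := by simpa [ad4] using (h1 3 0).symm
  have a10 : X 3 1 = X 0 2 := by simpa [ad4] using (h1 3 1).symm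
  ext i j
  fin_cases i <;> fin_cases j <;> simp [sa4, a1, a2, a3, a4, a5, a6, a7, a8, a9, a10]

theorem adj_G4 (X : Matrix (Fin 4) (Fin 4) F) {f : (Fin 4 → F) → (Fin 4 → F) → F} {ε : F}
    (hf : FC (RingEquiv.refl F) ε f) (h : f = formOfGram (RingEquiv.refl F) (G4 F)) :
    adj (RingEquiv.refl F) f X = ad4 X := by
  refine hf.adj_unique_gram ?_
  rw [h, gram_frm]
  ext i j
  fin_cases i <;> fin_cases j <;> simp [G4, ad4, Matrix.mul_apply, Fin.sum_univ_four]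

/-- The involutions attached to a skew-adjoint element. -/
def Om {A : Type*} [Ring A] (j x : A) : Prop :=
  x * x = 1 ∧ x ≠ 1 ∧ x ≠ -1 ∧ (x * j = -(j * x) ∨ (j * j = -1 ∧ x * j = j * x))

instance instDecidableOm (j x : Matrix (Fin 4) (Fin 4) (ZMod 3)) : Decidable (Om j x) := by
  unfold Om; infer_instance

theorem om_map {A A' : Type*} [Ring A] [Ring A'] (Φ : A ≃+* A') (j x : A) :
    Om (Φ j) (Φ x) ↔ Om j x := by
  simp only [Om, ← map_mul, ← map_one Φ, ← map_neg, ne_eq, EmbeddingLike.apply_eq_iff_eq]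

theorem om_neg {A : Type*} [Ring A] (j x : A) : Om (-j) x ↔ Om j x := by
  simp only [Om, mul_neg, neg_mul, neg_neg, neg_inj, neg_eq_iff_eq_neg (a := x * j)]

def g4p : Matrix (Fin 4) (Fin 4) (ZMod 3) := !![1, 2, 0, 0; 0, 1, 0, 0; 0, 0, 1, 0; 0, 0, 1, 1]
def g4m : Matrix (Fin 4) (Fin 4) (ZMod 3) := !![0, 0, 2, 0; 0, 0, 0, 2; 1, 2, 0, 0; 2, 2, 0, 0]
def t4 : Matrix (Fin 4) (Fin 4) (ZMod 3) := !![1, 0, 0, 0; 0, 1, 0, 0; 0, 0, 1, 0; 0, 0, 1, 1]

theorem g4p_spec : ad4 g4p * g4p = 1 ∧ g4p * j4 1 * ad4 g4p ≠ j4 1 ∧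
    g4p * j4 1 * ad4 g4p ≠ -j4 1 ∧ ∀ a b c d e f, Om (j4 1) (sa4 a b c d e f) →
      Om (j4 1) (g4p * sa4 a b c d e f * ad4 g4p) := by decide +kernel

theorem g4m_spec : ad4 g4m * g4m = 1 ∧ g4m * j4 (-1) * ad4 g4m ≠ j4 (-1) ∧
    g4m * j4 (-1) * ad4 g4m ≠ -j4 (-1) ∧ ∀ a b c d e f, Om (j4 (-1)) (sa4 a b c d e f) →
      Om (j4 (-1)) (g4m * sa4 a b c d e f * ad4 g4m) := by decide +kernel

theorem t4_spec : ad4 t4 * t4 = 1 ∧ ad4 (sa4 0 0 1 2 0 0) = sa4 0 0 1 2 0 0 ∧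
    ∀ δ, δ ≠ 0 → Om (j4 δ) (sa4 0 0 1 2 0 0) ∧
      ¬ Om (j4 δ) (t4 * sa4 0 0 1 2 0 0 * ad4 t4) := by decide +kernel

variable {f : (ι → F) → (ι → F) → F}

theorem exists_vec_skew [Fintype F] (hq : Fintype.card F = 3) (hf : IsSymplecticForm f)
    {j : Matrix ι ι F} (ha : adj (RingEquiv.refl F) f j = -j) {δ : F} (hδ : δ = 1 ∨ δ = -1)
    (hj : j * j = δ • 1) {W : Submodule F (ι → F)} (h0 : W ≠ ⊥) (hW : IsNondegenerateOn f W)
    (hi : ∀ w ∈ W, j *ᵥ w ∈ W) : ∃ v ∈ W, f v (j *ᵥ v) = 1 := by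
  have hc := fc_of_symplectic hf
  have h3 := three_eq_zero_of_card hq
  have hs : ∀ u v, f (j *ᵥ u) v = - f u (j *ᵥ v) := fun u v => by
    rw [hc.adj_spec, ha, Matrix.neg_mulVec, hc.sesq.neg_right]
  have hjj : ∀ v, j *ᵥ (j *ᵥ v) = δ • v := fun v => by
    rw [Matrix.mulVec_mulVec, hj, Matrix.smul_mulVec, Matrix.one_mulVec]
  have hδ2 : δ * δ = 1 := by rcases hδ with h | h <;> simp [h]
  have h1 : ∃ v ∈ W, f v (j *ᵥ v) ≠ 0 := by
    by_contra! h
    obtain ⟨u, hu, hu0⟩ := (Submodule.ne_bot_iff W).1 h0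
    obtain ⟨y, hy, h2⟩ := (hW u hu hu0).2
    have h4 := h (u + j *ᵥ y) (W.add_mem hu (hi y hy))
    rw [Matrix.mulVec_add, hc.sesq.add_left, hc.sesq.add_right, hc.sesq.add_right, h u hu,
      h _ (hi y hy), hs y, hjj, hjj, hc.sesq.smul_right, hc.sesq.smul_right, hf.skew y u] at h4
    refine h2 ?_
    simp only [RingEquiv.refl_apply] at h4
    linear_combination (-δ) * h4 + (f u y) * h3 * δ * δ - f u y * hδ2
  obtain ⟨v, hv, h2⟩ := h1
  rcases mul_self_eq_one_iff.1 (sq_eq_one_of_card_three hq h2) with h | h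
  · exact ⟨v, hv, h⟩
  rcases hδ with rfl | rfl
  · refine ⟨j *ᵥ v, hi v hv, ?_⟩
    rw [hs, hjj, one_smul, h, neg_neg]
  · refine ⟨v + j *ᵥ v, W.add_mem hv (hi v hv), ?_⟩
    rw [Matrix.mulVec_add, hc.sesq.add_left, hc.sesq.add_right, hc.sesq.add_right, hf.alternating,
      hjj, hc.sesq.smul_right, hc.sesq.smul_right, hf.alternating, hs, h]
    simp only [RingEquiv.refl_apply]
    linear_combination -h3

theorem exists_tr_skew [Fintype F] (hq : Fintype.card F = 3) (hι : Fintype.card ι = 4)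
    (hf : IsSymplecticForm f) {j : Matrix ι ι F} (ha : adj (RingEquiv.refl F) f j = -j) {δ : F}
    (hδ : δ = 1 ∨ δ = -1) (hj : j * j = δ • 1) : ∃ (e : ι ≃ Fin 4) (B : GL ι F),
      pull e B f = formOfGram (RingEquiv.refl F) (G4 F) ∧ j = tr e B (j4 δ) := by
  have hc := fc_of_symplectic hf
  have : Nonempty ι := Fintype.card_pos_iff.1 (by omega)
  have hs : ∀ u v, f (j *ᵥ u) v = - f u (j *ᵥ v) := fun u v => by
    rw [hc.adj_spec, ha, Matrix.neg_mulVec, hc.sesq.neg_right]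
  have hjj : ∀ v, j *ᵥ (j *ᵥ v) = δ • v := fun v => by
    rw [Matrix.mulVec_mulVec, hj, Matrix.smul_mulVec, Matrix.one_mulVec]
  obtain ⟨v, -, hv⟩ := exists_vec_skew hq hf ha hδ hj (W := ⊤) top_ne_bot
    (hc.nd_of fun w _ h => hc.eq_zero_left fun u => h u trivial) fun _ _ => trivial
  let P := Submodule.span F {v, j *ᵥ v}
  have hP : IsNondegenerateOn f P := hc.nd_of fun w hw h => by
    obtain ⟨a, b, rfl⟩ := Submodule.mem_span_pair.1 hw
    have h1 := h v (Submodule.subset_span (by simp))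
    have h2 := h (j *ᵥ v) (Submodule.subset_span (by simp))
    rw [hc.sesq.add_left, hc.sesq.smul_left, hc.sesq.smul_left, hf.alternating] at h1 h2
    rw [hs, hv] at h1
    rw [hv] at h2
    have ha : a = 0 := by linear_combination h2
    have hb : b = 0 := by linear_combination -h1
    simp [ha, hb]
  have hP' : P ≠ ⊤ := fun h => by
    have h1 : Module.finrank F P ≤ 2 := by
      have := finrank_range_le_card (R := F) ![v, j *ᵥ v]
      rwa [Set.finrank, Matrix.range_cons_cons_empty, Fintype.card_fin] at this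
    rw [h, finrank_top, Module.finrank_fintype_fun_eq_card] at h1
    omega
  have hm : ∀ w, w ∈ hc.perp P ↔ f w v = 0 ∧ f w (j *ᵥ v) = 0 := fun w => by
    refine ⟨fun h => ⟨h _ (Submodule.subset_span (by simp)), h _ (Submodule.subset_span (by simp))⟩,
      fun h x hx => ?_⟩
    obtain ⟨a, b, rfl⟩ := Submodule.mem_span_pair.1 hx
    rw [hc.sesq.add_right, hc.sesq.smul_right, hc.sesq.smul_right, h.1, h.2]; simp
  have hi : ∀ w ∈ hc.perp P, j *ᵥ w ∈ hc.perp P := fun w hw => by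
    rw [hm] at hw ⊢
    rw [hs, hs, hjj, hc.sesq.smul_right, hw.1, hw.2]; simp
  obtain ⟨w, hw, hw1⟩ := exists_vec_skew hq hf ha hδ hj (hc.perp_ne_bot hP hP') (hc.nd_perp hP) hi
  have a1 := (hm w).1 hw
  have a2 := (hm _).1 (hi w hw)
  obtain ⟨e, B, h1, h2⟩ := hc.exists_tr_of_gram (κ := Fin 4) (by simp [hι])
    ![v, j *ᵥ v, w, j *ᵥ w] (G := G4 F) (fun a c => by
      fin_cases a <;> fin_cases c <;>
        simp [G4, hf.alternating, hv, hw1, a1.1, a1.2, a2.1, a2.2, hf.skew (j *ᵥ v) v,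
          hf.skew (j *ᵥ w) w, hc.perp_symm a1.1, hc.perp_symm a1.2, hc.perp_symm a2.1,
          hc.perp_symm a2.2])
    (Matrix.det_ne_zero_of_right_inverse (B := -G4 F) (by
      ext a c; fin_cases a <;> fin_cases c <;> simp [G4, Matrix.mul_apply, Fin.sum_univ_four]))
  refine ⟨e, B, h2, eq_tr_of_mulVec e B fun x => ?_⟩
  simp only [h1, Fin.sum_univ_four, Matrix.mulVec_add, Matrix.mulVec_smul]
  simp [j4, hjj, Matrix.mulVec, dotProduct, Fin.sum_univ_four]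
  module

theorem sp4_three_false [Fintype F] (hq : Fintype.card F = 3) (hι : Fintype.card ι = 4)
    (hf : IsSymplecticForm f) {j : Matrix ι ι F} (ha : adj (RingEquiv.refl F) f j = -j) {δ : F}
    (hδ : δ = 1 ∨ δ = -1) (hj : j * j = δ • 1) {H : Subgroup (GL ι F)}
    (hH : IsMaximalIn (isoG f) H) (h : ∀ g ∈ H, cj g j = j ∨ cj g j = -j) : False := by
  have hc := fc_of_symplectic hf
  obtain ⟨e, B, h1, h2⟩ := exists_tr_skew hq hι hf ha hδ hj
  let φ := ZMod.ringEquivOfPrime F Nat.prime_three hq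
  let Φ : Matrix (Fin 4) (Fin 4) (ZMod 3) ≃+* Matrix ι ι F :=
    φ.mapMatrix.trans (tr e B).toRingEquiv
  have hΦ : ∀ x, Φ x = tr e B (x.map φ) := fun _ => rfl
  have had : ∀ x, adj (RingEquiv.refl F) f (Φ x) = Φ (ad4 x) := fun x => by
    rw [hΦ, hΦ, hc.adj_tr, adj_G4 _ (hc.pull e B) h1]
    congr 1
    ext a c; fin_cases a <;> fin_cases c <;> simp [ad4]
  have hj4 : ∀ d, φ d = δ → j = Φ (j4 d) := fun d hd => by
    rw [hΦ, h2]
    congr 1
    ext a c; fin_cases a <;> fin_cases c <;> simp [j4, hd]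
  let S : Set (Matrix ι ι F) := {x | adj (RingEquiv.refl F) f x = x ∧ Om j x}
  have hS : ∀ g ∈ isoG f, ∀ x ∈ S, adj (RingEquiv.refl F) f (cj g x) = cj g x := fun g hg x hx => by
    rw [hc.adj_cj (isoG_le_sim f hg), hx.1]
  have hle : H ≤ setStab S := fun g hg => mem_setStab fun x hx => by
    refine ⟨hS g (hH.1.le hg) x hx, ?_⟩
    have h3 := (om_map (cj g).toRingEquiv j x).2 hx.2
    rcases h g hg with h4 | h4
    · exact h4 ▸ h3
    · exact (om_neg _ _).1 (h4 ▸ h3)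
  have key : ∀ d g, φ d = δ → ad4 g * g = 1 → g * j4 d * ad4 g ≠ j4 d → g * j4 d * ad4 g ≠ -j4 d →
      (∀ a b c d' e f, Om (j4 d) (sa4 a b c d' e f) → Om (j4 d) (g * sa4 a b c d' e f * ad4 g)) →
      False := by
    intro d g hd g1 g2 g3 g4
    have hd0 : d ≠ 0 := by
      rintro rfl
      rw [map_zero] at hd
      rcases hδ with h | h <;> simp [h] at hd
    obtain ⟨u, hu, -, hu'⟩ := hc.exists_model Φ ad4 had g1
    obtain ⟨t, ht, -, ht'⟩ := hc.exists_model Φ ad4 had t4_spec.1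
    refine false_of_maximal hH hle (fun hh => (t4_spec.2.2 d hd0).2 ?_) (g := u)
      (mem_setStab fun x hx => ⟨hS u hu x hx, ?_⟩) hu fun hh => ?_
    · rw [← om_map Φ, ← ht', ← hj4 d hd]
      refine ((hh ht _).1 ⟨by rw [had, t4_spec.2.1], ?_⟩).2
      rw [hj4 d hd, om_map]; exact (t4_spec.2.2 d hd0).1
    · obtain ⟨y, rfl⟩ := Φ.surjective x
      obtain ⟨h3, h4⟩ := hx
      rw [had, Φ.injective.eq_iff] at h3
      rw [hj4 d hd, om_map] at h4
      rw [hu', hj4 d hd, om_map]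
      rw [eq_sa4 h3] at h4 ⊢
      exact g4 _ _ _ _ _ _ h4
    · have h3 := h u hh
      rw [hj4 d hd, hu', ← map_neg, Φ.injective.eq_iff, Φ.injective.eq_iff] at h3
      exact h3.elim g2 g3
  rcases hδ with rfl | rfl
  · exact key 1 g4p (map_one φ) g4p_spec.1 g4p_spec.2.1 g4p_spec.2.2.1 g4p_spec.2.2.2
  · exact key (-1) g4m (by simp) g4m_spec.1 g4m_spec.2.1 g4m_spec.2.2.1 g4m_spec.2.2.2

end Cfsg.Agent.Class.Asch
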