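import Cfsg.Agent.Class.Asch.SpSmall

/-! Maximal subgroups of symplectic groups: the list of geometric alternatives. -/

set_option autoImplicit false

namespace Cfsg.Agent.Class.Asch

open Cfsg.Geo
open scoped MatrixGroups Matrix Kronecker commutatorElement

variable {F : Type*} [Field F] [Fintype F] {m : ℕ} {H : Subgroup (GL (Fin m ⊕ Fin m) F)}

/-- The alternatives for a maximal subgroup of a symplectic group. -/
def SpMax (m : ℕ) (H : Subgroup (GL (Fin m ⊕ Fin m) F)) : Prop :=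
  (∃ W : Submodule F (Fin m ⊕ Fin m → F), W ≠ ⊥ ∧ IsTotallySingularFor (sympForm m F) W ∧
    H = subspaceStabilizer W ⊓ spGL m F) ∨
  (∃ W : Submodule F (Fin m ⊕ Fin m → F), W ≠ ⊥ ∧ IsNondegenerateOn (sympForm m F) W ∧
    Module.finrank F W < m ∧ H = subspaceStabilizer W ⊓ spGL m F) ∨
  (∃ (t k : ℕ) (D : Fin t → Submodule F (Fin m ⊕ Fin m → F)), 2 * m = k * t ∧ 2 ≤ t ∧ Even k ∧
    (k = 2 → 3 ≤ Fintype.card F) ∧ IsNondegenerateMDecomposition (sympForm m F) k D ∧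
    H = decompositionStabilizer D ⊓ spGL m F) ∨
  (Odd (Fintype.card F) ∧ (m = 2 → 5 ≤ Fintype.card F) ∧
    ∃ D : Fin 2 → Submodule F (Fin m ⊕ Fin m → F), IsMDecomposition m D ∧
      (∀ i, IsTotallySingularFor (sympForm m F) (D i)) ∧ H = decompositionStabilizer D ⊓ spGL m F) ∨
  (∃ (r : ℕ) (K : Subalgebra F (Matrix (Fin m ⊕ Fin m) (Fin m ⊕ Fin m) F)), r.Prime ∧ r ∣ m ∧
    IsFieldSubalgebra r K ∧ IsSelfAdjointFor (sympForm m F) K ∧
    (∀ k ∈ K, ∀ v, sympForm m F (k *ᵥ v) v = 0) ∧ H = subalgebraNormalizer K ⊓ spGL m F) ∨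
  (Odd (Fintype.card F) ∧ (m = 2 → 5 ≤ Fintype.card F) ∧
    ∃ K : Subalgebra F (Matrix (Fin m ⊕ Fin m) (Fin m ⊕ Fin m) F), IsFieldSubalgebra 2 K ∧
      IsAdjointClosedFor (sympForm m F) K ∧ ¬ IsSelfAdjointFor (sympForm m F) K ∧
      H = subalgebraNormalizer K ⊓ spGL m F) ∨
  (Odd (Fintype.card F) ∧ ∃ (k l : ℕ) (e : Fin m ⊕ Fin m ≃ Fin k × Fin l)
    (B : GL (Fin m ⊕ Fin m) F) (f₁ : (Fin k → F) → (Fin k → F) → F)
    (f₂ : (Fin l → F) → (Fin l → F) → F), 2 * m = k * l ∧ Even k ∧ 3 ≤ l ∧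
    (l = 3 → 5 ≤ Fintype.card F) ∧ (k = 2 → l = 4 → ¬ IsPlusTypeOn (fun v => f₂ v v) ⊤) ∧
    IsSymplecticForm f₁ ∧ IsSymmetricForm f₂ ∧ IsTensorFormStructure id (sympForm m F) f₁ f₂ e B ∧
    H = tensorProductSubgroup k l e B ⊓ spGL m F) ∨
  (∃ (F₀ : Subfield F) (r : ℕ) (P : GL (Fin m ⊕ Fin m) F) (ζ : F), r.Prime ∧
    Fintype.card F = Nat.card F₀ ^ r ∧ ζ ≠ 0 ∧ IsFormRationalStructure (sympForm m F) F₀ ζ P ∧
    H = subfieldSubgroup F₀ P ⊓ spGL m F) ∨
  (∃ (k : ℕ) (R : Subgroup (GL (Fin m ⊕ Fin m) F)), 2 * m = 2 ^ k ∧ (Fintype.card F).Prime ∧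
    Odd (Fintype.card F) ∧ IsSymplecticTypeGroup 2 R ∧ ActsAbsolutelyIrreducibly (matrixSet R) ∧
    R ≤ similarityGroup (sympForm m F) ∧ Nat.card R = 2 ^ (1 + 2 * k) ∧
    Nat.card (Subgroup.center R) = 2 ∧ IsOfMinusType k R ∧ H = subgroupNormalizer R ⊓ spGL m F) ∨
  (Odd (Fintype.card F) ∧ ∃ (k t : ℕ) (e : Fin m ⊕ Fin m ≃ (Fin t → Fin k))
    (B : GL (Fin m ⊕ Fin m) F) (f₁ : (Fin k → F) → (Fin k → F) → F), 2 * m = k ^ t ∧ 3 ≤ t ∧ 2 ≤ k ∧
    (k = 2 → 5 ≤ Fintype.card F) ∧ IsSymplecticForm f₁ ∧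
    IsTensorPowerFormStructure id (sympForm m F) f₁ e B ∧
    (t = 3 → H = tensorWreathSubgroup k t e B ⊓ spGL m F)) ∨
  (¬ Odd (Fintype.card F) ∧ ∃ Q : (Fin m ⊕ Fin m → F) → F, IsNondegenerateQuadraticForm Q ∧
    (∀ u v, QuadraticMap.polar Q u v = sympForm m F u v) ∧ H = quadSimilarityGroup Q ⊓ spGL m F) ∨
  InSymplecticResidualClass H

theorem five_le_of_odd (hq : Odd (Fintype.card F)) (h3 : Fintype.card F ≠ 3) :
    5 ≤ Fintype.card F := by
  have := two_le_card_field (F := F)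
  obtain ⟨k, hk⟩ := hq
  omega

theorem even_of_ndDec {ι : Type} [Fintype ι] [DecidableEq ι] {f : (ι → F) → (ι → F) → F}
    (hf : IsSymplecticForm f) {t k : ℕ} {D : Fin t → Submodule F (ι → F)}
    (hD : IsNondegenerateMDecomposition f k D) : Even k := by
  obtain ⟨e, B, hB⟩ := IsMDecomposition.exists_blocks hD.decomp
  obtain ⟨G, h0, h1, -⟩ := hB.pull_eq (fc_of_symplectic hf) hD.orthogonal
  let j : Fin t := ⟨0, by have := hD.decomp.two_le; omega⟩
  simpa using even_card_of_symplectic (isSymplecticForm_frm (h0 j) (by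
    ext a b; rw [Matrix.transpose_apply, Matrix.neg_apply, h1, h1, hf.skew]) fun a => by
      rw [h1, hf.alternating])

section
variable (hm : 2 ≤ m) (hQ : QS (spGL m F)) (hH : IsMaximalIn (spGL m F) H)
include hm hQ hH

omit hQ in
theorem spMax_of_c8 (hq : ¬ Odd (Fintype.card F)) (h : SpC8 (sympForm m F) H) : SpMax m H := by
  obtain ⟨Q, h1, h2, h⟩ := h
  unfold SpMax
  iterate 10 right
  exact Or.inl ⟨hq, Q, h1, h2, eq_inf_of_maximal hH (le_quadSimilarityGroup_of_fixesQuad h)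
    (Sp_not_le_quadSimilarity hm h1 h2)⟩

omit hQ in
theorem spMax_of_nd {t k : ℕ} {D : Fin t → Submodule F (Fin m ⊕ Fin m → F)}
    (hD : IsNondegenerateMDecomposition (sympForm m F) k D) (h : H ≤ decompositionStabilizer D) :
    SpMax m H := by
  have hf := Max.isSymplecticForm_sympForm (F := F) m
  by_cases h2 : k = 2 ∧ Fintype.card F = 2
  · obtain ⟨rfl, h2⟩ := h2
    exact spMax_of_c8 hm hH (by rw [h2]; decide) (spC8_of_planes_two h2 hf hD hH.1.le h)
  have := two_le_card_field (F := F)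
  exact Or.inr <| Or.inr <| Or.inl ⟨t, k, D, by
    simpa [two_mul] using IsMDecomposition.card_eq' hD.decomp, hD.decomp.two_le,
    even_of_ndDec hf hD, by omega, hD,
    eq_inf_of_maximal hH h (Sp_not_le_decomposition hD.decomp)⟩

omit hm hQ in
theorem spMax_of_ti (hq : Odd (Fintype.card F)) {e : Matrix (Fin m ⊕ Fin m) (Fin m ⊕ Fin m) F}
    {k : ℕ} (h : TiPair (RingEquiv.refl F) (sympForm m F) H e k) : SpMax m H := by
  obtain rfl : k = m := by
    have := IsMDecomposition.card_eq' h.dec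
    simp only [Fintype.card_sum, Fintype.card_fin] at this
    omega
  refine Or.inr <| Or.inr <| Or.inr <| Or.inl ⟨hq, fun h2 => five_le_of_odd hq fun h3 => ?_, _,
    h.dec, h.ti, eq_inf_of_maximal hH h.le (Sp_not_le_decomposition h.dec)⟩
  exact h.false_three h3 (by simp [h2]) (Max.isSymplecticForm_sympForm k) hH

theorem spMax_of_selfadj {r : ℕ} {K : Subalgebra F (Matrix (Fin m ⊕ Fin m) (Fin m ⊕ Fin m) F)}
    (h : AdjField (RingEquiv.refl F) (sympForm m F) H r K)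
    (hs : IsSelfAdjointFor (sympForm m F) K) : SpMax m H := by
  have hf := Max.isSymplecticForm_sympForm (F := F) m
  have : Nonempty (Fin m) := ⟨⟨0, by omega⟩⟩
  have ha := alt_of_selfadj hf h.field ((fc_of_symplectic hf).isSelfAdjointFor_iff.1 hs)
  have h1 := two_mul_dvd_of_selfadj hf h.field hs ha
  rw [Fintype.card_sum, Fintype.card_fin, ← two_mul] at h1
  exact Or.inr <| Or.inr <| Or.inr <| Or.inr <| Or.inl ⟨r, K, h.prime,
    Nat.dvd_of_mul_dvd_mul_left two_pos h1, h.field, hs, ha, eq_inf_of_maximal hH h.le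
      (not_le_subalgebraNormalizer hQ.perfect hQ.spans h.field h.prime.ne_one)⟩

theorem spMax_of_unitary (hq : Odd (Fintype.card F))
    {K : Subalgebra F (Matrix (Fin m ⊕ Fin m) (Fin m ⊕ Fin m) F)}
    (h : AdjField (RingEquiv.refl F) (sympForm m F) H 2 K)
    (hs : ¬ IsSelfAdjointFor (sympForm m F) K) : SpMax m H := by
  have hf := Max.isSymplecticForm_sympForm (F := F) m
  have : Nonempty (Fin m) := ⟨⟨0, by omega⟩⟩
  refine Or.inr <| Or.inr <| Or.inr <| Or.inr <| Or.inr <| Or.inl ⟨hq,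
    fun h2 => five_le_of_odd hq fun h3 => ?_, K, h.field,
    (fc_of_symplectic hf).isAdjointClosedFor h.adj_mem, hs, eq_inf_of_maximal hH h.le
      (not_le_subalgebraNormalizer hQ.perfect hQ.spans h.field (by decide))⟩
  exact h.false_three h3 (by simp [h2]) hf hH hs

theorem spMax_of_comm (hq : Odd (Fintype.card F)) (hirr : Irr H)
    {K : Subalgebra F (Matrix (Fin m ⊕ Fin m) (Fin m ⊕ Fin m) F)}
    (hK : CommAlg (RingEquiv.refl F) (sympForm m F) H K) : SpMax m H := by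
  have hc := fc_of_symplectic (Max.isSymplecticForm_sympForm (F := F) m)
  have : Nonempty (Fin m) := ⟨⟨0, by omega⟩⟩
  rcases hK.cases hc hirr (hH.1.le.trans (isoG_le_sim _)) with
    ⟨-, r, L, -, hL⟩ | ⟨t, k, D, hD⟩ | ⟨e, -, k, he⟩
  · by_cases hs : IsSelfAdjointFor (sympForm m F) L
    · exact spMax_of_selfadj hm hQ hH hL hs
    obtain rfl : r = 2 := hL.prime.eq_two_or_odd'.resolve_right fun h =>
      hs (hc.isSelfAdjointFor_iff.2 (hc.selfadj_of_odd hL.field h hL.adj_mem))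
    exact spMax_of_unitary hm hQ hH hq hL hs
  · exact spMax_of_nd hm hH hD.dec hD.le
  · exact spMax_of_ti hH hq he

theorem spMax_of_extra {R : Subgroup (GL (Fin m ⊕ Fin m) F)} {k : ℕ}
    (h : SpExtra (sympForm m F) H R k) : SpMax m H := by
  have : Nonempty (Fin m) := ⟨⟨0, by omega⟩⟩
  obtain ⟨h1, h2, h3, h4, h5, h6⟩ := h.props (Max.isSymplecticForm_sympForm (F := F) m)
  obtain ⟨H', -, h7, h8⟩ := h.extra
  unfold SpMax
  iterate 8 right
  exact Or.inl ⟨k, R, by simpa [two_mul] using h6, h.prime, h.odd, h1, h2, h3, h.card_R, h.center,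
    h4, eq_inf_of_maximal hH h5 (hQ.not_le_normalizer (by simp; omega) h7 h8)⟩

omit hm in
theorem spMax_of_cube (hq : Odd (Fintype.card F)) {k t : ℕ} {e : Fin m ⊕ Fin m ≃ (Fin t → Fin k)}
    {B : GL (Fin m ⊕ Fin m) F} {f₁ : (Fin k → F) → (Fin k → F) → F} (ht : 3 ≤ t) (hk : 2 ≤ k)
    (h3 : ¬ (Fintype.card F = 3 ∧ k = 2)) (h₁ : IsSymplecticForm f₁)
    (h : IsTensorPowerFormStructure id (sympForm m F) f₁ e B)
    (hle : H ≤ tensorWreathSubgroup k t e B) : SpMax m H := by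
  have h1 : 2 * m = k ^ t := by simpa [two_mul] using Fintype.card_congr e
  have h2 : 1 ≤ m := by
    have := pow_pos (show 0 < k by omega) t
    omega
  unfold SpMax
  iterate 9 right
  exact Or.inl ⟨hq, k, t, e, B, f₁, h1, ht, hk, fun h2 => five_le_of_odd hq fun h => h3 ⟨h, h2⟩, h₁,
    h, fun h4 => eq_inf_of_maximal hH hle (hQ.not_le_wreath (hasRoot_Sp h2) hk (by omega) h4.le
      (Nat.one_lt_pow (by omega) hk) e B)⟩

theorem spMax : SpMax m H := by
  have hf := Max.isSymplecticForm_sympForm (F := F) m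
  have hc := fc_of_symplectic hf
  have hι : Fintype.card (Fin m ⊕ Fin m) = 2 * m := by simp [two_mul]
  have : Nonempty (Fin m) := ⟨⟨0, by omega⟩⟩
  have hs : H ≤ similarityGroup (sympForm m F) := hH.1.le.trans (isoG_le_sim _)
  rcases spAlt (by omega) hf hH.1.le with ⟨W, h1, h2, h⟩ | ⟨W, h1, h2, h3, h⟩ | ⟨t, k, D, h1, h⟩ |
    ⟨hq, e, k, h⟩ | ⟨r, K, h1, h2, -⟩ | ⟨hq, K, h1, h2⟩ |
    ⟨hq, hirr, k, l, e, B, f₁, f₂, h1, h0, h2, h3, h4, h⟩ | ⟨F₀, r, P, ζ, h1, h2, h3, h4, h⟩ |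
    ⟨k, R, h⟩ | ⟨hq, k, t, e, B, f₁, -, h1, h2, h3, h4, h5, h⟩ | ⟨hq, h⟩ | h
  · refine Or.inl ⟨W, h1, h2, eq_inf_of_maximal hH h (hQ.spans.irr.not_le_stabilizer h1 ?_)⟩
    rintro rfl
    obtain ⟨u, v, h⟩ := hc.exists_ne
    exact h (h2 u trivial v trivial)
  · refine Or.inr <| Or.inl ⟨W, h1, h2, by omega,
      eq_inf_of_maximal hH h (hQ.spans.irr.not_le_stabilizer h1 ?_)⟩
    rintro rfl
    rw [finrank_top, Module.finrank_fintype_fun_eq_card] at h3
    omega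
  · exact spMax_of_nd hm hH h1 h
  · exact spMax_of_ti hH hq h
  · exact spMax_of_selfadj hm hQ hH h1 h2
  · exact spMax_of_unitary hm hQ hH hq h1 h2
  · have h5 : 2 * m = k * l := by simpa [two_mul] using Fintype.card_congr e
    have h6 : Even k := by simpa using even_card_of_symplectic h2
    have h7 : 2 ≤ k := by
      obtain ⟨j, rfl⟩ := h6
      rcases Nat.eq_zero_or_pos j with rfl | hj
      · omega
      · omega
    by_cases hp : k = 2 ∧ l = 4 ∧ IsPlusTypeOn (fun v => f₂ v v) ⊤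
    · obtain ⟨rfl, rfl, hp⟩ := hp
      by_cases hq3 : Fintype.card F = 3
      · rcases h4.solvConc_plus_three hq3 hf h3 hp hirr hs h with ⟨K, hK⟩ | ⟨k, R, hR, hR'⟩
        · exact spMax_of_comm hm hQ hH hq hirr hK
        refine spMax_of_extra hm hQ hH (R := R) (k := k) ⟨⟨_, le_sup_left, sup_le hH.1.le hR', hR⟩,
          by rw [hq3]; decide, hq, hR.center_card.resolve_right fun h8 => ?_⟩
        obtain ⟨c, hc1, hc2, -⟩ := hR.exists_root
        have h9 := orderOf_dvd_natCard c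
        rw [hc1, h8.2, Nat.card_units, Nat.card_eq_fintype_card, hq3] at h9
        exact absurd h9 (by decide)
      · obtain ⟨e', B', h8, h9⟩ := h4.exists_cube (two_ne_zero_of_odd hq) hf h2 h3 hp hs h
        exact spMax_of_cube hQ hH hq le_rfl le_rfl (fun h => hq3 h.1) isSymplecticForm_J2
          (h8.struct hc) h9
    unfold SpMax
    iterate 6 right
    exact Or.inl ⟨hq, k, l, e, B, f₁, f₂, h5, h6, h1,
      fun hl => five_le_of_odd hq fun h => h0 ⟨h, hl⟩, fun a b c => hp ⟨a, b, c⟩, h2, h3,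
      h4.struct hc, eq_inf_of_maximal hH h (hQ.not_le_tensor (hasRoot_Sp (by omega)) h7 (by omega)
        (Or.inl (by omega)) e B)⟩
  · unfold SpMax
    iterate 7 right
    exact Or.inl ⟨F₀, r, P, ζ, h1, h2, h3, h4, eq_inf_of_maximal hH h
      (Sp_not_le_subfield (by omega) hQ.perfect (ne_top_of_card_pow h1 h2) P)⟩
  · exact spMax_of_extra hm hQ hH h
  · exact spMax_of_cube hQ hH hq h1 h2 h3 h4 h5 h
  · exact spMax_of_c8 hm hH hq h
  · unfold SpMax
    iterate 11 right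
    exact h

end

theorem cube_dims {n k t : ℕ} (h : n = k ^ t) (ht : 3 ≤ t) (hk : 2 ≤ k) (hn : n ≤ 15) :
    n = 8 ∧ k = 2 ∧ t = 3 := by
  have h1 : k ^ 3 ≤ k ^ t := Nat.pow_le_pow_right (by omega) ht
  obtain rfl : k = 2 := by
    by_contra h2
    have : 3 ^ 3 ≤ k ^ 3 := Nat.pow_le_pow_left (by omega) 3
    omega
  obtain rfl : t = 3 := by
    by_contra h2
    have : 2 ^ 4 ≤ 2 ^ t := Nat.pow_le_pow_right (by omega) (by omega)
    omega
  exact ⟨h, rfl, rfl⟩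

end Cfsg.Agent.Class.Asch
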