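import Cfsg.Agent.Class.Asch.UAsch
import Cfsg.Agent.Class.Sp.Simple

/-! The symplectic group is not contained in a geometric subgroup. -/

set_option autoImplicit false

namespace Cfsg.Agent.Class.Asch

open Cfsg.Geo
open scoped MatrixGroups Matrix Kronecker commutatorElement

variable {F : Type*} [Field F] {m : ℕ}

theorem toGL_mem_spGL (g : Matrix.symplecticGroup (Fin m) F) : Sp.toGL g ∈ spGL m F :=
  Sp.mem_spGL_iff.2 g.2

theorem range_Sp_toGL : (Sp.toGL (m := m) (F := F)).range = spGL m F := by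
  ext g
  exact ⟨fun ⟨x, hx⟩ => hx ▸ toGL_mem_spGL x,
    fun h => ⟨⟨g, Sp.mem_spGL_iff.1 h⟩, Units.ext rfl⟩⟩

theorem exists_Sp_move {v w : Fin m ⊕ Fin m → F} (hv : v ≠ 0) (hw : w ≠ 0) :
    ∃ g ∈ spGL m F, (g : Matrix _ _ F) *ᵥ v = w := by
  obtain ⟨g, hg⟩ := Sp.exists_smul_eq hv hw
  exact ⟨_, toGL_mem_spGL g, hg⟩

/-- a symplectic transvection -/
def spTv (v : Fin m ⊕ Fin m → F) (c : F) : GL (Fin m ⊕ Fin m) F := Sp.toGL (Sp.tv v c)

theorem spTv_mem (v : Fin m ⊕ Fin m → F) (c : F) : spTv v c ∈ spGL m F := toGL_mem_spGL _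

theorem coe_spTv (v : Fin m ⊕ Fin m → F) (c : F) :
    (spTv v c : Matrix _ _ F) = 1 + c • Matrix.vecMulVec v (Matrix.J (Fin m) F *ᵥ v) := rfl

theorem spTv_mulVec (v : Fin m ⊕ Fin m → F) (c : F) (x : Fin m ⊕ Fin m → F) :
    (spTv v c : Matrix _ _ F) *ᵥ x = x + (c * sympForm m F x v) • v := Sp.transvection_mulVec v c x

theorem spans_Sp : Spans (spGL m F) := by
  rw [spans_iff, eq_top_iff]
  intro X _
  have hf := fc_of_symplectic (Max.isSymplecticForm_sympForm (F := F) m)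
  have h0 : ∀ u v x : Fin m ⊕ Fin m → F, Matrix.vecMulVec u (Matrix.J (Fin m) F *ᵥ v) *ᵥ x =
      sympForm m F x v • u := fun u v x => by
    rw [Matrix.vecMulVec_mulVec, sympForm, dotProduct_comm]; simp
  have h1 : ∀ u v : Fin m ⊕ Fin m → F, u ≠ 0 → v ≠ 0 →
      Matrix.vecMulVec u (Matrix.J (Fin m) F *ᵥ v) ∈ spanAlg F (spGL m F) := by
    intro u v hu hv
    obtain ⟨g, hg, rfl⟩ := exists_Sp_move hv hu
    have := Subalgebra.mul_mem _ (coe_mem_spanAlg (K := F) hg) (Subalgebra.sub_mem _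
      (coe_mem_spanAlg (K := F) (spTv_mem v 1)) (spanAlg F (spGL m F)).one_mem)
    rw [coe_spTv, add_sub_cancel_left, one_smul] at this
    convert this using 1
    refine ext_mulVec fun x => ?_
    rw [← Matrix.mulVec_mulVec, h0, h0, Matrix.mulVec_smul]
  rw [matrix_eq_sum_smul_single X]
  refine Subalgebra.sum_mem _ fun i _ => Subalgebra.sum_mem _ fun j _ => Subalgebra.smul_mem _ ?_ _
  have h2 : Matrix.J (Fin m) F *ᵥ (-(Matrix.J (Fin m) F *ᵥ Pi.single j 1)) = Pi.single j 1 := by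
    rw [Matrix.mulVec_neg, Matrix.mulVec_mulVec, Matrix.J_squared, Matrix.neg_mulVec,
      Matrix.one_mulVec, neg_neg]
  have h3 := h1 (Pi.single i 1) (-(Matrix.J (Fin m) F *ᵥ Pi.single j 1)) (by simp) fun h => by
    rw [h, Matrix.mulVec_zero] at h2
    simpa using congrFun h2 j
  rw [h2] at h3
  convert h3 using 1
  ext a b
  simp only [Matrix.vecMulVec_apply, Pi.single_apply, Matrix.single_apply, ite_and, eq_comm]
  split_ifs <;> simp

theorem qs_Sp [Fintype F] (hm : 1 ≤ m)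
    (h : 3 ≤ m ∨ (m = 2 ∧ 3 ≤ Fintype.card F) ∨ 4 ≤ Fintype.card F) : QS (spGL m F) := by
  haveI : Nonempty (Fin m ⊕ Fin m) := ⟨Sum.inl ⟨0, hm⟩⟩
  have hp := Sp.commutator_eq_top (m := m) (F := F) (by rwa [Nat.card_eq_fintype_card])
  exact qs_of_hom _ range_Sp_toGL hp (fun N _ => (Sp.le_center_or_commutator_le N).imp id
    fun h' => top_le_iff.1 (hp ▸ h')) spans_Sp

theorem hasRoot_Sp (hm : 1 ≤ m) : HasRoot (spGL m F) 1 := by
  let i : Fin m := ⟨0, hm⟩
  let v : Fin m ⊕ Fin m → F := Pi.single (Sum.inl i) 1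
  have hb := (Max.isSymplecticForm_sympForm (F := F) m).bilinear
  refine ⟨spTv v 1, spTv_mem v 1, fun hz => ?_, LinearMap.ker ((toBilin hb).flip v),
    fun w hw => ?_, finrank_ker_ge _⟩
  · obtain ⟨c, hc⟩ := (mem_scalars_iff _).1 hz
    have h1 := spTv_mulVec v 1 (Pi.single (Sum.inr i) 1)
    rw [hc, Sp.form_single_inr_left] at h1
    simpa [v] using congrFun h1 (Sum.inl i)
  · have hw' : sympForm m F w v = 0 := hw
    rw [spTv_mulVec, hw']; simp

theorem Sp_not_le_decomposition {t k : ℕ} {D : Fin t → Submodule F (Fin m ⊕ Fin m → F)}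
    (hD : IsMDecomposition k D) : ¬ spGL m F ≤ decompositionStabilizer D := by
  intro h
  have ht := hD.two_le
  obtain ⟨v, hv, hv0⟩ := IsMDecomposition.exists_ne_zero' hD ⟨0, by omega⟩
  obtain ⟨s, hs, hs0⟩ := IsMDecomposition.exists_ne_zero' hD ⟨1, by omega⟩
  have hn := IsMDecomposition.add_notMem' hD hv hv0 (mem_iSup_ne (by simp) hs) hs0
  obtain ⟨g, hg, h1⟩ := exists_Sp_move hv0 (w := v + s)
    fun h0 => hn ⟨0, by omega⟩ (h0 ▸ Submodule.zero_mem _)
  exact not_mem_decompositionStabilizer hv (fun j => h1 ▸ hn j) (h hg)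

theorem Sp_not_le_subfield (hm : 1 ≤ m) (hp : ⁅spGL m F, spGL m F⁆ = spGL m F) {F₀ : Subfield F}
    (h0 : F₀ ≠ ⊤) (B : GL (Fin m ⊕ Fin m) F) : ¬ spGL m F ≤ subfieldSubgroup F₀ B := by
  intro h
  let i : Fin m := ⟨0, hm⟩
  refine h0 (eq_top_iff.2 fun c _ => ?_)
  have h1 := trace_mem_of_le_subfieldSubgroup hp h ((spGL m F).mul_mem
    (spTv_mem (Pi.single (Sum.inl i) 1) c) (spTv_mem (Pi.single (Sum.inr i) 1) 1))
  have h2 := trace_mem_of_le_subfieldSubgroup hp h (spGL m F).one_mem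
  have h3 := F₀.sub_mem h2 h1
  simp only [Units.val_mul, coe_spTv, add_mul, mul_add, one_mul, mul_one, one_smul,
    Matrix.trace_add, smul_mul_assoc, Matrix.trace_smul, Matrix.vecMulVec_mul_vecMulVec,
    Matrix.trace_vecMulVec, Units.val_one] at h3
  simpa [Matrix.J, Matrix.fromBlocks_mulVec, dotProduct, Fintype.sum_sum_type, Pi.single_apply]
    using h3

theorem Sp_not_le_quadSimilarity (hm : 2 ≤ m) {Q : (Fin m ⊕ Fin m → F) → F}
    (hQ : IsNondegenerateQuadraticForm Q)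
    (hp : ∀ u v, QuadraticMap.polar Q u v = sympForm m F u v) :
    ¬ spGL m F ≤ quadSimilarityGroup Q := by
  intro h
  have h1 : ∀ w, w ≠ 0 → Q w = -1 := by
    intro w hw
    obtain ⟨c, hc⟩ := h (spTv_mem w 1)
    obtain ⟨x, hx⟩ := Sp.exists_form_eq_one hw
    have h2 := polar_mulVec hc w x
    rw [hp, hp, mem_isoG.1 (spTv_mem w 1), hx, mul_one] at h2
    have h3 := hc x
    have h4 := hp x (-w)
    rw [spTv_mulVec, ← h2, one_mul, one_mul, Sp.form_skew, hx, neg_one_smul] at h3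
    rw [QuadraticMap.polar, h3, Sp.form_neg_right, Sp.form_skew, hx, ← neg_one_smul F w,
      hQ.smul] at h4
    linear_combination -h4
  let i : Fin m := ⟨0, by omega⟩
  let j : Fin m := ⟨1, by omega⟩
  have hij : i ≠ j := by simp [i, j]
  have h2 := hp (Pi.single (Sum.inl i) 1) (Pi.single (Sum.inl j) 1)
  rw [QuadraticMap.polar, h1 (Pi.single (Sum.inl i) 1) (by simp),
    h1 (Pi.single (Sum.inl j) 1) (by simp), h1 _ (fun h => by
    simpa [hij] using congrFun h (Sum.inl i)), Sp.form_single_inl_inl] at h2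
  simp at h2

end Cfsg.Agent.Class.Asch
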