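import Cfsg.Agent.Class.Asch.Sp43
import Cfsg.Agent.Class.Asch.SpProp

/-! Containments between geometric subgroups of small symplectic groups. -/

set_option autoImplicit false

namespace Cfsg.Agent.Class.Asch

open Cfsg.Geo
open scoped MatrixGroups Matrix Kronecker commutatorElement

variable {ι : Type} [Fintype ι] [DecidableEq ι] {F : Type*} [Field F]

theorem cj_bmGL_blockDiagonal {α τ : Type} [Fintype α] [DecidableEq α] [Fintype τ] [DecidableEq τ]
    (σ : Equiv.Perm τ) (gs : τ → GL α F) (a : τ → Matrix α α F) :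
    cj (bmGL σ gs) (Matrix.blockDiagonal a) =
      Matrix.blockDiagonal fun j => cj (gs (σ⁻¹ j)) (a (σ⁻¹ j)) := by
  refine (Units.isUnit (bmGL σ gs)).mul_right_cancel ?_
  rw [cj_mul_self, coe_bmGL, ← bm_one, ← bm_one, bm_mul, bm_mul, mul_one, one_mul]
  congr 1
  ext j : 1
  simp [cj_mul_self]

theorem gram_adj_two {G : Matrix (Fin 2) (Fin 2) F} (h0 : ∀ i, G i i = 0) (h1 : G 1 0 = -G 0 1)
    (a : Matrix (Fin 2) (Fin 2) F) : G * (a.trace • 1 - a) = aᵀ * G := by
  ext i j
  fin_cases i <;> fin_cases j <;>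
    simp [Matrix.mul_apply, Fin.sum_univ_two, Matrix.trace, h0, h1] <;> ring

variable {f : (ι → F) → (ι → F) → F}

theorem IsBlocks.adj_planes (hf : IsSymplecticForm f) {τ : Type} [Fintype τ] [DecidableEq τ]
    {D : τ → Submodule F (ι → F)} {e : ι ≃ Fin 2 × τ} {B : GL ι F} (h : IsBlocks D e B)
    (ho : ∀ i j, i ≠ j → AreOrthogonalFor f (D i) (D j)) (a : τ → Matrix (Fin 2) (Fin 2) F) :
    adj (RingEquiv.refl F) f (tr e B (Matrix.blockDiagonal a)) =
      tr e B (Matrix.blockDiagonal fun j => (a j).trace • 1 - a j) := by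
  have hc := fc_of_symplectic hf
  obtain ⟨G, -, h1, h2⟩ := h.pull_eq hc ho
  rw [hc.adj_tr]
  congr 1
  refine (hc.pull e B).adj_unique_gram ?_
  rw [h2, gram_frm, Matrix.blockDiagonal_transpose, ← Matrix.blockDiagonal_mul,
    Matrix.blockDiagonal_map _ _ (map_zero _), ← Matrix.blockDiagonal_mul]
  congr 1
  ext j : 1
  exact gram_adj_two (fun i => by rw [h1, hf.alternating]) (by rw [h1, h1, hf.skew]) _

theorem cj_omega_two [Fintype F] (hq : Fintype.card F = 2) (g : GL (Fin 2) F) :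
    ∃ c : F, cj g !![0, 1; 1, 1] = c • 1 + !![0, 1; 1, 1] := by
  have h2 : (1 : F) + 1 = 0 := by
    have := two_eq_zero_of_not_odd (F := F) (by rw [hq]; decide)
    rwa [← one_add_one_eq_two] at this
  have hn : (-1 : F) = 1 := by linear_combination -h2
  have hw : (!![0, 1; 1, 1] : Matrix (Fin 2) (Fin 2) F) * !![0, 1; 1, 1] =
      !![0, 1; 1, 1] - 1 := by
    ext i j; fin_cases i <;> fin_cases j <;> simp [Matrix.mul_apply, h2, hn]
  have h := congrArg (cj g) hw
  rw [map_mul, map_sub, map_one] at h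
  generalize cj g !![0, 1; 1, 1] = X at h
  have h00 := congrFun (congrFun h 0) 0
  have h01 := congrFun (congrFun h 0) 1
  have h10 := congrFun (congrFun h 1) 0
  simp only [Matrix.mul_apply, Fin.sum_univ_two, Matrix.sub_apply, Matrix.one_apply_eq,
    ne_eq, zero_ne_one, not_false_eq_true, Matrix.one_apply_ne, one_ne_zero, sub_zero]
    at h00 h01 h10
  refine ⟨X 0 0, ?_⟩
  ext i j
  rcases eq_zero_or_one_of_card_two hq (X 0 0) with a | a <;>
  rcases eq_zero_or_one_of_card_two hq (X 0 1) with b | b <;>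
  rcases eq_zero_or_one_of_card_two hq (X 1 0) with c | c <;>
  rcases eq_zero_or_one_of_card_two hq (X 1 1) with d | d <;>
  fin_cases i <;> fin_cases j <;> simp_all

theorem spC8_of_planes_two [Fintype F] (hq : Fintype.card F = 2) (hf : IsSymplecticForm f) {t : ℕ}
    {D : Fin t → Submodule F (ι → F)} (hD : IsNondegenerateMDecomposition f 2 D)
    {H : Subgroup (GL ι F)} (hI : H ≤ isoG f) (hle : H ≤ decompositionStabilizer D) : SpC8 f H := by
  obtain ⟨e, B, hB⟩ := IsMDecomposition.exists_blocks hD.decomp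
  have h1 : tr e B (Matrix.blockDiagonal fun _ => !![0, 1; 1, 1]) + adj (RingEquiv.refl F) f
      (tr e B (Matrix.blockDiagonal fun _ : Fin t => !![0, 1; 1, 1])) = 1 := by
    rw [hB.adj_planes hf hD.orthogonal, ← map_add, ← Matrix.blockDiagonal_add, ← map_one (tr e B),
      ← Matrix.blockDiagonal_one]
    congr 2
    ext j : 1
    simp
  refine spC8_of_omega (two_eq_zero_of_not_odd (by rw [hq]; decide)) hf h1 hI
    fun g hg => ⟨_, h1, rfl, ?_⟩
  obtain ⟨σ, gs, rfl⟩ := hB.exists_bmGL (hle hg)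
  rw [← tr_cj, cj_bmGL_blockDiagonal, ← map_mul, ← map_mul, ← Matrix.blockDiagonal_mul,
    ← Matrix.blockDiagonal_mul]
  congr 2
  ext j : 1
  obtain ⟨c, hc⟩ := cj_omega_two hq (gs (σ⁻¹ j))
  rw [hc, add_mul, mul_add, smul_mul_assoc, mul_smul_comm, one_mul, mul_one]

theorem TiPair.false_three [Fintype F] (hq : Fintype.card F = 3) (hι : Fintype.card ι = 4)
    (hf : IsSymplecticForm f) {H : Subgroup (GL ι F)} (hH : IsMaximalIn (isoG f) H)
    {e : Matrix ι ι F} {m : ℕ} (h : TiPair (RingEquiv.refl F) f H e m) : False := by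
  have hc := fc_of_symplectic hf
  refine sp4_three_false hq hι hf (j := e - (1 - e)) (δ := 1) ?_ (Or.inl rfl) ?_ hH fun g hg => ?_
  · rw [hc.adj_sub, hc.adj_sub, hc.adj_one, h.adj_eq]; abel
  · simp only [sub_mul, mul_sub, h.idem, one_mul, mul_one, one_smul]; abel
  · rw [map_sub, map_sub, map_one]
    rcases h.perm g hg with h1 | h1 <;> rw [h1]
    · exact Or.inl rfl
    · right; abel

theorem AdjField.exists_skew [Fintype F] [Nonempty ι] {ε : F} (hc : FC (RingEquiv.refl F) ε f)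
    (h2 : (2 : F) ≠ 0) {H : Subgroup (GL ι F)} (hI : H ≤ similarityGroup f)
    {K : Subalgebra F (Matrix ι ι F)} (h : AdjField (RingEquiv.refl F) f H 2 K)
    (hs : ¬ IsSelfAdjointFor f K) : ∃ j ∈ K, ∃ δ : F, δ ≠ 0 ∧ adj (RingEquiv.refl F) f j = -j ∧
      j * j = δ • 1 ∧ ∀ g ∈ H, ∃ c : F, c ≠ 0 ∧ cj g j = c • j := by
  rw [hc.isSelfAdjointFor_iff] at hs
  push Not at hs
  obtain ⟨x, hx, h1⟩ := hs
  have hj : x - adj (RingEquiv.refl F) f x ∈ K := K.sub_mem hx (h.adj_mem x hx)
  have h0 : x - adj (RingEquiv.refl F) f x ≠ 0 := sub_ne_zero.2 h1.symm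
  have ha : adj (RingEquiv.refl F) f (x - adj (RingEquiv.refl F) f x) =
      -(x - adj (RingEquiv.refl F) f x) := by rw [hc.adj_sub, hc.adj_adj, neg_sub]
  generalize x - adj (RingEquiv.refl F) f x = j at hj h0 ha
  have hz : ∀ (c : F) (y : Matrix ι ι F), y ≠ 0 → c • y = -(c • y) → c = 0 := fun c y hy h => by
    have : (2 * c) • y = 0 := by rw [two_mul, add_smul]; exact add_eq_zero_iff_eq_neg.2 h
    exact ((mul_eq_zero.1 ((smul_eq_zero.1 this).resolve_right hy))).resolve_left h2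
  have hns : ¬ ∃ c : F, j = c • 1 := by
    rintro ⟨c, rfl⟩
    rw [hc.adj_smul_one] at ha
    rw [hz c 1 one_ne_zero ha, zero_smul] at h0
    exact h0 rfl
  obtain ⟨a, b, h3⟩ := IsFieldSubalgebra.exists_eq_of_two h.field hj hns (K.mul_mem hj hj)
  have h4 := congrArg (adj (RingEquiv.refl F) f) h3
  rw [hc.adj_mul, ha, neg_mul_neg, h3, hc.adj_add, hc.adj_smul_one, hc.adj_smul, ha, smul_neg,
    RingEquiv.refl_apply, RingEquiv.refl_apply, add_right_inj] at h4
  rw [hz b j h0 h4, zero_smul, add_zero] at h3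
  refine ⟨j, hj, a, ?_, ha, h3, fun g hg => ?_⟩
  · rintro rfl
    obtain ⟨y, -, hy⟩ := h.field.inv j hj h0
    refine h0 ?_
    rw [← mul_one j, ← hy, ← mul_assoc, h3, zero_smul, zero_mul]
  obtain ⟨c, d, h5⟩ := IsFieldSubalgebra.exists_eq_of_two h.field hj hns
    (cj_mem_of_le_normalizer h.le hg hj)
  have h6 := hc.adj_cj (hI hg) j
  rw [ha, map_neg, h5, hc.adj_add, hc.adj_smul_one, hc.adj_smul, ha, smul_neg, neg_add,
    RingEquiv.refl_apply, RingEquiv.refl_apply, add_left_inj] at h6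
  rw [hz c 1 one_ne_zero h6, zero_smul, zero_add] at h5
  refine ⟨d, ?_, h5⟩
  rintro rfl
  rw [zero_smul, EmbeddingLike.map_eq_zero_iff] at h5
  exact h0 h5

theorem AdjField.false_three [Fintype F] (hq : Fintype.card F = 3) (hι : Fintype.card ι = 4)
    (hf : IsSymplecticForm f) {H : Subgroup (GL ι F)} (hH : IsMaximalIn (isoG f) H)
    {K : Subalgebra F (Matrix ι ι F)} (h : AdjField (RingEquiv.refl F) f H 2 K)
    (hs : ¬ IsSelfAdjointFor f K) : False := by
  have := nonempty_of_two_le (ι := ι) (by omega)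
  obtain ⟨j, -, δ, h0, h1, h2, h3⟩ := h.exists_skew (fc_of_symplectic hf)
    (two_ne_zero_of_odd (by rw [hq]; decide)) (hH.1.le.trans (isoG_le_sim f)) hs
  refine sp4_three_false hq hι hf h1 (mul_self_eq_one_iff.1 (sq_eq_one_of_card_three hq h0)) h2 hH
    fun g hg => ?_
  obtain ⟨c, hc, h4⟩ := h3 g hg
  rcases mul_self_eq_one_iff.1 (sq_eq_one_of_card_three hq hc) with rfl | rfl
  · exact Or.inl (by rw [h4, one_smul])
  · exact Or.inr (by rw [h4, neg_one_smul])

/-- `Sp₂ ⊗ O₄⁺` lies in a tensor-cube stabiliser. -/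
theorem TensForm.exists_cube [Nonempty ι] (h2 : (2 : F) ≠ 0) (hf : IsSymplecticForm f)
    {e : ι ≃ Fin 2 × Fin 4} {B : GL ι F} {f₁ : (Fin 2 → F) → (Fin 2 → F) → F}
    {f₂ : (Fin 4 → F) → (Fin 4 → F) → F} (h₁ : IsSymplecticForm f₁) (h₂ : IsSymmetricForm f₂)
    (hp : IsPlusTypeOn (fun v => f₂ v v) ⊤) (h : TensForm (RingEquiv.refl F) f e B (-1) 1 f₁ f₂)
    {H : Subgroup (GL ι F)} (hI : H ≤ similarityGroup f)
    (hle : H ≤ tensorProductSubgroup 2 4 e B) : ∃ (e' : ι ≃ (Fin 3 → Fin 2)) (B' : GL ι F),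
      PowForm (RingEquiv.refl F) f e' B' (-1) (formOfGram (RingEquiv.refl F) (J2 F)) ∧
      H ≤ tensorWreathSubgroup 2 3 e' B' := by
  have hc := fc_of_symplectic hf
  obtain ⟨e₂, B₂, h3, h4⟩ := exists_powForm_plus (by simp) h2 h₂ hp
  let φ : Fin 3 → (Matrix (Fin 2) (Fin 2) F →ₐ[F] Matrix ι ι F) :=
    Fin.cons (homL e B) fun i => (homR e B).comp (homS e₂ B₂ i)
  have h0 : ∀ a, φ 0 a = tr e B (a ⊗ₖ 1) := fun _ => rfl
  have hs : ∀ (i : Fin 2) a, φ i.succ a = tr e B (1 ⊗ₖ tr e₂ B₂ (slot i a)) := fun _ _ => rfl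
  obtain ⟨e', B', h5⟩ := exists_tr_slot two_pos φ (by
      intro i j hij a b
      induction i using Fin.cases with
      | zero => induction j using Fin.cases with
        | zero => exact absurd rfl hij
        | succ j => rw [h0, hs, ← map_mul, ← map_mul, kron_comm]
      | succ i => induction j using Fin.cases with
        | zero => rw [h0, hs, ← map_mul, ← map_mul, kron_comm]
        | succ j =>
          rw [hs, hs, ← map_mul, ← map_mul, ← Matrix.mul_kronecker_mul, ← Matrix.mul_kronecker_mul,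
            ← map_mul, ← map_mul, slot_comm fun h => hij (congrArg _ h)]) (by
      intro A hA
      have h6 : ∀ b, homR e B b ∈ A := fun b => by
        obtain ⟨Y, rfl⟩ := (tr e₂ B₂).surjective b
        refine slot_induction (p := fun Y => homR e B (tr e₂ B₂ Y) ∈ A) (by simp) (by simp) ?_ ?_ ?_
          (fun i X => hA i.succ X) Y
        · intro X Y hX hY; rw [map_mul, map_mul]; exact A.mul_mem hX hY
        · intro X Y hX hY; rw [map_add, map_add]; exact A.add_mem hX hY
        · intro c X hX; rw [map_smul, map_smul]; exact A.smul_mem hX c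
      rw [eq_top_iff]
      intro X _
      obtain ⟨Y, rfl⟩ := (tr e B).surjective X
      refine kron_induction (p := fun Y => tr e B Y ∈ A) (by simp) ?_ ?_ ?_ Y
      · intro X Y hX hY; rw [map_add]; exact A.add_mem hX hY
      · intro c X hX; rw [map_smul]; exact A.smul_mem hX c
      · intro a b
        rw [kron_eq_mul, map_mul]
        exact A.mul_mem (hA 0 a) (h6 b))
  refine ⟨e', B', ⟨fc_J2, fun h => absurd rfl h, fun i a => ?_⟩, fun g hg => ?_⟩
  · rw [← h5, ← h5, adj_J2]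
    induction i using Fin.cases with
    | zero => rw [h0, h0, h.adj_kron, h.fc₂.adj_one, adj_symp_two h₁]
    | succ i => rw [hs, hs, h.adj_kron, h.fc₁.adj_one, h3]
  obtain ⟨a, -, b, hb, rfl⟩ := exists_eq_kron_prj hle hg
  refine mem_tensorWreathSubgroup_of_slots le_rfl (by decide) e' B' _ fun i => ?_
  simp only [← h5]
  induction i using Fin.cases with
  | zero => exact ⟨0, fun X => ⟨cj a X, by rw [h0, h0, cj_trGL_kron, map_one]⟩⟩
  | succ i =>
    obtain ⟨j, c, h6⟩ := slot_perm_of_mem (h4 (h.swap.prj_le hc hI hb)) i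
    exact ⟨j.succ, fun X => ⟨cj c X, by rw [hs, hs, cj_trGL_kron, map_one, h6]⟩⟩

theorem TensForm.solvConc_plus_three [Fintype F] (hq : Fintype.card F = 3)
    (hf : IsSymplecticForm f) {e : ι ≃ Fin 2 × Fin 4} {B : GL ι F}
    {f₁ : (Fin 2 → F) → (Fin 2 → F) → F} {f₂ : (Fin 4 → F) → (Fin 4 → F) → F}
    (h₂ : IsSymmetricForm f₂) (hp : IsPlusTypeOn (fun v => f₂ v v) ⊤)
    (h : TensForm (RingEquiv.refl F) f e B (-1) 1 f₁ f₂) {H : Subgroup (GL ι F)} (hH : Irr H)
    (hI : H ≤ similarityGroup f) (hle : H ≤ tensorProductSubgroup 2 4 e B) :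
    SolvConc (RingEquiv.refl F) f H 2 := by
  have hι : Fintype.card ι = 8 := by simpa using Fintype.card_congr e
  have := nonempty_of_two_le (ι := ι) (by omega)
  have hc := fc_of_symplectic hf
  obtain ⟨e₂, B₂, -, h4⟩ := exists_powForm_plus (by simp)
    (two_ne_zero_of_odd (by rw [hq]; decide)) h₂ hp
  exact Asch.solvConc (fun c hc => sq_eq_one_of_card_three hq hc) Nat.prime_two 8 (a := 3) hι (by decide)
    (by decide) hc hH hI (solvable_of_prj hle (solvable_of_le le_top (solvable_GL_two_three hq))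
      (solvable_of_le ((h.swap.prj_le hc hI).trans h4)
        (solvable_wreath_two le_rfl (solvable_GL_two_three hq) e₂ B₂)))

end Cfsg.Agent.Class.Asch
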